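import Cfsg.Agent.Lib.H84.CharMisc
import Cfsg.Agent.Lib.H4.CenterIndex
import Cfsg.Agent.Lib.H72.PGroupCenter

/-!
Faithful characters of degree less than `2 p` of non-abelian `p`-groups.
-/

set_option autoImplicit false

namespace H84.LG1

open Cfsg H18.CharBasic H18.CharOrtho H18.CharQuot H84.CharMisc
open scoped commutatorElement

universe u

/-- commutators are in the kernel if all the constituents are linear -/
theorem ker_of_linear {P : Type u} [Group P] [Finite P] {ξ : P → ℂ} (hξ : IsCharacter P ξ)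
    (hlin : ∀ ψ : P → ℂ, IsIrrCharacter P ψ → (∀ [Fintype P], classInner ξ ψ ≠ 0) → ψ 1 = 1) :
    ∀ c ∈ commutator P, ξ c = ξ 1 := by
  classical
  have := Fintype.ofFinite P
  have := Fintype.ofFinite (IrrCharacter P)
  intro c hc
  have h1 := mem_classFun_expand (isClassFunction_of_isCharacter hξ)
  have h2 : ∀ x : P, ξ x = ∑ χ : IrrCharacter P, classInner ξ (χ : P → ℂ) * (χ : P → ℂ) x := by
    intro x
    conv_lhs => rw [h1]
    rw [Finset.sum_apply]
    rfl
  rw [h2 c, h2 1]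
  refine Finset.sum_congr rfl fun ψ _ => ?_
  by_cases h3 : classInner ξ (ψ : P → ℂ) = 0
  · rw [h3, zero_mul, zero_mul]
  · congr 1
    have h4 := hlin ψ ψ.2 (by
      intro inst
      convert h3)
    obtain ⟨f, hf⟩ := exists_hom_of_degree_one (isCharacter_of_isIrr ψ.2) h4
    have h5 : f c = 1 := (Abelianization.commutator_subset_ker f) hc
    rw [hf]
    simp only [h5, map_one]

/-- degrees of irreducible characters of `p`-groups -/
theorem degree_pgroup {p : ℕ} [hp : Fact p.Prime] {P : Type u} [Group P] [Finite P] (hP : IsPGroup p P) {ψ : P → ℂ}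
    (hψ : IsIrrCharacter P ψ) : ∃ k : ℕ, ψ 1 = ((p ^ k : ℕ) : ℂ) := by
  obtain ⟨d, hd0, hd⟩ := exists_degree_pos hψ
  have h1 : d ∣ (⊥ : Subgroup P).index := H4.CenterIndex.ito hψ hd ⊥ (by
    intro a ha b hb
    rw [Subgroup.mem_bot.1 ha, Subgroup.mem_bot.1 hb])
  rw [Subgroup.index_bot] at h1
  obtain ⟨n, hn⟩ := IsPGroup.iff_card.1 hP
  rw [hn] at h1
  obtain ⟨k, -, hk⟩ := (Nat.dvd_prime_pow hp.out).1 h1
  exact ⟨k, by rw [hd, hk]⟩

theorem constituent_degree_le {P : Type u} [Group P] [Fintype P] {ξ ψ : P → ℂ} (hξ : IsCharacter P ξ)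
    (hψ : IsIrrCharacter P ψ) (hne : classInner ξ ψ ≠ 0) {m d : ℕ} (hm : ξ 1 = m) (hd : ψ 1 = d) : d ≤ m := by
  obtain ⟨e, he⟩ := exists_degree (isCharacter_sub_constituent hξ hψ hne)
  rw [Pi.sub_apply, hm, hd] at he
  have h1 : (m : ℂ) = e + d := by rw [← he]; ring
  have h2 : m = e + d := by exact_mod_cast h1
  omega

theorem small_ker {p : ℕ} [hp : Fact p.Prime] {P : Type u} [Group P] [Finite P] (hP : IsPGroup p P) {ξ : P → ℂ}
    (hξ : IsCharacter P ξ) {m : ℕ} (hm : ξ 1 = m) (hmp : m < p) : ∀ c ∈ commutator P, ξ c = ξ 1 := by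
  have := Fintype.ofFinite P
  refine ker_of_linear hξ fun ψ hψ hne => ?_
  obtain ⟨k, hk⟩ := degree_pgroup hP hψ
  have h1 := constituent_degree_le hξ hψ hne hm hk
  have h2 : k = 0 := by
    by_contra h
    have h3 : p ^ 1 ≤ p ^ k := Nat.pow_le_pow_right hp.out.pos (Nat.one_le_iff_ne_zero.2 h)
    rw [pow_one] at h3
    omega
  rw [hk, h2]; simp

/-- The central element of order `p` in the commutator subgroup. -/
theorem exists_elt {p : ℕ} [hp : Fact p.Prime] {P : Type u} [Group P] [Finite P] (hP : IsPGroup p P) {χ : P → ℂ}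
    (hχ : IsCharacter P χ) (hfaith : ∀ x, χ x = χ 1 → x = 1) (hna : ∃ x y : P, x * y ≠ y * x) {n : ℕ}
    (hn : χ 1 = n) (hn2 : n < 2 * p) :
    p ≤ n ∧ ∃ (z : P) (ω : ℂ), z ≠ 1 ∧ z ^ p = 1 ∧ ω ^ p = 1 ∧ ω ≠ 1 ∧
      ∀ k : ℕ, χ (z ^ k) = ((n - p : ℕ) : ℂ) + p * ω ^ k := by
  classical
  have := Fintype.ofFinite P
  have hne : commutator P ≠ ⊥ := by
    intro h
    obtain ⟨x, y, hxy⟩ := hna
    apply hxy
    have h1 : ⁅x, y⁆ ∈ commutator P := Subgroup.commutator_mem_commutator (Subgroup.mem_top x) (Subgroup.mem_top y)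
    rw [h, Subgroup.mem_bot, commutatorElement_eq_one_iff_mul_comm] at h1
    exact h1
  have h1 := H72.PGroupCenter.normal_inf_center_ne_bot hP (commutator P) hne
  obtain ⟨w, hw, hw1⟩ := (Subgroup.bot_or_exists_ne_one _).resolve_left h1
  -- an element of order `p`
  obtain ⟨z, hz, hz1, hzp⟩ : ∃ z : P, z ∈ commutator P ⊓ Subgroup.center P ∧ z ≠ 1 ∧ z ^ p = 1 := by
    obtain ⟨k, hk⟩ := hP w
    have hk' : ∃ k, w ^ p ^ k = 1 := ⟨k, hk⟩
    have h0 : Nat.find hk' ≠ 0 := by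
      intro h
      have := Nat.find_spec hk'
      rw [h, pow_zero, pow_one] at this
      exact hw1 this
    obtain ⟨j, hj⟩ := Nat.exists_eq_succ_of_ne_zero h0
    refine ⟨w ^ p ^ j, Subgroup.pow_mem _ hw _, ?_, ?_⟩
    · exact Nat.find_min hk' (by omega)
    · rw [← pow_mul, ← pow_succ]
      have := Nat.find_spec hk'
      rwa [hj] at this
  have hzk : ∀ k : ℕ, z ^ k ∈ commutator P := fun k => Subgroup.pow_mem _ hz.1 k
  -- a nonlinear constituent
  obtain ⟨ψ, hψ, hne, hψ1⟩ : ∃ ψ : P → ℂ, IsIrrCharacter P ψ ∧ classInner χ ψ ≠ 0 ∧ ψ 1 ≠ 1 := by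
    by_contra hcon
    push Not at hcon
    apply hz1
    apply hfaith
    refine ker_of_linear hχ (fun ψ hψ hne => hcon ψ hψ ?_) z hz.1
    convert hne
  obtain ⟨k, hk⟩ := degree_pgroup hP hψ
  have hle := constituent_degree_le hχ hψ hne hn hk
  have hk1 : k = 1 := by
    have h3 : k ≠ 0 := by
      rintro rfl
      apply hψ1
      rw [hk]; simp
    by_contra h4
    have h5 : p ^ 2 ≤ p ^ k := Nat.pow_le_pow_right hp.out.pos (by omega)
    have h6 := hp.out.two_le
    nlinarith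
  subst hk1
  rw [pow_one] at hk hle
  refine ⟨hle, ?_⟩
  -- the rest
  have hξ := isCharacter_sub_constituent hχ hψ hne
  have hξ1 : (χ - ψ) 1 = ((n - p : ℕ) : ℂ) := by
    rw [Pi.sub_apply, hn, hk, Nat.cast_sub hle]
  have hξk := small_ker hP hξ hξ1 (by omega)
  -- the central character
  obtain ⟨ω, hω⟩ : ∃ ω : ℂ, ∀ k : ℕ, ψ (z ^ k) = p * ω ^ k := by
    obtain ⟨m, ρ, hρ, rfl⟩ := hψ
    obtain ⟨c, hc⟩ := H4.CenterIndex.exists_scalar_of_center ρ hρ hz.2
    refine ⟨c, fun k => ?_⟩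
    have h3 : ρ (z ^ k) = c ^ k • (LinearMap.id : (Fin m → ℂ) →ₗ[ℂ] (Fin m → ℂ)) := by
      rw [map_pow, hc, smul_pow]
      congr 1
      exact one_pow k
    have h4 : ρ.character (z ^ k) = c ^ k * ρ.character 1 := by
      unfold Representation.character
      rw [h3, map_one, map_smul, smul_eq_mul]
      rfl
    rw [h4, hk, mul_comm]
  have hval : ∀ k : ℕ, χ (z ^ k) = ((n - p : ℕ) : ℂ) + p * ω ^ k := by
    intro k
    have h3 := hξk (z ^ k) (hzk k)
    rw [hξ1, Pi.sub_apply, hω k] at h3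
    rw [← h3]; ring
  have hp0 : (p : ℂ) ≠ 0 := by exact_mod_cast hp.out.ne_zero
  refine ⟨z, ω, hz1, hzp, ?_, ?_, hval⟩
  · have h3 := hω p
    rw [hzp, hk] at h3
    have h4 : (p : ℂ) * ω ^ p = p * 1 := by rw [← h3, mul_one]
    exact mul_left_cancel₀ hp0 h4
  · intro h
    apply hz1
    apply hfaith
    have h3 := hval 1
    rw [pow_one, h, pow_one, mul_one] at h3
    rw [h3, hn, Nat.cast_sub hle]
    ring

end H84.LG1
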