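import Cfsg.Agent.Lib.H77.InvOver
import Cfsg.Agent.Lib.H84.LG1

/-!
Groups with bounded character degrees: subgroups with a character of maximal degree.
-/

set_option autoImplicit false

namespace H84.BI1

open Cfsg H18.CharBasic H18.CharOrtho H18.CharInd H18.CharQuot H77.SubChar H84.LG1
open scoped ComplexConjugate commutatorElement

universe u

/-- all character degrees are at most `b` -/
def DegLe (G : Type u) [Group G] (b : ℕ) : Prop :=
  ∀ χ : G → ℂ, IsIrrCharacter G χ → ∀ d : ℕ, χ 1 = d → d ≤ b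

/-- there is an irreducible character of degree `b` -/
def Full (G : Type u) [Group G] (b : ℕ) : Prop := ∃ θ : G → ℂ, IsIrrCharacter G θ ∧ θ 1 = b

theorem degLe_of_not_full {G : Type u} [Group G] {b : ℕ} (h : DegLe G b) (hf : ¬ Full G b) : DegLe G (b - 1) := by
  intro χ hχ d hd
  have h1 := h χ hχ d hd
  have h2 : d ≠ b := by
    rintro rfl
    exact hf ⟨χ, hχ, hd⟩
  omega

variable {G : Type u} [Group G] [Fintype G]

theorem degLe_sub {b : ℕ} (h : DegLe G b) (H : Subgroup G) : DegLe H b := by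
  classical
  have := Fintype.ofFinite H
  intro θ hθ d hd
  obtain ⟨χ, hχ, hne⟩ := exists_over H hθ
  obtain ⟨e, he⟩ := exists_degree (isCharacter_of_isIrr hχ)
  have h1 := degree_le (isCharacter_restrict H (isCharacter_of_isIrr hχ)) hθ hne (by simpa using he) hd
  exact h1.trans (h χ hχ e he)

/-- characters over a character of maximal degree are extensions -/
theorem ext_of_full {b : ℕ} (h : DegLe G b) (H : Subgroup G) [Fintype H] {θ : H → ℂ} (hθ : IsIrrCharacter H θ)
    (hb : θ 1 = b) {ψ : G → ℂ} (hψ : IsIrrCharacter G ψ) (hne : classInner (fun x : H => ψ x) θ ≠ 0) :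
    (fun x : H => ψ x) = θ := by
  apply eq_of_degree (isCharacter_restrict H (isCharacter_of_isIrr hψ)) hθ hne
  obtain ⟨e, he⟩ := exists_degree (isCharacter_of_isIrr hψ)
  have h1 := degree_le (isCharacter_restrict H (isCharacter_of_isIrr hψ)) hθ hne (a := e) (by simpa using he) hb
  have h2 := h ψ hψ e he
  have h3 : e = b := le_antisymm h2 h1
  rw [Subgroup.coe_one, he, hb, h3]

theorem exists_ext {b : ℕ} (h : DegLe G b) (H : Subgroup G) {θ : H → ℂ} (hθ : IsIrrCharacter H θ) (hb : θ 1 = b) :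
    ∃ ψ : G → ℂ, IsIrrCharacter G ψ ∧ ψ 1 = b ∧ (fun x : H => ψ x) = θ := by
  classical
  have := Fintype.ofFinite H
  obtain ⟨χ, hχ, hne⟩ := exists_over H hθ
  have h1 := ext_of_full h H hθ hb hχ hne
  refine ⟨χ, hχ, ?_, h1⟩
  have := congrFun h1 1
  rw [Subgroup.coe_one] at this
  rw [this, hb]

/-- Lemma M: linear constituents of restrictions have multiplicity one. -/
theorem lemmaM {b : ℕ} (h : DegLe G b) (H : Subgroup G) [Fintype H] {ψ : G → ℂ} (hψ : IsIrrCharacter G ψ)
    (hb : ψ 1 = b) (hψH : IsIrrCharacter H (fun x : H => ψ x)) {χ : G → ℂ} (hχ : IsIrrCharacter G χ) (α : H →* ℂˣ)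
    {m : ℕ} (hm : classInner (fun x : H => χ x) (fun x => (α x : ℂ)) = m) : m ≤ 1 := by
  classical
  by_contra hcon
  push Not at hcon
  have hα : IsIrrCharacter H (fun x => (α x : ℂ)) := isIrrCharacter_of_hom α
  have hm0 : classInner (fun x : H => χ x) (fun x => (α x : ℂ)) ≠ 0 := by
    rw [hm]; exact_mod_cast (by omega : m ≠ 0)
  -- the norm of `α`
  have hαα : ∀ x : H, (α x : ℂ) * conj (α x : ℂ) = 1 := by
    intro x
    have h1 := H18.CharBasic.hom_inv_eq_conj α x
    rw [← h1, ← Units.val_mul, ← map_mul, mul_inv_cancel, map_one, Units.val_one]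
  have hβ : IsIrrCharacter H (fun x : H => (α x : ℂ) * ψ x) := isIrrCharacter_hom_mul α hψH
  have hprod : IsCharacter G (χ * ψ) := isCharacter_mul (isCharacter_of_isIrr hχ) (isCharacter_of_isIrr hψ)
  have h1 : classInner (fun x : H => (χ * ψ) ((MonoidHom.id G) (H.subtype x))) (fun x : H => (α x : ℂ) * ψ x) ≠ 0 := by
    have hrest := sub_isCharacter (isCharacter_restrict H (isCharacter_of_isIrr hχ)) hα hm0
    obtain ⟨k, hk⟩ := inner_char_natCast (isCharacter_mul hrest (isCharacter_of_isIrr hψH)) (isCharacter_of_isIrr hβ)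
    have h2 : (fun x : H => (χ * ψ) ((MonoidHom.id G) (H.subtype x))) =
        (fun x : H => (α x : ℂ) * ψ x) + ((fun x : H => χ x) - fun x => (α x : ℂ)) * (fun x : H => ψ x) := by
      funext x
      simp only [Pi.add_apply, Pi.mul_apply, Pi.sub_apply, MonoidHom.id_apply, Subgroup.subtype_apply]
      ring
    rw [h2, H18.CharOrtho.inner_add_left, hk, inner_irr_self hβ]
    exact_mod_cast (by omega : 1 + k ≠ 0)
  obtain ⟨ζ, hζ, h2, h3⟩ := exists_between (MonoidHom.id G) H.subtype hprod (isCharacter_of_isIrr hβ) h1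
  have h4 : (fun x : H => ζ x) = fun x : H => (α x : ℂ) * ψ x := by
    apply ext_of_full h H hβ _ hζ h3
    rw [map_one, Units.val_one, one_mul, Subgroup.coe_one, hb]
  -- move `ψ` to the other side
  set ω : G → ℂ := fun g => conj (ψ g) * ζ g with hω
  have hωc : IsCharacter G ω := isCharacter_mul (isCharacter_conj (isCharacter_of_isIrr hψ)) (isCharacter_of_isIrr hζ)
  have h5 : classInner χ ω ≠ 0 := by
    have h6 : classInner χ ω = classInner (fun a => (χ * ψ) ((MonoidHom.id G) a)) ζ := by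
      unfold classInner
      congr 1
      refine Finset.sum_congr rfl fun g _ => ?_
      simp only [hω, Pi.mul_apply, MonoidHom.id_apply, map_mul, Complex.conj_conj]
      ring
    rw [h6]; exact h2
  have h6 : classInner ω χ ≠ 0 := classInner_ne_zero_symm.1 h5
  have h7 := sub_isCharacter hωc hχ h6
  obtain ⟨k, hk⟩ := inner_char_natCast (isCharacter_restrict H h7) (isCharacter_of_isIrr hα)
  have h8 : classInner (fun x : H => ω x) (fun x => (α x : ℂ)) = 1 := by
    have h9 := inner_irr_self hψH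
    rw [← h9]
    unfold classInner
    congr 1
    refine Finset.sum_congr rfl fun x _ => ?_
    have h10 : ζ (x : G) = (α x : ℂ) * ψ x := congrFun h4 x
    simp only [hω]
    rw [h10]
    linear_combination (conj (ψ x) * ψ x) * hαα x
  have h9 : classInner (fun x : H => ω x) (fun x => (α x : ℂ)) = ((k + m : ℕ) : ℂ) := by
    have h10 : (fun x : H => ω x) = (fun x : H => (ω - χ) x) + fun x : H => χ x := by
      funext x; simp
    rw [h10, H18.CharOrtho.inner_add_left, hk, hm]
    push_cast; ring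
  rw [h8] at h9
  have h10 : 1 = k + m := by exact_mod_cast h9
  omega

/-- Lemma V: a character of maximal degree vanishes outside the core. -/
theorem lemmaV {b : ℕ} (h : DegLe G b) (H : Subgroup G) {ψ : G → ℂ} (hψ : IsIrrCharacter G ψ)
    (hb : ψ 1 = b) (hψH : IsIrrCharacter H (fun x : H => ψ x)) {y : G} (hy : y ∈ H) (hne : ψ y ≠ 0) (x : G) :
    x * y * x⁻¹ ∈ H := by
  classical
  have := Fintype.ofFinite H
  have := Fintype.ofFinite (IrrCharacter G)
  set θ : H → ℂ := fun x : H => ψ x with hθ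
  have hθb : θ 1 = b := by rw [hθ]; simpa using hb
  have hcl := isClassFunction_indFun H θ
  have hexp : ∀ g : G, indFun H θ g = ∑ ζ : IrrCharacter G, classInner (indFun H θ) (ζ : G → ℂ) * (ζ : G → ℂ) g := by
    intro g
    conv_lhs => rw [mem_classFun_expand hcl]
    rw [Finset.sum_apply]
    rfl
  have hc : ∀ g : H, indFun H θ g = (∑ ζ : IrrCharacter G, classInner (indFun H θ) (ζ : G → ℂ)) * ψ g := by
    intro g
    rw [hexp, Finset.sum_mul]
    refine Finset.sum_congr rfl fun ζ _ => ?_
    by_cases h1 : classInner (indFun H θ) (ζ : G → ℂ) = 0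
    · rw [h1, zero_mul, zero_mul]
    · have h2 : classInner (fun x : H => (ζ : G → ℂ) x) θ ≠ 0 := by
        rw [frobenius H θ (isClassFunction_of_isIrr ζ.2)] at h1
        exact classInner_ne_zero_symm.1 h1
      have h3 := ext_of_full h H hψH hθb ζ.2 h2
      rw [show (ζ : G → ℂ) g = ψ g from congrFun h3 g]
  have hb0 : (ψ 1) ≠ 0 := irr_one_ne_zero hψ
  have hidx : ∑ ζ : IrrCharacter G, classInner (indFun H θ) (ζ : G → ℂ) = (H.index : ℂ) := by
    have h1 := hc 1
    rw [Subgroup.coe_one, indFun_one] at h1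
    have h2 : θ 1 = ψ 1 := by rw [hθ]; simp
    rw [h2] at h1
    exact (mul_right_cancel₀ hb0 h1).symm
  -- counting
  have hcount := hc ⟨y, hy⟩
  rw [hidx, indFun_apply'] at hcount
  have hterm : ∀ x : G, extendByZero H θ (x * y * x⁻¹) = if x * y * x⁻¹ ∈ H then ψ y else 0 := by
    intro x
    split_ifs with hx
    · rw [ext_mem H θ hx]
      exact isClassFunction_of_isIrr hψ y x
    · exact ext_notMem H θ hx
  simp only [hterm] at hcount
  rw [← Finset.sum_filter, Finset.sum_const, nsmul_eq_mul] at hcount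
  have hH0 : (Nat.card H : ℂ) ≠ 0 := by exact_mod_cast Nat.card_pos.ne'
  have h1 : ((Finset.univ.filter fun x : G => x * y * x⁻¹ ∈ H).card : ℂ) = (Nat.card G : ℂ) := by
    have h2 : (Nat.card G : ℂ) = (Nat.card H : ℂ) * (H.index : ℂ) := by
      rw [← Nat.cast_mul, H.card_mul_index]
    rw [h2]
    have h3 : ((Finset.univ.filter fun x : G => x * y * x⁻¹ ∈ H).card : ℂ) * ψ y =
        (Nat.card H : ℂ) * (H.index : ℂ) * ψ y := by
      rw [mul_assoc, ← hcount, ← mul_assoc, mul_inv_cancel₀ hH0, one_mul]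
    exact mul_right_cancel₀ hne h3
  have h2 : (Finset.univ.filter fun x : G => x * y * x⁻¹ ∈ H).card = Fintype.card G := by
    rw [← Nat.card_eq_fintype_card]; exact_mod_cast h1
  have h3 : (Finset.univ.filter fun x : G => x * y * x⁻¹ ∈ H) = Finset.univ := by
    rw [← Finset.card_eq_iff_eq_univ, h2]
  have h4 := Finset.mem_univ x
  rw [← h3] at h4
  exact (Finset.mem_filter.1 h4).2

/-- Lemma Q: the intersection of two conjugates has no character of maximal degree. -/
theorem lemmaQ {b : ℕ} (h : DegLe G b) (H : Subgroup G) (g : G)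
    (hf : Full (H ⊓ H.comap (MulAut.conj g).toMonoidHom : Subgroup G) b) : ∀ x ∈ H, g * x * g⁻¹ ∈ H := by
  classical
  set U : Subgroup G := H ⊓ H.comap (MulAut.conj g).toMonoidHom with hU
  have hUH : U ≤ H := inf_le_left
  obtain ⟨θ, hθ, hb⟩ := hf
  obtain ⟨ψ, hψ, hψb, hψU⟩ := exists_ext h U hθ hb
  have hψU' : IsIrrCharacter U (fun x : U => ψ x) := by rw [hψU]; exact hθ
  have hψH : IsIrrCharacter H (fun x : H => ψ x) :=
    H77.InvOver.irr_of_restrict (Subgroup.inclusion hUH) (isCharacter_restrict H (isCharacter_of_isIrr hψ)) hψU'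
  have := Fintype.ofFinite H
  have := Fintype.ofFinite U
  -- norms
  have h1 := inner_irr_self hψH
  have h2 := inner_irr_self hψU'
  rw [inner_self_eq_sum] at h1 h2
  have h1' : ∑ x : H, ‖ψ x‖ ^ 2 = (Nat.card H : ℝ) := by
    have h3 : (Nat.card H : ℝ)⁻¹ * ∑ x : H, ‖ψ x‖ ^ 2 = 1 := by exact_mod_cast h1
    have h4 : (Nat.card H : ℝ) ≠ 0 := by exact_mod_cast Nat.card_pos.ne'
    field_simp at h3
    exact h3
  have h2' : ∑ x : U, ‖ψ x‖ ^ 2 = (Nat.card U : ℝ) := by
    have h3 : (Nat.card U : ℝ)⁻¹ * ∑ x : U, ‖ψ x‖ ^ 2 = 1 := by exact_mod_cast h2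
    have h4 : (Nat.card U : ℝ) ≠ 0 := by exact_mod_cast Nat.card_pos.ne'
    field_simp at h3
    exact h3
  have h3 : ∑ x : H, ‖ψ x‖ ^ 2 = ∑ x : U, ‖ψ x‖ ^ 2 := by
    symm
    refine Finset.sum_of_injOn (fun x : U => (⟨x, hUH x.2⟩ : H)) ?_ ?_ ?_ ?_
    · intro a _ c _ hac
      exact Subtype.ext (congrArg (fun z : H => (z : G)) hac)
    · intro a _
      simp
    · intro x _ hx
      by_contra hne
      have hne' : ψ x ≠ 0 := by
        intro h0
        apply hne
        rw [h0]; simp
      apply hx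
      refine ⟨⟨x, x.2, ?_⟩, Finset.mem_coe.2 (Finset.mem_univ _), rfl⟩
      exact lemmaV h H hψ hψb hψH x.2 hne' g
    · intro x _
      rfl
  rw [h1', h2'] at h3
  have h4 : Nat.card H = Nat.card U := by exact_mod_cast h3
  have h5 : U = H := Subgroup.eq_of_le_of_card_ge hUH h4.le
  intro x hx
  rw [← h5] at hx
  exact hx.2

/-- Lemma N: a normal subgroup with a character of maximal degree contains the commutator subgroup. -/
theorem lemmaN {b : ℕ} (h : DegLe G b) (H : Subgroup G) [H.Normal] (hf : Full H b) : commutator G ≤ H := by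
  classical
  have := Fintype.ofFinite H
  obtain ⟨θ, hθ, hb⟩ := hf
  obtain ⟨ψ, hψ, hψb, hψH⟩ := exists_ext h H hθ hb
  have hψH' : IsIrrCharacter H (fun x : H => ψ x) := by rw [hψH]; exact hθ
  -- all the characters of the quotient are linear
  have hlin : ∀ β : G ⧸ H → ℂ, IsIrrCharacter (G ⧸ H) β → β 1 = 1 := by
    intro β hβ
    have h1 := isIrrCharacter_inflate H hβ
    obtain ⟨d, hd0, hd⟩ := exists_degree_pos hβ
    have h2 : classInner (fun x : H => (fun g : G => β (QuotientGroup.mk g)) x) (fun x => (((1 : H →* ℂˣ) x : ℂˣ) : ℂ)) = d := by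
      unfold classInner
      have h3 : ∀ x : H, β (QuotientGroup.mk (x : G)) * conj ((((1 : H →* ℂˣ) x : ℂˣ) : ℂ)) = d := by
        intro x
        have : (QuotientGroup.mk (x : G) : G ⧸ H) = 1 := (QuotientGroup.eq_one_iff _).2 x.2
        rw [this, hd]
        simp
      rw [Finset.sum_congr rfl (fun x _ => h3 x), Finset.sum_const, Finset.card_univ, nsmul_eq_mul,
        ← Nat.card_eq_fintype_card]
      have h4 : (Nat.card H : ℂ) ≠ 0 := by exact_mod_cast Nat.card_pos.ne'
      field_simp
    have h3 := lemmaM h H hψ hψb hψH' h1 1 h2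
    have h4 : d = 1 := by omega
    rw [hd, h4]; simp
  intro g hg
  have h1 : (QuotientGroup.mk g : G ⧸ H) = 1 := by
    apply eq_one_of_forall_irr
    intro β hβ
    obtain ⟨f, hf⟩ := exists_hom_of_degree_one (isCharacter_of_isIrr hβ) (hlin β hβ)
    have h2 : (f.comp (QuotientGroup.mk' H)) g = 1 := (Abelianization.commutator_subset_ker _) hg
    rw [hf]
    simp only
    rw [show f (QuotientGroup.mk g) = 1 from h2, map_one]
  exact (QuotientGroup.eq_one_iff _).1 h1

/-- Lemma A: if the centralizer of `x` has a character of maximal degree, the conjugates of `x` commute with `x`. -/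
theorem lemmaA {b : ℕ} (h : DegLe G b) (x : G) (hf : Full (Subgroup.centralizer ({x} : Set G)) b) (g : G) :
    (g * x * g⁻¹) * x = x * (g * x * g⁻¹) := by
  classical
  set H := Subgroup.centralizer ({x} : Set G) with hH
  obtain ⟨θ, hθ, hb⟩ := hf
  obtain ⟨ψ, hψ, hψb, hψH⟩ := exists_ext h H hθ hb
  have hψH' : IsIrrCharacter H (fun x : H => ψ x) := by rw [hψH]; exact hθ
  have hxH : x ∈ H := Subgroup.mem_centralizer_singleton_iff.2 rfl
  have hxne : ψ x ≠ 0 := by
    obtain ⟨m, ρ, hρ, hρθ⟩ := hψH'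
    have hcen : (⟨x, hxH⟩ : H) ∈ Subgroup.center H := by
      rw [Subgroup.mem_center_iff]
      intro y
      apply Subtype.ext
      exact Subgroup.mem_centralizer_singleton_iff.1 y.2
    obtain ⟨c, hc⟩ := H4.CenterIndex.exists_scalar_of_center ρ hρ hcen
    have h1 : ψ x = c * ψ 1 := by
      have h2 := congrFun hρθ ⟨x, hxH⟩
      have h3 := congrFun hρθ 1
      simp only [Subgroup.coe_one] at h2 h3
      rw [← h2, ← h3]
      unfold Representation.character
      rw [hc, map_one, map_smul, smul_eq_mul]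
      rfl
    have hc0 : c ≠ 0 := by
      rintro rfl
      have h2 : ρ ⟨x, hxH⟩ * ρ (⟨x, hxH⟩)⁻¹ = 1 := by rw [← map_mul, mul_inv_cancel, map_one]
      rw [hc, zero_smul, zero_mul] at h2
      have h3 := congrFun hρθ 1
      simp only [Subgroup.coe_one] at h3
      apply irr_one_ne_zero hψ
      rw [← h3]
      unfold Representation.character
      rw [map_one, ← h2, map_zero]
    rw [h1]
    exact mul_ne_zero hc0 (irr_one_ne_zero hψ)
  have h1 := lemmaV h H hψ hψb hψH' hxH hxne g
  exact Subgroup.mem_centralizer_singleton_iff.1 h1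

end H84.BI1
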