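import Cfsg.Agent.Lib.H84.BI1
import Cfsg.Agent.Lib.H18.DetChar

/-!
Groups with bounded character degrees: all the subgroups of small index are full.
-/

set_option autoImplicit false

namespace H84.BI2

open Cfsg H18.CharBasic H18.CharOrtho H18.CharInd H18.CharQuot H77.SubChar H84.LG1 H84.BI1
open scoped ComplexConjugate commutatorElement

universe u

/-- the groups where all the subgroups of small index have characters of maximal degree -/
structure Bad (G : Type u) [Group G] (b : ℕ) : Prop where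
  le : DegLe G b
  two : 2 ≤ b
  full : ∀ H : Subgroup G, H.index ≤ b ^ 2 → Full H b

variable {G : Type u} [Group G] [Fintype G] {b : ℕ}

theorem Bad.normal (h : Bad G b) (H : Subgroup G) (hH : H.index ≤ b) : H.Normal := by
  constructor
  intro x hx g
  apply lemmaQ h.le H g _ x hx
  apply h.full
  have h1 : (H.comap (MulAut.conj g).toMonoidHom).index = H.index :=
    Subgroup.index_comap_of_surjective H (MulAut.conj g).surjective
  calc (H ⊓ H.comap (MulAut.conj g).toMonoidHom).index ≤ H.index * (H.comap (MulAut.conj g).toMonoidHom).index :=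
        Subgroup.index_inf_le
    _ ≤ b * b := by rw [h1]; exact Nat.mul_le_mul hH hH
    _ = b ^ 2 := (sq b).symm

theorem Bad.comm_le (h : Bad G b) (H : Subgroup G) (hH : H.index ≤ b) : commutator G ≤ H := by
  have := h.normal H hH
  apply lemmaN h.le H
  apply h.full
  have := h.two
  nlinarith

theorem inertia_le (h : DegLe G b) (N : Subgroup G) [N.Normal] {lam : N → ℂ} (hl : IsIrrCharacter N lam) :
    (H31.Clifford.inertia N lam).index ≤ b := by
  classical
  have := Fintype.ofFinite N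
  obtain ⟨χ, hχ, hne⟩ := exists_over N hl
  have h1 := H31.Clifford.degree_eq N hχ hl hne
  obtain ⟨n, hn⟩ := inner_char_natCast (isCharacter_restrict N (isCharacter_of_isIrr hχ)) (isCharacter_of_isIrr hl)
  obtain ⟨d, hd⟩ := exists_degree (isCharacter_of_isIrr hχ)
  obtain ⟨e, he0, he⟩ := exists_degree_pos hl
  rw [hn, hd, he] at h1
  have h2 : d = n * (H31.Clifford.inertia N lam).index * e := by exact_mod_cast h1
  have h3 := h χ hχ d hd
  have h4 : n ≠ 0 := by
    rintro rfl
    apply hne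
    rw [hn]; simp
  calc (H31.Clifford.inertia N lam).index ≤ n * (H31.Clifford.inertia N lam).index * e := by
        have : 1 ≤ n := Nat.one_le_iff_ne_zero.2 h4
        calc (H31.Clifford.inertia N lam).index = 1 * (H31.Clifford.inertia N lam).index * 1 := by ring
          _ ≤ _ := Nat.mul_le_mul (Nat.mul_le_mul this le_rfl) he0
    _ ≤ b := by rw [← h2]; exact h3

/-- Lemma T: abelian normal subgroups centralize the commutator subgroup. -/
theorem Bad.comm (h : Bad G b) (A : Subgroup G) [hAn : A.Normal] (hA : ∀ x ∈ A, ∀ y ∈ A, x * y = y * x) {a g : G} (ha : a ∈ A)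
    (hg : g ∈ commutator G) : g * a = a * g := by
  classical
  have := Fintype.ofFinite A
  have hmem : g * a * g⁻¹ ∈ A := hAn.conj_mem a ha g
  have key : (⟨g * a * g⁻¹, hmem⟩ : A) * (⟨a, ha⟩ : A)⁻¹ = 1 := by
    apply eq_one_of_forall_irr
    intro lam hl
    have h1 := h.comm_le _ (inertia_le h.le A hl) hg
    have h2 := (H31.Clifford.mem_inertia_iff A).1 h1 ⟨a, ha⟩
    have hl1 : lam 1 = 1 := degree_one_of_comm (fun x y => Subtype.ext (hA x x.2 y y.2)) hl
    obtain ⟨f, hf⟩ := exists_hom_of_degree_one (isCharacter_of_isIrr hl) hl1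
    rw [hf] at h2 ⊢
    simp only at h2 ⊢
    have h3 : f ⟨g * a * g⁻¹, hmem⟩ = f ⟨a, ha⟩ := Units.ext h2
    rw [map_mul, map_inv, h3, mul_inv_cancel, map_one]
  have h1 := congrArg (Subtype.val) key
  simp only [Subgroup.coe_mul, Subgroup.coe_inv, Subgroup.coe_one] at h1
  have h2 : g * a * g⁻¹ = a := mul_inv_eq_one.1 h1
  exact mul_inv_eq_iff_eq_mul.1 h2

/-- the centre of a character with central type quotient -/
theorem exists_center {T : Type u} [Group T] [Fintype T] {κ : T → ℂ} (hκ : IsIrrCharacter T κ) {e : ℕ} (he : κ 1 = e)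
    (hn : ∀ c ∈ commutator T, ‖κ c‖ = e) :
    ∃ (Z : Subgroup T) (μ : Z →* ℂˣ), Z.index = e ^ 2 ∧ ∀ z : Z, κ z = e * μ z := by
  classical
  have hself := inner_irr_self hκ
  have he0 : (e : ℂ) ≠ 0 := by rw [← he]; exact irr_one_ne_zero hκ
  have hcf := isClassFunction_of_isIrr hκ
  obtain ⟨n, ρ, hρ, rfl⟩ := hκ
  have hfr : (Module.finrank ℂ (Fin n → ℂ)) = e := by
    rw [Representation.char_one] at he
    exact_mod_cast he
  let Z : Subgroup T :=
    { carrier := {t | ∀ s, ρ t * ρ s = ρ s * ρ t}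
      one_mem' := by intro s; simp
      mul_mem' := by
        intro t t' ht ht' s
        rw [map_mul, mul_assoc, ht' s, ← mul_assoc, ht s, mul_assoc]
      inv_mem' := by
        intro t ht s
        have h1 : ρ t⁻¹ * ρ t = 1 := by rw [← map_mul, inv_mul_cancel, map_one]
        have h2 : ρ t * ρ t⁻¹ = 1 := by rw [← map_mul, mul_inv_cancel, map_one]
        calc ρ t⁻¹ * ρ s = ρ t⁻¹ * (ρ s * ρ t) * ρ t⁻¹ := by rw [mul_assoc, mul_assoc, h2, mul_one]
          _ = ρ t⁻¹ * (ρ t * ρ s) * ρ t⁻¹ := by rw [ht s]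
          _ = ρ s * ρ t⁻¹ := by rw [← mul_assoc, h1, one_mul] }
  have hZmem : ∀ t, t ∈ Z ↔ ∀ s, ρ t * ρ s = ρ s * ρ t := fun t => Iff.rfl
  have hscal : ∀ t ∈ Z, ∃ c : ℂ, ρ t = c • (LinearMap.id : (Fin n → ℂ) →ₗ[ℂ] (Fin n → ℂ)) := by
    intro t ht
    let F : Representation.IntertwiningMap ρ ρ := ⟨ρ t, fun g => by
      rw [← Module.End.mul_eq_comp, ← Module.End.mul_eq_comp, (hZmem t).1 ht g]⟩
    obtain ⟨c, hc⟩ := (Representation.IsIrreducible.algebraMap_intertwiningMap_bijective_of_isAlgClosed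
      (ρ := ρ)).2 F
    exact ⟨c, (congrArg Representation.IntertwiningMap.toLinearMap hc).symm⟩
  have hmul : ∀ t ∈ Z, ∀ s, ρ.character (t * s) * e = ρ.character t * ρ.character s := by
    intro t ht s
    obtain ⟨c, hc⟩ := hscal t ht
    have h1 : ρ.character t = c * e := by
      rw [← he]
      unfold Representation.character
      rw [hc, map_one, map_smul, smul_eq_mul]
      rfl
    have h2 : ρ.character (t * s) = c * ρ.character s := by
      unfold Representation.character
      rw [map_mul, hc]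
      have : c • (LinearMap.id : (Fin n → ℂ) →ₗ[ℂ] (Fin n → ℂ)) * ρ s = c • ρ s := by ext v; simp
      rw [this, map_smul, smul_eq_mul]
    rw [h1, h2]; ring
  have hnorm : ∀ t ∈ Z, ‖ρ.character t‖ = e := by
    intro t ht
    rw [(H4.Eigen.norm_char_eq_iff ρ t).2 (hscal t ht), hfr]
  have hvan : ∀ t, t ∉ Z → ρ.character t = 0 := by
    intro t ht
    rw [hZmem] at ht
    push Not at ht
    obtain ⟨s, hs⟩ := ht
    have h1 : s * t * s⁻¹ * t⁻¹ ∈ commutator T :=
      Subgroup.commutator_mem_commutator (Subgroup.mem_top s) (Subgroup.mem_top t)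
    obtain ⟨ω, hω⟩ := (H4.Eigen.norm_char_eq_iff ρ _).1 ((hn _ h1).trans (by rw [hfr]))
    have h2 : ρ.character t = ω * ρ.character t := by
      have h3 := hcf t s
      conv_lhs => rw [← h3]
      have h4 : s * t * s⁻¹ = (s * t * s⁻¹ * t⁻¹) * t := by group
      rw [h4]
      unfold Representation.character
      rw [map_mul, hω]
      have : ω • (LinearMap.id : (Fin n → ℂ) →ₗ[ℂ] (Fin n → ℂ)) * ρ t = ω • ρ t := by ext v; simp
      rw [this, map_smul, smul_eq_mul]
    by_contra hne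
    have h3 : ω = 1 := by
      have h4 : (ω - 1) * ρ.character t = 0 := by rw [sub_mul, one_mul, ← h2, sub_self]
      rcases mul_eq_zero.1 h4 with h5 | h5
      · exact sub_eq_zero.1 h5
      · exact absurd h5 hne
    rw [h3, one_smul] at hω
    apply hs
    have h5 : ρ s * ρ t = ρ (s * t * s⁻¹ * t⁻¹) * (ρ t * ρ s) := by
      rw [← map_mul, ← map_mul, ← map_mul]
      congr 1
      group
    rw [h5, hω]
    rfl
  -- the linear character
  let f : Z →* ℂ :=
    { toFun := fun z => ρ.character z / e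
      map_one' := by
        show ρ.character ((1 : Z) : T) / e = 1
        rw [Subgroup.coe_one, he]
        exact div_self he0
      map_mul' := by
        intro z w
        show ρ.character ((z * w : Z) : T) / e = ρ.character z / e * (ρ.character w / e)
        have := hmul z z.2 w
        rw [Subgroup.coe_mul]
        field_simp
        linear_combination this }
  refine ⟨Z, f.toHomUnits, ?_, fun z => ?_⟩
  · -- the index
    rw [inner_self_eq_sum] at hself
    have h1 : ∑ x : T, ‖ρ.character x‖ ^ 2 = (Nat.card T : ℝ) := by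
      have h3 : (Nat.card T : ℝ)⁻¹ * ∑ x : T, ‖ρ.character x‖ ^ 2 = 1 := by exact_mod_cast hself
      have h4 : (Nat.card T : ℝ) ≠ 0 := by exact_mod_cast Nat.card_pos.ne'
      field_simp at h3
      exact h3
    have h2 : ∑ x : T, ‖ρ.character x‖ ^ 2 = (Nat.card Z : ℝ) * (e : ℝ) ^ 2 := by
      have h3 : ∀ x : T, ‖ρ.character x‖ ^ 2 = if x ∈ Z then (e : ℝ) ^ 2 else 0 := by
        intro x
        split_ifs with hx
        · rw [hnorm x hx]
        · rw [hvan x hx]; simp
      rw [Finset.sum_congr rfl (fun x _ => h3 x), ← Finset.sum_filter, Finset.sum_const, nsmul_eq_mul]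
      congr 2
      rw [Nat.card_eq_fintype_card, Fintype.card_subtype]
    have h3 : Nat.card T = Nat.card Z * e ^ 2 := by
      rw [h1] at h2
      exact_mod_cast h2
    rw [← Z.card_mul_index] at h3
    exact Nat.eq_of_mul_eq_mul_left Nat.card_pos h3
  · have h1 : ((f.toHomUnits z : ℂˣ) : ℂ) = ρ.character z / e := rfl
    rw [h1]
    field_simp

/-- the case of central type -/
theorem Bad.case_e2 (h : Bad G b) (T : Subgroup G) [Fintype T] {χ : G → ℂ} (hχ : IsIrrCharacter G χ) {κ : T → ℂ}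
    (hκ : IsIrrCharacter T κ) (hne : classInner (fun t : T => χ t) κ ≠ 0) {e : ℕ} (he : κ 1 = e) (he2 : 2 ≤ e)
    (hn : ∀ c ∈ commutator T, ‖κ c‖ = e) (hidx : T.index * e ≤ b) : False := by
  classical
  obtain ⟨Z, μ, hZ, hμ⟩ := exists_center hκ he hn
  set Z' : Subgroup G := Z.map T.subtype with hZ'
  have := Fintype.ofFinite Z'
  have hidx' : Z'.index ≤ b ^ 2 := by
    rw [hZ', Subgroup.index_map_subtype, hZ]
    have h1 : 1 ≤ T.index := Nat.one_le_iff_ne_zero.2 Subgroup.index_ne_zero_of_finite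
    calc e ^ 2 * T.index ≤ (T.index * e) ^ 2 := by nlinarith [sq_nonneg e, Nat.zero_le (e ^ 2)]
      _ ≤ b ^ 2 := Nat.pow_le_pow_left hidx 2
  obtain ⟨θ, hθ, hθb⟩ := h.full Z' hidx'
  obtain ⟨ψ, hψ, hψb, hψZ⟩ := exists_ext h.le Z' hθ hθb
  have hψZ' : IsIrrCharacter Z' (fun x : Z' => ψ x) := by rw [hψZ]; exact hθ
  have hZT : Z' ≤ T := by
    rw [hZ']
    exact Subgroup.map_subtype_le Z
  have hmemZ : ∀ x : Z', (⟨x, hZT x.2⟩ : T) ∈ Z := by
    rintro ⟨x, hx⟩
    obtain ⟨t, ht, rfl⟩ := Subgroup.mem_map.1 hx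
    exact ht
  let j : Z' →* Z :=
    { toFun := fun x => ⟨⟨x, hZT x.2⟩, hmemZ x⟩
      map_one' := rfl
      map_mul' := fun _ _ => rfl }
  let α : Z' →* ℂˣ := μ.comp j
  have hκα : ∀ x : Z', κ ⟨x, hZT x.2⟩ = e * α x := fun x => hμ (j x)
  have hrest := sub_isCharacter (isCharacter_restrict T (isCharacter_of_isIrr hχ)) hκ hne
  have hrest' := isCharacter_comp (Subgroup.inclusion hZT) hrest
  have hα : IsIrrCharacter Z' (fun x => (α x : ℂ)) := isIrrCharacter_of_hom α
  obtain ⟨k, hk⟩ := inner_char_natCast hrest' (isCharacter_of_isIrr hα)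
  have h1 : (fun x : Z' => χ x) = (e : ℂ) • (fun x : Z' => (α x : ℂ)) +
      fun x : Z' => ((fun t : T => χ t) - κ) (Subgroup.inclusion hZT x) := by
    funext x
    have h2 := hκα x
    simp only [Pi.add_apply, Pi.smul_apply, Pi.sub_apply, smul_eq_mul, Subgroup.coe_inclusion]
    rw [← h2]
    have h3 : (Subgroup.inclusion hZT x) = (⟨x, hZT x.2⟩ : T) := rfl
    rw [h3]
    ring
  have h2 : classInner (fun x : Z' => χ x) (fun x => (α x : ℂ)) = ((e + k : ℕ) : ℂ) := by
    rw [h1, H18.CharOrtho.inner_add_left, H18.CharOrtho.inner_smul_left, inner_irr_self hα, hk]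
    push_cast; ring
  have h3 := lemmaM h.le Z' hψ hψb hψZ' hχ α h2
  omega

/-- the linear case -/
theorem Bad.case_e1 (h : Bad G b) (T : Subgroup G) [Fintype T] (hT : T.index ≤ b) {χ : G → ℂ} (hχ : IsIrrCharacter G χ)
    (κ : T →* ℂˣ) (hne : classInner (fun t : T => χ t) (fun t => (κ t : ℂ)) ≠ 0) {g : G}
    (hg : ¬ ∀ (t : G) (ht : t ∈ T) (ht' : g * t * g⁻¹ ∈ T), κ ⟨g * t * g⁻¹, ht'⟩ = κ ⟨t, ht⟩) : False := by
  classical
  have hTn := h.normal T hT
  have hTf := h.full T (by have := h.two; nlinarith)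
  obtain ⟨θ, hθ, hθb⟩ := hTf
  obtain ⟨ψ, hψ, hψb, hψT⟩ := exists_ext h.le T hθ hθb
  have hκθ : IsIrrCharacter T (fun x => (κ x : ℂ) * θ x) := isIrrCharacter_hom_mul κ hθ
  obtain ⟨ψ', hψ', hψb', hψT'⟩ := exists_ext h.le T hκθ (by rw [map_one, Units.val_one, one_mul, hθb])
  let κ' : T →* ℂˣ := κ.comp (MulAut.conjNormal g : MulAut T).toMonoidHom
  have hκ' : ∀ t : T, κ' t = κ ⟨g * t * g⁻¹, hTn.conj_mem t t.2 g⟩ := fun t => by
    show κ (MulAut.conjNormal g t) = _
    congr 1
  have hθg : ∀ t : T, θ ⟨g * t * g⁻¹, hTn.conj_mem t t.2 g⟩ = θ t := by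
    intro t
    have h1 := congrFun hψT ⟨g * t * g⁻¹, hTn.conj_mem t t.2 g⟩
    have h2 := congrFun hψT t
    rw [← h1, ← h2]
    exact isClassFunction_of_isIrr hψ t g
  have hκθg : ∀ t : T, (κ' t : ℂ) * θ t = κ t * θ t := by
    intro t
    have h1 := congrFun hψT' ⟨g * t * g⁻¹, hTn.conj_mem t t.2 g⟩
    have h2 := congrFun hψT' t
    have h3 : ψ' (g * t * g⁻¹) = ψ' t := isClassFunction_of_isIrr hψ' t g
    simp only at h1 h2
    rw [h3, h2, hθg] at h1
    rw [hκ', h1]
  set ν : T →* ℂˣ := κ' * κ⁻¹ with hν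
  have hνθ : ∀ t : T, (ν t : ℂ) * θ t = θ t := by
    intro t
    have h1 := hκθg t
    have h2 : (κ t : ℂ) ≠ 0 := (κ t).ne_zero
    rw [hν]
    simp only [MonoidHom.mul_apply, MonoidHom.inv_apply, Units.val_mul, Units.val_inv_eq_inv_val]
    field_simp
    linear_combination h1
  have hνb : ∀ t : T, ν t ^ b = 1 := by
    intro t
    have h1 := H18.DetChar.detChar_hom_mul ν (isCharacter_of_isIrr hθ) hθb t
    have h2 : (fun g : T => (ν g : ℂ) * θ g) = θ := funext hνθ
    rw [h2] at h1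
    obtain ⟨f, hf⟩ := H18.DetChar.exists_detHom (isCharacter_of_isIrr hθ)
    rw [hf] at h1
    simp only at h1
    have h3 : (f t : ℂ) ≠ 0 := (f t).ne_zero
    have h4 : (ν t : ℂ) ^ b = 1 := by
      have h5 : ((ν t : ℂ) ^ b - 1) * (f t : ℂ) = 0 := by rw [sub_mul, one_mul, ← h1, sub_self]
      rcases mul_eq_zero.1 h5 with h6 | h6
      · exact sub_eq_zero.1 h6
      · exact absurd h6 h3
    apply Units.ext
    rw [Units.val_pow_eq_pow_val, h4, Units.val_one]
  -- the index of the kernel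
  have hker : ν.ker.index ≤ b := by
    rw [Subgroup.index_ker]
    have hb0 : NeZero b := ⟨by have := h.two; omega⟩
    have h1 : ν.range ≤ rootsOfUnity b ℂ := by
      rintro _ ⟨t, rfl⟩
      rw [mem_rootsOfUnity]
      exact hνb t
    calc Nat.card ν.range ≤ Nat.card (rootsOfUnity b ℂ) := Nat.card_le_card_of_injective _ (Subgroup.inclusion_injective h1)
      _ ≤ b := card_rootsOfUnity ℂ b
  set H : Subgroup G := ν.ker.map T.subtype with hH
  have := Fintype.ofFinite H
  have hHi : H.index ≤ b ^ 2 := by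
    rw [hH, Subgroup.index_map_subtype, sq]
    exact Nat.mul_le_mul hker hT
  have hHT : H ≤ T := Subgroup.map_subtype_le _
  have hHk : ∀ x : H, ν ⟨x, hHT x.2⟩ = 1 := by
    rintro ⟨x, hx⟩
    obtain ⟨t, ht, rfl⟩ := Subgroup.mem_map.1 hx
    exact ht
  obtain ⟨θ', hθ', hθb''⟩ := h.full H hHi
  obtain ⟨φ, hφ, hφb, hφH⟩ := exists_ext h.le H hθ' hθb''
  have hφH' : IsIrrCharacter H (fun x : H => φ x) := by rw [hφH]; exact hθ'
  let α : H →* ℂˣ := κ.comp (Subgroup.inclusion hHT)
  have hα : IsIrrCharacter H (fun x => (α x : ℂ)) := isIrrCharacter_of_hom α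
  have hκi : IsIrrCharacter T (fun t => (κ t : ℂ)) := isIrrCharacter_of_hom κ
  have hκi' : IsIrrCharacter T (fun t => (κ' t : ℂ)) := isIrrCharacter_of_hom κ'
  have hneq : (fun t => (κ t : ℂ)) ≠ (fun t => (κ' t : ℂ)) := by
    intro h1
    apply hg
    intro t ht ht'
    have h2 := congrFun h1 ⟨t, ht⟩
    apply Units.ext
    rw [h2, hκ']
  have h1 := sub_isCharacter (isCharacter_restrict T (isCharacter_of_isIrr hχ)) hκi hne
  have hcj : H18.CharQuot.conjFunN T g (fun t => (κ t : ℂ)) = fun t => (κ' t : ℂ) := by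
    funext t
    rw [H31.Clifford.cj_apply, hκ']
  have hne' : classInner (fun t : T => χ t) (fun t => (κ' t : ℂ)) ≠ 0 := by
    rw [← hcj, H31.Clifford.inner_restrict_cj T g (isClassFunction_of_isIrr hχ)]
    exact hne
  have h2 : classInner ((fun t : T => χ t) - fun t => (κ t : ℂ)) (fun t => (κ' t : ℂ)) ≠ 0 := by
    rw [H18.CharOrtho.inner_sub_left, inner_irr_ne hκi hκi' hneq, sub_zero]
    exact hne'
  have h3 := sub_isCharacter h1 hκi' h2
  have h4 := isCharacter_comp (Subgroup.inclusion hHT) h3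
  obtain ⟨k, hk⟩ := inner_char_natCast h4 (isCharacter_of_isIrr hα)
  have h5 : (fun x : H => χ x) = (fun x : H => (α x : ℂ)) + (fun x : H => (α x : ℂ)) +
      fun x : H => ((((fun t : T => χ t) - fun t => (κ t : ℂ))) - fun t => (κ' t : ℂ)) (Subgroup.inclusion hHT x) := by
    funext x
    have h6 : (κ' ⟨x, hHT x.2⟩ : ℂ) = κ ⟨x, hHT x.2⟩ := by
      have h7 := hHk x
      rw [hν] at h7
      simp only [MonoidHom.mul_apply, MonoidHom.inv_apply] at h7
      rw [mul_inv_eq_one.1 h7]
    have h8 : (Subgroup.inclusion hHT x) = (⟨x, hHT x.2⟩ : T) := rfl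
    have h9 : (α x : ℂ) = κ ⟨x, hHT x.2⟩ := rfl
    simp only [Pi.add_apply, Pi.sub_apply, h8, h9, h6]
    ring
  have h6 : classInner (fun x : H => χ x) (fun x => (α x : ℂ)) = ((2 + k : ℕ) : ℂ) := by
    rw [h5, H18.CharOrtho.inner_add_left, H18.CharOrtho.inner_add_left, inner_irr_self hα, hk]
    push_cast; ring
  have h7 := lemmaM h.le H hφ hφb hφH' hχ α h6
  omega

end H84.BI2
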