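import Cfsg.Agent.Lib.H84.BI2

/-!
Groups with bounded character degrees: the commutator subgroup is perfect, counting, the centralizer.
-/

set_option autoImplicit false

namespace H84.BI3

open Cfsg H18.CharBasic H18.CharOrtho H18.CharInd H18.CharQuot H77.SubChar H84.LG1 H84.BI1 H84.BI2 H84.CharMisc
open scoped ComplexConjugate commutatorElement

universe u

theorem linear_of_commutator_ker {N : Type u} [Group N] [Finite N] {lam : N → ℂ} (hl : IsIrrCharacter N lam)
    (hk : ∀ c ∈ commutator N, lam c = lam 1) : lam 1 = 1 := by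
  have h1 := isIrrCharacter_deflate (commutator N) hl hk
  have h2 : ∀ a b : N ⧸ commutator N, a * b = b * a := fun a b => @mul_comm (Abelianization N) _ a b
  have h3 := degree_one_of_comm h2 h1
  rw [← h3]
  exact (deflate_mk (commutator N) (isCharacter_of_isIrr hl) hk 1).symm

variable {G : Type u} [Group G] [Fintype G] {b : ℕ}

/-- The commutator subgroup of a bad group is perfect. -/
theorem Bad.perfect (h : Bad G b) : ⁅commutator G, commutator G⁆ = commutator G := by
  classical
  by_contra hcon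
  set D := commutator G with hD
  have hDn : D.Normal := by rw [hD]; infer_instance
  have hle : ⁅D, D⁆ ≤ D := Subgroup.commutator_le_self D
  obtain ⟨g, hg, hg'⟩ : ∃ g ∈ D, g ∉ ⁅D, D⁆ := by
    by_contra h1
    push Not at h1
    exact hcon (le_antisymm hle h1)
  have hmk : (QuotientGroup.mk g : G ⧸ ⁅D, D⁆) ≠ 1 := by
    intro h1
    exact hg' ((QuotientGroup.eq_one_iff _).1 h1)
  obtain ⟨β, hβ, hβg⟩ : ∃ β : G ⧸ ⁅D, D⁆ → ℂ, IsIrrCharacter _ β ∧ β (QuotientGroup.mk g) ≠ β 1 := by
    by_contra h1
    push Not at h1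
    exact hmk (eq_one_of_forall_irr h1)
  set χ : G → ℂ := fun x => β (QuotientGroup.mk x) with hχdef
  have hχ : IsIrrCharacter G χ := isIrrCharacter_inflate _ hβ
  have hχg : χ g ≠ χ 1 := hβg
  have hχker : ∀ x ∈ ⁅D, D⁆, χ x = χ 1 := by
    intro x hx
    show β (QuotientGroup.mk x) = β (QuotientGroup.mk 1)
    rw [(QuotientGroup.eq_one_iff (N := ⁅D, D⁆) x).2 hx]; rfl
  have hχ1 : χ 1 ≠ 1 := by
    intro h1
    obtain ⟨f, hf⟩ := exists_hom_of_degree_one (isCharacter_of_isIrr hχ) h1
    have h2 : f g = 1 := (Abelianization.commutator_subset_ker f) hg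
    apply hχg
    rw [hf]
    simp only [h2, map_one]
  have := Fintype.ofFinite D
  obtain ⟨lam, hlam, hne⟩ := exists_constituent_restrict D hχ
  have hl1 : lam 1 = 1 := by
    apply linear_of_commutator_ker hlam
    intro c hc
    apply constituent_ker (isCharacter_restrict D (isCharacter_of_isIrr hχ)) hlam hne
    have h1 : (c : G) ∈ ⁅D, D⁆ := by
      rw [← Subgroup.map_subtype_commutator]
      exact Subgroup.mem_map_of_mem _ hc
    rw [Subgroup.coe_one]
    exact hχker _ h1
  set T := H31.Clifford.inertia D lam with hT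
  have := Fintype.ofFinite T
  have hDT : D ≤ T := H31.Clifford.le_inertia D (isClassFunction_of_isIrr hlam)
  obtain ⟨κ, hκ, hκne, hind, hres⟩ := H4.CenterIndex.exists_corr D hχ hlam hne T hDT (fun x => Iff.rfl)
  obtain ⟨e, he0, he⟩ := exists_degree_pos hκ
  have hres1 : κ 1 = classInner (H31.Clifford.resH hDT κ) lam := by
    have := congrFun hres 1
    simp only [H31.Clifford.resH_apply, Pi.smul_apply, smul_eq_mul, hl1, mul_one] at this
    exact this
  have hresx : ∀ x : D, κ ⟨x, hDT x.2⟩ = κ 1 * lam x := by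
    intro x
    have := congrFun hres x
    simp only [H31.Clifford.resH_apply, Pi.smul_apply, smul_eq_mul] at this
    rw [hres1, this]
  obtain ⟨f, hf⟩ := exists_hom_of_degree_one (isCharacter_of_isIrr hlam) hl1
  have hnorm : ∀ c ∈ commutator T, ‖κ c‖ = e := by
    intro c hc
    have h1 : (c : G) ∈ D := by
      have h2 : (c : G) ∈ (commutator T).map T.subtype := Subgroup.mem_map_of_mem _ hc
      rw [Subgroup.map_subtype_commutator] at h2
      exact (Subgroup.commutator_mono le_top le_top) h2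
    have h2 := hresx ⟨c, h1⟩
    have h3 : (⟨((⟨c, h1⟩ : D) : G), hDT h1⟩ : T) = c := Subtype.ext rfl
    rw [h3] at h2
    rw [h2, he, norm_mul, hf]
    simp only
    rw [hom_norm_one, mul_one]
    simp
  have hdeg : χ 1 = T.index * e := by rw [← hind, indFun_one, he]
  have hdle : T.index * e ≤ b := h.le χ hχ (T.index * e) (by rw [hdeg]; push_cast; rfl)
  have hTle : T.index ≤ b := le_trans (Nat.le_mul_of_pos_right _ he0) hdle
  have hκχ : classInner (fun t : T => χ t) κ ≠ 0 := by
    have h1 := frobenius T κ (isClassFunction_of_isIrr hχ)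
    rw [hind, inner_irr_self hχ] at h1
    rw [classInner_ne_zero_symm, ← h1]
    exact one_ne_zero
  by_cases he2 : 2 ≤ e
  · exact h.case_e2 T hχ hκ hκχ he he2 hnorm hdle
  · have he1 : e = 1 := by omega
    subst he1
    rw [Nat.cast_one] at he
    obtain ⟨k, hk⟩ := exists_hom_of_degree_one (isCharacter_of_isIrr hκ) he
    -- an element outside `T`
    obtain ⟨y, hy⟩ : ∃ y : G, y ∉ T := by
      by_contra h1
      push Not at h1
      have h2 : T = ⊤ := (Subgroup.eq_top_iff' T).2 h1
      apply hχ1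
      rw [hdeg, h2, Subgroup.index_top]
      simp
    refine h.case_e1 T hTle hχ k ?_ (g := y) ?_
    · rw [hk] at hκχ
      exact hκχ
    · intro h1
      apply hy
      rw [hT, H31.Clifford.mem_inertia_iff]
      intro x
      have hmem : y * x * y⁻¹ ∈ D := hDn.conj_mem x x.2 y
      have h2 := h1 x (hDT x.2) (hDT hmem)
      have h3 := hresx x
      have h4 := hresx ⟨y * x * y⁻¹, hmem⟩
      rw [he, one_mul] at h3 h4
      rw [← h3, ← h4, hk]
      simp only
      rw [h2]

/-- perfect groups with degrees at most two are trivial -/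
theorem no_two {P : Type u} [Group P] [Fintype P] (hperf : commutator P = ⊤) (hdeg : DegLe P 2) : Subsingleton P := by
  classical
  have := Fintype.ofFinite (IrrCharacter P)
  by_contra hcon
  rw [not_subsingleton_iff_nontrivial] at hcon
  choose d hd0 hd using fun χ : IrrCharacter P => exists_degree_pos χ.2
  have h1 : IsIrrCharacter P (fun x => (((1 : P →* ℂˣ) x : ℂˣ) : ℂ)) := isIrrCharacter_of_hom 1
  set one : IrrCharacter P := ⟨_, h1⟩ with hone
  have hlin : ∀ χ : IrrCharacter P, d χ = 1 → χ = one := by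
    intro χ hχ
    obtain ⟨f, hf⟩ := exists_hom_of_degree_one (isCharacter_of_isIrr χ.2) (by rw [hd, hχ]; simp)
    have h2 : f = 1 := by
      ext x
      have h3 : x ∈ commutator P := by rw [hperf]; trivial
      have h4 : f x = 1 := (Abelianization.commutator_subset_ker f) h3
      rw [h4]; rfl
    apply Subtype.ext
    rw [hf, h2]
  have htwo : ∀ χ : IrrCharacter P, χ ≠ one → d χ = 2 := by
    intro χ hχ
    have h2 := hdeg χ χ.2 (d χ) (hd χ)
    have h3 := hd0 χ
    have h4 : d χ ≠ 1 := fun h5 => hχ (hlin χ h5)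
    omega
  have hsum : Nat.card P = ∑ χ : IrrCharacter P, d χ ^ 2 := by
    have h2 := sum_degree_sq (G := P)
    have h3 : ((∑ χ : IrrCharacter P, d χ ^ 2 : ℕ) : ℂ) = (Nat.card P : ℂ) := by
      rw [← h2]
      push_cast
      exact Finset.sum_congr rfl fun χ _ => by rw [← hd χ]
    exact_mod_cast h3.symm
  have hone1 : d one = 1 := by
    have h2 := hd one
    have h3 : (one : P → ℂ) 1 = 1 := by
      rw [hone]
      simp
    rw [h3] at h2
    exact_mod_cast h2.symm
  rw [← Finset.add_sum_erase Finset.univ _ (Finset.mem_univ one), hone1] at hsum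
  have h4 : 2 ∣ ∑ χ ∈ Finset.univ.erase one, d χ ^ 2 := by
    apply Finset.dvd_sum
    intro χ hχ
    rw [htwo χ (Finset.ne_of_mem_erase hχ)]
    norm_num
  by_cases h5 : ∃ χ : IrrCharacter P, χ ≠ one
  · obtain ⟨χ, hχ⟩ := h5
    have h6 : d χ ∣ (⊥ : Subgroup P).index := H4.CenterIndex.ito χ.2 (hd χ) ⊥ (by
      intro a ha b hb
      rw [Subgroup.mem_bot.1 ha, Subgroup.mem_bot.1 hb])
    rw [Subgroup.index_bot, htwo χ hχ] at h6
    omega
  · push Not at h5
    have h6 : Finset.univ.erase one = (∅ : Finset (IrrCharacter P)) := by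
      rw [Finset.eq_empty_iff_forall_notMem]
      intro χ hχ
      exact Finset.ne_of_mem_erase hχ (h5 χ)
    rw [h6] at hsum
    simp only [one_pow, Finset.sum_empty, add_zero] at hsum
    have h7 := Finite.one_lt_card (α := P)
    omega

/-- the norm of a character -/
theorem norm_ge (h : DegLe G b) {ξ : G → ℂ} (hξ : IsCharacter G ξ) :
    ∃ k n : ℕ, classInner ξ ξ = k ∧ ξ 1 = n ∧ n ≤ b * k := by
  refine isCharacter_induction (P := fun ξ => ∃ k n : ℕ, classInner ξ ξ = k ∧ ξ 1 = n ∧ n ≤ b * k)
    ⟨0, 0, by simp [classInner], by simp, by simp⟩ ?_ hξ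
  rintro χ ψ hχ hψ ⟨k, n, hk, hn, hkn⟩
  obtain ⟨m, hm⟩ := inner_char_natCast hχ (isCharacter_of_isIrr hψ)
  obtain ⟨d, hd⟩ := exists_degree (isCharacter_of_isIrr hψ)
  have hm' : classInner ψ χ = m := by rw [classInner_comm (isCharacter_of_isIrr hψ) hχ, hm]
  refine ⟨k + 2 * m + 1, n + d, ?_, ?_, ?_⟩
  · rw [H18.CharOrtho.inner_add_left, H18.CharOrtho.inner_add_right, H18.CharOrtho.inner_add_right, hk, hm, hm',
      inner_irr_self hψ]
    push_cast; ring
  · rw [Pi.add_apply, hn, hd]; push_cast; rfl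
  · have h1 := h ψ hψ d hd
    nlinarith [Nat.zero_le (b * m)]

end H84.BI3
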