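import Cfsg.Agent.Lib.H84.BI3

/-!
Groups with bounded character degrees: counting, the centralizer, the induction.
-/

set_option autoImplicit false

namespace H84.BI4

open Cfsg H18.CharBasic H18.CharOrtho H18.CharInd H18.CharQuot H77.SubChar H84.LG1 H84.BI1 H84.BI2 H84.BI3 H84.CharMisc
open scoped ComplexConjugate commutatorElement

universe u

variable {G : Type u} [Group G] [Fintype G] {b : ℕ}

/-- Counting: a set of elements with big centralizers. -/
theorem count (h : DegLe G b) (hb : 2 ≤ b) (hf : Full G b) (C : Subgroup G)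
    (hC : ∀ x, x ∉ C → b ^ 2 ≤ (Subgroup.centralizer ({x} : Set G)).index) : C.index ≤ b ^ 2 * (b + 1) := by
  classical
  have := Fintype.ofFinite (IrrCharacter G)
  obtain ⟨χ, hχ, hχb⟩ := hf
  have hcard0 : (0 : ℝ) < Nat.card G := by exact_mod_cast Nat.card_pos
  have hb0 : (0 : ℝ) < b := by exact_mod_cast (by omega : 0 < b)
  set g : ℝ := (Nat.card G : ℝ) with hg
  -- the norm of `χ`
  have hS : ∑ x : G, ‖χ x‖ ^ 2 = g := by
    have hself := inner_irr_self hχ
    rw [inner_self_eq_sum] at hself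
    have h3 : (Nat.card G : ℝ)⁻¹ * ∑ x : G, ‖χ x‖ ^ 2 = 1 := by exact_mod_cast hself
    field_simp at h3
    exact h3
  choose d hd0 hd using fun η : IrrCharacter G => exists_degree_pos η.2
  -- column orthogonality
  have hcol : ∀ x : G, ∑ η : IrrCharacter G, ‖(η : G → ℂ) x‖ ^ 2 =
      (Nat.card (Subgroup.centralizer ({x} : Set G)) : ℝ) := by
    intro x
    have h1 := column_orthogonality x x
    rw [if_pos (IsConj.refl x)] at h1
    have h2 : ∀ η : IrrCharacter G, (η : G → ℂ) x * conj ((η : G → ℂ) x) = ((‖(η : G → ℂ) x‖ ^ 2 : ℝ) : ℂ) := by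
      intro η
      rw [Complex.mul_conj, Complex.normSq_eq_norm_sq]
    rw [Finset.sum_congr rfl (fun η _ => h2 η)] at h1
    exact_mod_cast h1
  -- the lower bound
  have hlow : ∀ η : IrrCharacter G, g * d η ≤ ∑ x : G, ‖χ x‖ ^ 2 * ‖(η : G → ℂ) x‖ ^ 2 := by
    intro η
    obtain ⟨k, n, hk, hn, hkn⟩ := norm_ge h (isCharacter_mul (isCharacter_of_isIrr hχ) (isCharacter_of_isIrr η.2))
    rw [Pi.mul_apply, hχb, hd] at hn
    have hn' : b * d η = n := by exact_mod_cast hn
    have h1 : d η ≤ k := by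
      rw [← hn'] at hkn
      exact Nat.le_of_mul_le_mul_left hkn (by omega)
    rw [inner_self_eq_sum] at hk
    have h3 : (Nat.card G : ℝ)⁻¹ * ∑ x : G, ‖(χ * (η : G → ℂ)) x‖ ^ 2 = k := by exact_mod_cast hk
    have h4 : ∑ x : G, ‖(χ * (η : G → ℂ)) x‖ ^ 2 = g * k := by
      field_simp at h3
      linarith
    have h5 : ∑ x : G, ‖χ x‖ ^ 2 * ‖(η : G → ℂ) x‖ ^ 2 = g * k := by
      rw [← h4]
      refine Finset.sum_congr rfl fun x _ => ?_
      rw [Pi.mul_apply, norm_mul, mul_pow]
    rw [h5]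
    have h6 : (d η : ℝ) ≤ k := by exact_mod_cast h1
    exact mul_le_mul_of_nonneg_left h6 hcard0.le
  have hsumd : g ≤ b * ∑ η : IrrCharacter G, (d η : ℝ) := by
    have h2 := sum_degree_sq (G := G)
    have h3 : ∑ η : IrrCharacter G, (d η : ℝ) ^ 2 = g := by
      have h4 : ((∑ η : IrrCharacter G, d η ^ 2 : ℕ) : ℂ) = (Nat.card G : ℂ) := by
        rw [← h2]
        push_cast
        exact Finset.sum_congr rfl fun η _ => by rw [← hd η]
      have h5 : (∑ η : IrrCharacter G, d η ^ 2 : ℕ) = Nat.card G := by exact_mod_cast h4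
      rw [hg, ← h5]; push_cast; rfl
    rw [← h3, Finset.mul_sum]
    refine Finset.sum_le_sum fun η _ => ?_
    have h4 : (d η : ℝ) ≤ b := by exact_mod_cast h η η.2 (d η) (hd η)
    rw [sq]
    exact mul_le_mul_of_nonneg_right h4 (Nat.cast_nonneg _)
  -- the double sum
  have hdouble : ∑ η : IrrCharacter G, ∑ x : G, ‖χ x‖ ^ 2 * ‖(η : G → ℂ) x‖ ^ 2 =
      ∑ x : G, ‖χ x‖ ^ 2 * (Nat.card (Subgroup.centralizer ({x} : Set G)) : ℝ) := by
    rw [Finset.sum_comm]
    refine Finset.sum_congr rfl fun x _ => ?_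
    rw [← Finset.mul_sum, hcol]
  set Y : ℝ := ∑ x : G, if x ∈ C then ‖χ x‖ ^ 2 else 0 with hY
  have hYle : Y ≤ b ^ 2 * (Nat.card C : ℝ) := by
    have h1 : Y ≤ ∑ x : G, if x ∈ C then (b : ℝ) ^ 2 else 0 := by
      refine Finset.sum_le_sum fun x _ => ?_
      split_ifs
      · have h2 := char_norm_le (isCharacter_of_isIrr hχ) x
        rw [hχb] at h2
        have h3 : ‖χ x‖ ≤ b := by simpa using h2
        exact pow_le_pow_left₀ (norm_nonneg _) h3 2
      · exact le_rfl
    rw [← Finset.sum_filter, Finset.sum_const, nsmul_eq_mul] at h1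
    have h2 : ((Finset.univ.filter fun x : G => x ∈ C).card : ℝ) = (Nat.card C : ℝ) := by
      rw [Nat.card_eq_fintype_card, Fintype.card_subtype]
    rw [h2] at h1
    linarith
  have hcen : ∀ x : G, (Nat.card (Subgroup.centralizer ({x} : Set G)) : ℝ) ≤ g := by
    intro x
    rw [hg]
    exact_mod_cast Subgroup.card_le_card_group _
  have hup : ∑ x : G, ‖χ x‖ ^ 2 * (Nat.card (Subgroup.centralizer ({x} : Set G)) : ℝ) * (b : ℝ) ^ 2 ≤
      g * ((b : ℝ) ^ 2 * Y + (g - Y)) := by
    have h1 : ∀ x : G, ‖χ x‖ ^ 2 * (Nat.card (Subgroup.centralizer ({x} : Set G)) : ℝ) * (b : ℝ) ^ 2 ≤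
        g * ((b : ℝ) ^ 2 * (if x ∈ C then ‖χ x‖ ^ 2 else 0) + (‖χ x‖ ^ 2 - if x ∈ C then ‖χ x‖ ^ 2 else 0)) := by
      intro x
      have hnn : (0 : ℝ) ≤ ‖χ x‖ ^ 2 := by positivity
      split_ifs with hx
      · have h2 := hcen x
        have h3 : (0 : ℝ) ≤ (b : ℝ) ^ 2 := by positivity
        have h4 := mul_le_mul_of_nonneg_left h2 (mul_nonneg hnn h3)
        nlinarith
      · have h2 := hC x hx
        have h3 : (Nat.card (Subgroup.centralizer ({x} : Set G)) : ℝ) * (b : ℝ) ^ 2 ≤ g := by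
          rw [hg, ← (Subgroup.centralizer ({x} : Set G)).card_mul_index]
          push_cast
          have h4 : ((b : ℝ) ^ 2) ≤ ((Subgroup.centralizer ({x} : Set G)).index : ℝ) := by exact_mod_cast h2
          exact mul_le_mul_of_nonneg_left h4 (Nat.cast_nonneg _)
        have h4 := mul_le_mul_of_nonneg_left h3 hnn
        nlinarith
    calc _ ≤ ∑ x : G, g * ((b : ℝ) ^ 2 * (if x ∈ C then ‖χ x‖ ^ 2 else 0) +
          (‖χ x‖ ^ 2 - if x ∈ C then ‖χ x‖ ^ 2 else 0)) := Finset.sum_le_sum fun x _ => h1 x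
      _ = _ := by
        rw [← Finset.mul_sum, Finset.sum_add_distrib, ← Finset.mul_sum, Finset.sum_sub_distrib, hS]
  -- put together
  have h1 : g * ∑ η : IrrCharacter G, (d η : ℝ) ≤
      ∑ x : G, ‖χ x‖ ^ 2 * (Nat.card (Subgroup.centralizer ({x} : Set G)) : ℝ) := by
    rw [← hdouble, Finset.mul_sum]
    exact Finset.sum_le_sum fun η _ => hlow η
  rw [← Finset.sum_mul] at hup
  have h2 : g * (∑ η : IrrCharacter G, (d η : ℝ)) * (b : ℝ) ^ 2 ≤ g * ((b : ℝ) ^ 2 * Y + (g - Y)) :=
    (mul_le_mul_of_nonneg_right h1 (by positivity)).trans hup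
  have h3 : (∑ η : IrrCharacter G, (d η : ℝ)) * (b : ℝ) ^ 2 ≤ (b : ℝ) ^ 2 * Y + (g - Y) := by
    rw [mul_assoc] at h2
    exact le_of_mul_le_mul_left h2 hcard0
  have h4 : g * b ≤ (b : ℝ) ^ 2 * Y + (g - Y) := by
    have h5 := mul_le_mul_of_nonneg_right hsumd hb0.le
    nlinarith
  have h5 : ((b : ℝ) - 1) * g ≤ ((b : ℝ) - 1) * ((b + 1) * Y) := by nlinarith
  have hb1 : (0 : ℝ) < (b : ℝ) - 1 := by
    have : (2 : ℝ) ≤ b := by exact_mod_cast hb
    linarith
  have h6 : g ≤ (b + 1) * Y := le_of_mul_le_mul_left h5 hb1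
  have h7 : g ≤ (b + 1) * (b ^ 2 * (Nat.card C : ℝ)) :=
    h6.trans (mul_le_mul_of_nonneg_left hYle (by positivity))
  have h8 : Nat.card G ≤ (b + 1) * (b ^ 2 * Nat.card C) := by
    rw [hg] at h7
    exact_mod_cast h7
  rw [← C.card_mul_index] at h8
  have h9 : 0 < Nat.card C := Nat.card_pos
  have h10 : Nat.card C * C.index ≤ Nat.card C * (b ^ 2 * (b + 1)) := by
    calc _ ≤ _ := h8
      _ = _ := by ring
  exact Nat.le_of_mul_le_mul_left h10 h9

/-- The centralizer of a perfect normal subgroup has small degrees. -/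
theorem cen (h : DegLe G b) (P : Subgroup G) [hPn : P.Normal] (hperf : ⁅P, P⁆ = P) (hne : P ≠ ⊥) :
    DegLe (Subgroup.centralizer (P : Set G)) (b / 2) := by
  classical
  set C := Subgroup.centralizer (P : Set G) with hC
  have hCn : C.Normal := by rw [hC]; infer_instance
  have := Fintype.ofFinite C
  intro φ hφ d hd
  by_contra hcon
  push Not at hcon
  have h2d : b < 2 * d := by omega
  have hd0 : 0 < d := by omega
  -- the characters over `φ` are extensions
  have hext : ∀ ζ : G → ℂ, IsIrrCharacter G ζ → classInner (fun x : C => ζ x) φ ≠ 0 → (fun x : C => ζ x) = φ := by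
    intro ζ hζ hne'
    apply eq_of_degree (isCharacter_restrict C (isCharacter_of_isIrr hζ)) hφ hne'
    obtain ⟨n, hn⟩ := exists_degree (isCharacter_of_isIrr hζ)
    obtain ⟨m, hm⟩ := inner_char_natCast (isCharacter_restrict C (isCharacter_of_isIrr hζ)) (isCharacter_of_isIrr hφ)
    have h1 := H31.Clifford.degree_eq C hζ hφ hne'
    rw [hn, hm, hd] at h1
    have h2 : n = m * (H31.Clifford.inertia C φ).index * d := by exact_mod_cast h1
    have h3 := h ζ hζ n hn
    have hm0 : m ≠ 0 := by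
      rintro rfl
      apply hne'
      rw [hm]; simp
    have hi0 : (H31.Clifford.inertia C φ).index ≠ 0 := Subgroup.index_ne_zero_of_finite
    have h4 : m * (H31.Clifford.inertia C φ).index < 2 := by
      by_contra h5
      push Not at h5
      have h6 := Nat.mul_le_mul_right d h5
      omega
    have h5 : m * (H31.Clifford.inertia C φ).index ≠ 0 := mul_ne_zero hm0 hi0
    have h6 : m * (H31.Clifford.inertia C φ).index = 1 := by omega
    rw [h6, one_mul] at h2
    rw [Subgroup.coe_one, hn, hd, h2]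
  -- `P` is in their kernels
  have hker : ∀ ζ : G → ℂ, IsIrrCharacter G ζ → classInner (fun x : C => ζ x) φ ≠ 0 → ∀ y ∈ P, ζ y = ζ 1 := by
    intro ζ hζ hne' y hy
    have h1 := hext ζ hζ hne'
    obtain ⟨n, ρ, hρ, rfl⟩ := hζ
    obtain ⟨m, σ, hσ, hσφ⟩ := hφ
    let τ : Representation ℂ C (Fin n → ℂ) := ρ.comp C.subtype
    have hτ : σ.character = τ.character := by rw [hσφ, ← h1]; rfl
    obtain ⟨eqv⟩ := H4.CharEquiv.equiv_of_character_eq σ τ hτ
    have hτi : τ.IsIrreducible := H4.CharBasic.isIrreducible_of_equiv eqv hσ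
    have hscal : ∀ z ∈ P, ∃ c : ℂ, ρ z = c • (LinearMap.id : (Fin n → ℂ) →ₗ[ℂ] (Fin n → ℂ)) := by
      intro z hz
      let F : Representation.IntertwiningMap τ τ := ⟨ρ z, fun x => by
        rw [← Module.End.mul_eq_comp, ← Module.End.mul_eq_comp]
        show ρ z * ρ x = ρ x * ρ z
        rw [← map_mul, ← map_mul]
        congr 1
        exact (Subgroup.mem_centralizer_iff.1 x.2 z hz)⟩
      obtain ⟨c, hc⟩ := (Representation.IsIrreducible.algebraMap_intertwiningMap_bijective_of_isAlgClosed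
        (ρ := τ)).2 F
      exact ⟨c, (congrArg Representation.IntertwiningMap.toLinearMap hc).symm⟩
    have h2 : P ≤ ρ.ker := by
      rw [← hperf, Subgroup.commutator_le]
      intro x hx z hz
      obtain ⟨c, hc⟩ := hscal x hx
      obtain ⟨c', hc'⟩ := hscal z hz
      rw [MonoidHom.mem_ker]
      have h3 : ρ x * ρ z = ρ z * ρ x := by
        rw [hc, hc', smul_mul_smul_comm, smul_mul_smul_comm, mul_comm c c']
      rw [commutatorElement_def, map_mul, map_mul, map_mul, h3, mul_assoc (ρ z), ← map_mul ρ x, mul_inv_cancel, map_one, mul_one,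
        ← map_mul, mul_inv_cancel, map_one]
    have h3 : ρ y = 1 := h2 hy
    show LinearMap.trace ℂ _ (ρ y) = LinearMap.trace ℂ _ (ρ 1)
    rw [h3, ρ.map_one]
  -- the induced character
  have := Fintype.ofFinite (IrrCharacter G)
  have hcl := isClassFunction_indFun C φ
  have hexp : ∀ g : G, indFun C φ g = ∑ ζ : IrrCharacter G, classInner (indFun C φ) (ζ : G → ℂ) * (ζ : G → ℂ) g := by
    intro g
    conv_lhs => rw [mem_classFun_expand hcl]
    rw [Finset.sum_apply]
    rfl
  have hind : ∀ y ∈ P, indFun C φ y = indFun C φ 1 := by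
    intro y hy
    rw [hexp y, hexp 1]
    refine Finset.sum_congr rfl fun ζ _ => ?_
    by_cases h1 : classInner (indFun C φ) (ζ : G → ℂ) = 0
    · rw [h1, zero_mul, zero_mul]
    · have h2 : classInner (fun x : C => (ζ : G → ℂ) x) φ ≠ 0 := by
        rw [frobenius C φ (isClassFunction_of_isIrr ζ.2)] at h1
        exact classInner_ne_zero_symm.1 h1
      rw [hker ζ ζ.2 h2 y hy]
  have hPC : P ≤ C := by
    intro y hy
    by_contra hyC
    have h1 := hind y hy
    rw [H31.Clifford.ind_not_mem C φ hyC, indFun_one, hd] at h1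
    have h2 : C.index ≠ 0 := Subgroup.index_ne_zero_of_finite
    have h3 : (C.index : ℂ) ≠ 0 := by exact_mod_cast h2
    have h4 : (d : ℂ) ≠ 0 := by exact_mod_cast hd0.ne'
    exact mul_ne_zero h3 h4 h1.symm
  apply hne
  rw [eq_bot_iff, ← hperf, Subgroup.commutator_le]
  intro x hx y hy
  rw [Subgroup.mem_bot, commutatorElement_eq_one_iff_mul_comm]
  exact Subgroup.mem_centralizer_iff.1 (hPC hy) x hx

/-- elements outside the centralizer of the commutator subgroup have many conjugates -/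
theorem Bad.big (h : Bad G b) (x : G) (hx : x ∉ Subgroup.centralizer (commutator G : Set G)) :
    b ^ 2 ≤ (Subgroup.centralizer ({x} : Set G)).index := by
  classical
  by_contra hcon
  push Not at hcon
  have hf := h.full _ hcon.le
  have h1 := lemmaA h.le x hf
  -- the normal closure of `x`
  have h2 : ∀ y ∈ Subgroup.normalClosure ({x} : Set G), ∀ z ∈ Subgroup.normalClosure ({x} : Set G), y * z = z * y := by
    have h3 : ∀ u v : G, (u * x * u⁻¹) * (v * x * v⁻¹) = (v * x * v⁻¹) * (u * x * u⁻¹) := by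
      intro u v
      have h4 := h1 (v⁻¹ * u)
      have h5 : (v⁻¹ * u) * x * (v⁻¹ * u)⁻¹ = v⁻¹ * (u * x * u⁻¹) * v := by group
      rw [h5] at h4
      calc (u * x * u⁻¹) * (v * x * v⁻¹) = v * ((v⁻¹ * (u * x * u⁻¹) * v) * x) * v⁻¹ := by group
        _ = v * (x * (v⁻¹ * (u * x * u⁻¹) * v)) * v⁻¹ := by rw [h4]
        _ = _ := by group
    have h4 : Subgroup.normalClosure ({x} : Set G) ≤ Subgroup.centralizer (Subgroup.normalClosure ({x} : Set G) : Set G) := by
      unfold Subgroup.normalClosure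
      rw [Subgroup.closure_le]
      intro y hy
      rw [SetLike.mem_coe, Subgroup.mem_centralizer_iff]
      intro z hz
      obtain ⟨a, ha, hay⟩ := Group.mem_conjugatesOfSet_iff.1 hy
      rw [Set.mem_singleton_iff] at ha
      subst ha
      obtain ⟨u, rfl⟩ := isConj_iff.1 hay
      refine Subgroup.closure_induction (p := fun z _ => z * (u * a * u⁻¹) = (u * a * u⁻¹) * z) ?_ ?_ ?_ ?_ hz
      · intro w hw
        obtain ⟨a', ha', haw⟩ := Group.mem_conjugatesOfSet_iff.1 hw
        rw [Set.mem_singleton_iff] at ha'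
        subst ha'
        obtain ⟨v, rfl⟩ := isConj_iff.1 haw
        exact h3 v u
      · rw [one_mul, mul_one]
      · intro p q _ _ hp hq
        rw [mul_assoc, hq, ← mul_assoc, hp, mul_assoc]
      · intro p _ hp
        have : p⁻¹ * (u * a * u⁻¹) = p⁻¹ * ((u * a * u⁻¹) * p) * p⁻¹ := by group
        rw [this, ← hp]
        group
    intro y hy z hz
    exact (Subgroup.mem_centralizer_iff.1 (h4 hz) y hy)
  apply hx
  rw [Subgroup.mem_centralizer_iff]
  intro g hg
  exact BI2.Bad.comm h (Subgroup.normalClosure ({x} : Set G)) h2 (Subgroup.subset_normalClosure rfl) hg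

end H84.BI4
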