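import Cfsg.Agent.Lib.H84.BI4

/-!
Abelian subgroups of index at most the square of the factorial of the maximal degree.
-/

set_option autoImplicit false

namespace H84.BI5

open Cfsg H18.CharBasic H18.CharOrtho H18.CharInd H18.CharQuot H77.SubChar H84.LG1 H84.BI1 H84.BI2 H84.BI3 H84.BI4
open scoped ComplexConjugate commutatorElement

universe u

theorem comm_of_degLe_one {G : Type u} [Group G] [Finite G] (h : DegLe G 1) (x y : G) : x * y = y * x := by
  rw [← commutatorElement_eq_one_iff_mul_comm]
  apply eq_one_of_forall_irr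
  intro χ hχ
  obtain ⟨d, hd0, hd⟩ := exists_degree_pos hχ
  have h1 := h χ hχ d hd
  have h2 : d = 1 := by omega
  obtain ⟨f, hf⟩ := exists_hom_of_degree_one (isCharacter_of_isIrr hχ) (by rw [hd, h2]; simp)
  have h3 : f ⁅x, y⁆ = 1 := by
    rw [map_commutatorElement, commutatorElement_eq_one_iff_mul_comm, mul_comm]
  rw [hf]
  simp only [h3, map_one]

theorem arith {b : ℕ} (hb : 3 ≤ b) : ((b / 2).factorial) ^ 2 * (b ^ 2 * (b + 1)) ≤ (b.factorial) ^ 2 := by
  obtain ⟨c, rfl⟩ : ∃ c, b = c + 2 := ⟨b - 2, by omega⟩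
  have h1 : (c + 2) / 2 ≤ c := by omega
  have h2 : ((c + 2) / 2).factorial ≤ c.factorial := Nat.factorial_le h1
  have h3 : (c + 2).factorial = (c + 2) * ((c + 1) * c.factorial) := by
    rw [Nat.factorial_succ, Nat.factorial_succ]
  rw [h3]
  have h4 : c + 2 + 1 ≤ (c + 1) ^ 2 := by nlinarith
  calc (((c + 2) / 2).factorial) ^ 2 * ((c + 2) ^ 2 * (c + 2 + 1))
      ≤ (c.factorial) ^ 2 * ((c + 2) ^ 2 * (c + 1) ^ 2) :=
        Nat.mul_le_mul (Nat.pow_le_pow_left h2 2) (Nat.mul_le_mul le_rfl h4)
    _ = ((c + 2) * ((c + 1) * c.factorial)) ^ 2 := by ring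

theorem main (b : ℕ) : ∀ (G : Type u) [Group G] [Finite G], DegLe G b →
    ∃ A : Subgroup G, (∀ x ∈ A, ∀ y ∈ A, x * y = y * x) ∧ A.index ≤ (Nat.factorial b) ^ 2 := by
  classical
  induction b using Nat.strong_induction_on with
  | _ b ih =>
    intro G _ _ h
    have := Fintype.ofFinite G
    have hb0 : b ≠ 0 := by
      rintro rfl
      have h1 := h _ (isIrrCharacter_of_hom (1 : G →* ℂˣ)) 1 (by simp)
      omega
    by_cases hb1 : b = 1
    · subst hb1
      exact ⟨⊤, fun x _ y _ => comm_of_degLe_one h x y, by simp⟩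
    have hb2 : 2 ≤ b := by omega
    by_cases hbad : ∀ H : Subgroup G, H.index ≤ b ^ 2 → Full H b
    · have hB : Bad G b := ⟨h, hb2, hbad⟩
      have hperf := BI3.Bad.perfect hB
      have hfull : Full G b := by
        obtain ⟨θ, hθ, hθb⟩ := hbad ⊤ (by rw [Subgroup.index_top]; nlinarith)
        obtain ⟨ψ, hψ, hψb, -⟩ := exists_ext h ⊤ hθ hθb
        exact ⟨ψ, hψ, hψb⟩
      have hne : commutator G ≠ ⊥ := by
        intro h1
        obtain ⟨ψ, hψ, hψb⟩ := hfull
        have h2 : ∀ x y : G, x * y = y * x := by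
          intro x y
          have h3 : ⁅x, y⁆ ∈ commutator G := Subgroup.commutator_mem_commutator (Subgroup.mem_top x) (Subgroup.mem_top y)
          rw [h1, Subgroup.mem_bot, commutatorElement_eq_one_iff_mul_comm] at h3
          exact h3
        have h3 := degree_one_of_comm h2 hψ
        rw [hψb] at h3
        have h4 : b = 1 := by exact_mod_cast h3
        omega
      by_cases hb3 : b = 2
      · subst hb3
        exfalso
        apply hne
        have := Fintype.ofFinite (commutator G)
        have h1 : commutator (commutator G) = ⊤ := by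
          apply Subgroup.map_injective (commutator G).subtype_injective
          rw [Subgroup.map_subtype_commutator, hperf, ← MonoidHom.range_eq_map, Subgroup.range_subtype]
        have h2 := no_two h1 (degLe_sub h (commutator G))
        rw [eq_bot_iff]
        intro x hx
        have h3 := congrArg Subtype.val (Subsingleton.elim (⟨x, hx⟩ : commutator G) 1)
        rw [Subgroup.mem_bot]
        exact h3
      · have hb3' : 3 ≤ b := by omega
        have h1 := cen h (commutator G) hperf hne
        obtain ⟨A, hA, hAi⟩ := ih (b / 2) (by omega) _ h1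
        refine ⟨A.map (Subgroup.centralizer (commutator G : Set G)).subtype, ?_, ?_⟩
        · rintro _ ⟨x, hx, rfl⟩ _ ⟨y, hy, rfl⟩
          rw [← map_mul, ← map_mul, hA x hx y hy]
        · rw [Subgroup.index_map_subtype]
          have h2 := count h hb2 hfull _ (fun x hx => BI4.Bad.big hB x hx)
          exact (Nat.mul_le_mul hAi h2).trans (arith hb3')
    · push Not at hbad
      obtain ⟨H, hH, hHf⟩ := hbad
      have h1 := degLe_of_not_full (degLe_sub h H) hHf
      obtain ⟨A, hA, hAi⟩ := ih (b - 1) (by omega) _ h1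
      refine ⟨A.map H.subtype, ?_, ?_⟩
      · rintro _ ⟨x, hx, rfl⟩ _ ⟨y, hy, rfl⟩
        rw [← map_mul, ← map_mul, hA x hx y hy]
      · rw [Subgroup.index_map_subtype]
        obtain ⟨c, rfl⟩ : ∃ c, b = c + 1 := ⟨b - 1, by omega⟩
        rw [Nat.add_sub_cancel] at hAi
        calc A.index * H.index ≤ (c.factorial) ^ 2 * (c + 1) ^ 2 := Nat.mul_le_mul hAi hH
          _ = ((c + 1).factorial) ^ 2 := by rw [Nat.factorial_succ]; ring

end H84.BI5
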