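import Cfsg.Agent.Lib.H1.Coprime

/-!
# Fixed points of an abelian group of coprime order acting on an abelian group

For `Y = V H` with `V` abelian normal and `H` abelian of coprime order there are subgroups `K i` of
`H` with `|V : C_V(h)| ≥ ∏ w_i(h)`, where `w_i = 1` on `K i` and `|H : K i| + 1` off `K i`, and
`⋂ K i ≤ C(V)`.
-/

set_option autoImplicit false

namespace H84.Chain

open Subgroup

universe u

/-- the order of a subgroup and of its image -/
theorem card_eq_card_map_mul {Y : Type u} [Group Y] [Finite Y] (W D : Subgroup Y) [W.Normal] :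
    Nat.card D = Nat.card (D.map (QuotientGroup.mk' W)) * Nat.card ↥(W ⊓ D) := by
  have h1 : W.relIndex D = Nat.card (D.map (QuotientGroup.mk' W)) := by
    rw [← Subgroup.relIndex_ker, QuotientGroup.ker_mk']
  rw [← h1, Subgroup.relIndex]
  have h2 : Nat.card ↥(W ⊓ D) = Nat.card (W.subgroupOf D) := by
    rw [← Subgroup.inf_subgroupOf_right]
    exact (Nat.card_congr (Subgroup.subgroupOfEquivOfLe (inf_le_right : W ⊓ D ≤ D)).toEquiv).symm
  rw [h2, mul_comm, Subgroup.card_mul_index]

open Classical in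
theorem exists_chain : ∀ (N : ℕ) {Y : Type u} [Group Y] [Finite Y] (V H : Subgroup Y) [V.Normal],
    Nat.card V ≤ N → (∀ a ∈ V, ∀ b ∈ V, a * b = b * a) → (∀ a ∈ H, ∀ b ∈ H, a * b = b * a) →
    (Nat.card V).Coprime (Nat.card H) → V ⊔ H = ⊤ →
    ∃ (k : ℕ) (K : Fin k → Subgroup H),
      (∀ h : H, (∏ i, if h ∈ K i then 1 else ((K i).index + 1)) *
        Nat.card ↥(V ⊓ centralizer ({(h : Y)} : Set Y)) ≤ Nat.card V) ∧
      (∀ h : H, (∀ i, h ∈ K i) → (h : Y) ∈ centralizer (V : Set Y)) := by
  intro N
  induction N with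
  | zero =>
    intro Y _ _ V H _ hN
    exact absurd (Nat.card_pos (α := V)) (by omega)
  | succ N ih =>
    intro Y _ _ V H hVn hN hV hH hcop hVH
    by_cases hVbot : V = ⊥
    · refine ⟨0, Fin.elim0, fun h => ?_, fun h _ => ?_⟩
      · simp only [Finset.univ_eq_empty, Finset.prod_empty, one_mul]
        exact Subgroup.card_le_of_le inf_le_left
      · rw [mem_centralizer_iff]
        intro x hx
        rw [hVbot] at hx
        have : x = 1 := Subgroup.mem_bot.1 hx
        rw [this]; simp
    -- a minimal normal subgroup of Y in V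
    have hexW : ∃ W : Subgroup Y, (W.Normal ∧ W ≤ V ∧ W ≠ ⊥) ∧ ∀ W' : Subgroup Y,
        (W'.Normal ∧ W' ≤ V ∧ W' ≠ ⊥) → Nat.card W ≤ Nat.card W' := by
      let s : Set (Subgroup Y) := {W | W.Normal ∧ W ≤ V ∧ W ≠ ⊥}
      obtain ⟨W, hW, hmin⟩ := Set.exists_min_image s (fun W => Nat.card W) (Set.toFinite s)
        ⟨V, hVn, le_refl _, hVbot⟩
      exact ⟨W, hW, fun W' hW' => hmin W' hW'⟩
    obtain ⟨W, ⟨hWn, hWV, hWbot⟩, hWmin⟩ := hexW
    -- C_W(h) is trivial or W
    have hCW : ∀ h ∈ H, W ⊓ centralizer ({h} : Set Y) = ⊥ ∨ W ⊓ centralizer ({h} : Set Y) = W := by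
      intro h hh
      by_cases hb : W ⊓ centralizer ({h} : Set Y) = ⊥
      · exact Or.inl hb
      right
      have hn : (W ⊓ centralizer ({h} : Set Y)).Normal := by
        refine ⟨fun d hd y => ?_⟩
        have hdW := hd.1
        have hdc := mem_centralizer_singleton_iff.1 hd.2
        refine ⟨hWn.conj_mem d hdW y, mem_centralizer_singleton_iff.2 ?_⟩
        have hy : y ∈ V ⊔ H := by rw [hVH]; trivial
        rw [Subgroup.mem_sup_of_normal_left] at hy
        obtain ⟨v, hv, g, hg, rfl⟩ := hy
        have h1 : g * d * g⁻¹ ∈ V := hWV (hWn.conj_mem d hdW g)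
        have h2 : v * g * d * (v * g)⁻¹ = g * d * g⁻¹ := by
          have : v * g * d * (v * g)⁻¹ = v * (g * d * g⁻¹) * v⁻¹ := by group
          rw [this, hV v hv _ h1]; group
        rw [h2]
        have h3 : g * h = h * g := hH g hg h hh
        have h4 : g⁻¹ * h = h * g⁻¹ := by
          have : g⁻¹ * h = g⁻¹ * (h * g) * g⁻¹ := by group
          rw [this, ← h3]; group
        calc g * d * g⁻¹ * h = g * d * (g⁻¹ * h) := by group
          _ = g * (d * h) * g⁻¹ := by rw [h4]; group
          _ = (g * h) * d * g⁻¹ := by rw [hdc]; group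
          _ = h * (g * d * g⁻¹) := by rw [h3]; group
      have h5 := hWmin _ ⟨hn, inf_le_left.trans hWV, hb⟩
      exact Subgroup.eq_of_le_of_card_ge inf_le_left h5
    let K0 : Subgroup H := (centralizer (W : Set Y)).subgroupOf H
    have hK0 : ∀ h : H, h ∉ K0 → W ⊓ centralizer ({(h : Y)} : Set Y) = ⊥ := by
      intro h hh
      rcases hCW h h.2 with h1 | h1
      · exact h1
      · exfalso
        apply hh
        rw [Subgroup.mem_subgroupOf, mem_centralizer_iff]
        intro w hw
        have h2 : w ∈ W ⊓ centralizer ({(h : Y)} : Set Y) := by rw [h1]; exact hw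
        exact mem_centralizer_singleton_iff.1 h2.2
    -- |H : K0| + 1 ≤ |W|
    have hidx : K0.index + 1 ≤ Nat.card W := by
      obtain ⟨w, hw, hw1⟩ : ∃ w, w ∈ W ∧ w ≠ 1 := by
        obtain ⟨a, ha⟩ := Subgroup.ne_bot_iff_exists_ne_one.1 hWbot
        exact ⟨(a : Y), a.2, fun h => ha (Subtype.ext h)⟩
      have hinj : ∀ g g' : H, (g : Y) * w * (g : Y)⁻¹ = (g' : Y) * w * (g' : Y)⁻¹ → g⁻¹ * g' ∈ K0 := by
        intro g g' hgg
        by_contra hcon
        have h1 := hK0 _ hcon
        have h2 : w ∈ W ⊓ centralizer ({((g⁻¹ * g' : H) : Y)} : Set Y) := by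
          refine ⟨hw, mem_centralizer_singleton_iff.2 ?_⟩
          rw [Subgroup.coe_mul, Subgroup.coe_inv]
          have h3 : w = (g : Y)⁻¹ * ((g' : Y) * w * (g' : Y)⁻¹) * (g : Y) := by rw [← hgg]; group
          calc w * ((g : Y)⁻¹ * (g' : Y)) = ((g : Y)⁻¹ * ((g' : Y) * w * (g' : Y)⁻¹) * (g : Y)) * ((g : Y)⁻¹ * (g' : Y)) := by rw [← h3]
            _ = (g : Y)⁻¹ * (g' : Y) * w := by group
        rw [h1] at h2
        exact hw1 (Subgroup.mem_bot.1 h2)
      have hmemW : ∀ g : H, (g : Y) * w * (g : Y)⁻¹ ∈ W := fun g => hWn.conj_mem w hw g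
      have hK0comm : ∀ g g' : H, g⁻¹ * g' ∈ K0 → (g : Y) * w * (g : Y)⁻¹ = (g' : Y) * w * (g' : Y)⁻¹ := by
        intro g g' hk
        rw [Subgroup.mem_subgroupOf, mem_centralizer_iff] at hk
        have h1 := hk w hw
        rw [Subgroup.coe_mul, Subgroup.coe_inv] at h1
        have h2 : (g' : Y) * w = (g : Y) * w * ((g : Y)⁻¹ * (g' : Y)) := by
          rw [mul_assoc, h1]; group
        rw [h2]; group
      let F : Option (H ⧸ K0) → W := fun o => match o with
        | none => 1
        | some q => Quotient.lift (fun g : H => (⟨(g : Y) * w * (g : Y)⁻¹, hmemW g⟩ : W)) (by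
            intro g g' hgg
            apply Subtype.ext
            exact hK0comm g g' (QuotientGroup.leftRel_apply.1 hgg)) q
      have hF : Function.Injective F := by
        have hne : ∀ q : H ⧸ K0, F (some q) ≠ 1 := by
          rintro ⟨g⟩ h
          have h1 : (g : Y) * w * (g : Y)⁻¹ = 1 := congrArg Subtype.val h
          apply hw1
          have : w = (g : Y)⁻¹ * ((g : Y) * w * (g : Y)⁻¹) * (g : Y) := by group
          rw [this, h1]; group
        rintro (_ | q) (_ | q') h
        · rfl
        · exact absurd h.symm (hne q')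
        · exact absurd h (hne q)
        · congr 1
          obtain ⟨g⟩ := q
          obtain ⟨g'⟩ := q'
          have h1 : (g : Y) * w * (g : Y)⁻¹ = (g' : Y) * w * (g' : Y)⁻¹ := congrArg Subtype.val h
          apply Quotient.sound
          exact QuotientGroup.leftRel_apply.2 (hinj g g' h1)
      have h1 := Nat.card_le_card_of_injective F hF
      rw [Finite.card_option] at h1
      exact h1
    -- pass to the quotient
    let π := QuotientGroup.mk' W
    have hπs : Function.Surjective π := QuotientGroup.mk'_surjective W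
    have hVbn : (V.map π).Normal := Subgroup.Normal.map hVn π hπs
    have hWcard : 1 < Nat.card W := by
      rw [Subgroup.one_lt_card_iff_ne_bot]; exact hWbot
    have hVcard : Nat.card V = Nat.card (V.map π) * Nat.card W := by
      have := card_eq_card_map_mul W V
      rwa [inf_eq_left.2 hWV] at this
    have hcopW : (Nat.card W).Coprime (Nat.card H) :=
      Nat.Coprime.coprime_dvd_left (Subgroup.card_dvd_of_le hWV) hcop
    have hcop' : (Nat.card (V.map π)).Coprime (Nat.card (H.map π)) := by
      have e1 : Nat.card (V.map π) ∣ Nat.card V := by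
        rw [hVcard]; exact dvd_mul_right _ _
      exact Nat.Coprime.coprime_dvd_left e1 (Nat.Coprime.coprime_dvd_right (H.card_map_dvd π) hcop)
    obtain ⟨k, Kb, hKb1, hKb2⟩ := ih (V.map π) (H.map π) (by
        have h1 : 0 < Nat.card (V.map π) := Nat.card_pos
        have h2 : Nat.card (V.map π) * 2 ≤ Nat.card (V.map π) * Nat.card W := Nat.mul_le_mul_left _ hWcard
        omega) (by
        rintro _ ⟨a, ha, rfl⟩ _ ⟨b, hb, rfl⟩
        rw [← map_mul, ← map_mul, hV a ha b hb]) (by
        rintro _ ⟨a, ha, rfl⟩ _ ⟨b, hb, rfl⟩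
        rw [← map_mul, ← map_mul, hH a ha b hb]) hcop' (by
        rw [← Subgroup.map_sup, hVH, ← MonoidHom.range_eq_map, MonoidHom.range_eq_top.2 hπs])
    let f : H →* H.map π := π.subgroupMap H
    have hf : Function.Surjective f := π.subgroupMap_surjective H
    have hfval : ∀ h : H, ((f h : H.map π) : Y ⧸ W) = π (h : Y) := fun h => rfl
    -- fixed points
    have hmapC : ∀ h : H, (V.map π) ⊓ centralizer ({π (h : Y)} : Set (Y ⧸ W)) =
        (V ⊓ centralizer ({(h : Y)} : Set Y)).map π := by
      intro h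
      have h1 := H1.Coprime.map_inf_centralizer (zpowers (h : Y)) V W (by
        rw [Subgroup.normalizer_eq_top]; exact le_top) (by
        apply Nat.Coprime.symm
        apply Nat.Coprime.coprime_dvd_right _ hcopW
        exact Subgroup.card_dvd_of_le (by rw [Subgroup.zpowers_le]; exact h.2)) (Or.inl inferInstance) hWV
      have h2 : centralizer (zpowers (h : Y) : Set Y) = centralizer ({(h : Y)} : Set Y) := by
        rw [Subgroup.zpowers_eq_closure, Subgroup.centralizer_closure]
      have h3 : centralizer (((zpowers (h : Y)).map (QuotientGroup.mk' W) : Subgroup (Y ⧸ W)) : Set (Y ⧸ W)) =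
          centralizer ({π (h : Y)} : Set (Y ⧸ W)) := by
        rw [MonoidHom.map_zpowers, Subgroup.zpowers_eq_closure, Subgroup.centralizer_closure]
      rw [h2, h3] at h1
      exact h1
    refine ⟨k + 1, Fin.cons K0 (fun i => (Kb i).comap f), fun h => ?_, fun h hh => ?_⟩
    · rw [Fin.prod_univ_succ]
      simp only [Fin.cons_zero, Fin.cons_succ]
      have hprod : (∏ i : Fin k, if h ∈ (Kb i).comap f then 1 else (((Kb i).comap f).index + 1)) =
          ∏ i : Fin k, if f h ∈ Kb i then 1 else ((Kb i).index + 1) := by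
        refine Finset.prod_congr rfl fun i _ => ?_
        rw [Subgroup.index_comap_of_surjective _ hf]
        rfl
      rw [hprod]
      have h1 := hKb1 (f h)
      rw [hfval, hmapC h] at h1
      have h2 := card_eq_card_map_mul W (V ⊓ centralizer ({(h : Y)} : Set Y))
      have h3 : W ⊓ (V ⊓ centralizer ({(h : Y)} : Set Y)) = W ⊓ centralizer ({(h : Y)} : Set Y) := by
        rw [← inf_assoc, inf_eq_left.2 hWV]
      rw [h3] at h2
      rw [h2, hVcard]
      have h4 : (if h ∈ K0 then 1 else (K0.index + 1)) * Nat.card ↥(W ⊓ centralizer ({(h : Y)} : Set Y)) ≤ Nat.card W := by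
        split_ifs with hk
        · rw [one_mul]; exact Subgroup.card_le_of_le inf_le_left
        · rw [hK0 h hk, Subgroup.card_bot, mul_one]; exact hidx
      calc (if h ∈ K0 then 1 else (K0.index + 1)) * (∏ i : Fin k, if f h ∈ Kb i then 1 else ((Kb i).index + 1)) *
            (Nat.card ((V ⊓ centralizer ({(h : Y)} : Set Y)).map (QuotientGroup.mk' W)) * Nat.card ↥(W ⊓ centralizer ({(h : Y)} : Set Y)))
          = ((∏ i : Fin k, if f h ∈ Kb i then 1 else ((Kb i).index + 1)) *
            Nat.card ((V ⊓ centralizer ({(h : Y)} : Set Y)).map (QuotientGroup.mk' W))) *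
            ((if h ∈ K0 then 1 else (K0.index + 1)) * Nat.card ↥(W ⊓ centralizer ({(h : Y)} : Set Y))) := by ring
        _ ≤ Nat.card (V.map π) * Nat.card W := Nat.mul_le_mul h1 h4
    · have h0 : h ∈ K0 := by simpa using hh 0
      have h1 : ((f h : H.map π) : Y ⧸ W) ∈ centralizer ((V.map π : Subgroup (Y ⧸ W)) : Set (Y ⧸ W)) := by
        apply hKb2
        intro i
        have := hh i.succ
        simpa using this
      -- V.map π ≤ C(h̄)
      have h2 : (V ⊓ centralizer ({(h : Y)} : Set Y)).map π = V.map π := by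
        rw [← hmapC h]
        apply inf_eq_left.2
        intro x hx
        rw [mem_centralizer_singleton_iff]
        exact (mem_centralizer_iff.1 h1 x hx)
      rw [mem_centralizer_iff]
      intro v hv
      have h3 : π v ∈ (V ⊓ centralizer ({(h : Y)} : Set Y)).map π := by rw [h2]; exact ⟨v, hv, rfl⟩
      obtain ⟨c, hc, hcv⟩ := h3
      have h4 : c⁻¹ * v ∈ W := by
        rw [← QuotientGroup.eq_one_iff]
        change π (c⁻¹ * v) = 1
        rw [map_mul, map_inv, hcv]; group
      have h5 : (c⁻¹ * v) * (h : Y) = (h : Y) * (c⁻¹ * v) := by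
        rw [Subgroup.mem_subgroupOf, mem_centralizer_iff] at h0
        exact h0 _ h4
      have h6 : c * (h : Y) = (h : Y) * c := mem_centralizer_singleton_iff.1 hc.2
      calc v * (h : Y) = c * ((c⁻¹ * v) * (h : Y)) := by group
        _ = c * ((h : Y) * (c⁻¹ * v)) := by rw [h5]
        _ = (c * (h : Y)) * (c⁻¹ * v) := by group
        _ = (h : Y) * v := by rw [h6]; group

open Classical in
/-- Version inside an arbitrary group. -/
theorem exists_chain' {X : Type u} [Group X] [Finite X] (V H : Subgroup X) [hVn : V.Normal]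
    (hV : ∀ a ∈ V, ∀ b ∈ V, a * b = b * a) (hH : ∀ a ∈ H, ∀ b ∈ H, a * b = b * a)
    (hcop : (Nat.card V).Coprime (Nat.card H)) :
    ∃ (k : ℕ) (K : Fin k → Subgroup H),
      (∀ h : H, (∏ i, if h ∈ K i then 1 else ((K i).index + 1)) *
        Nat.card ↥(V ⊓ centralizer ({(h : X)} : Set X)) ≤ Nat.card V) ∧
      (∀ h : H, (∀ i, h ∈ K i) → (h : X) ∈ centralizer (V : Set X)) := by
  let Y : Subgroup X := V ⊔ H
  have hVY : V ≤ Y := le_sup_left
  have hHY : H ≤ Y := le_sup_right
  let V' : Subgroup Y := V.subgroupOf Y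
  let H' : Subgroup Y := H.subgroupOf Y
  have hVn' : V'.Normal := inferInstance
  have hcardV : Nat.card V' = Nat.card V := Nat.card_congr (Subgroup.subgroupOfEquivOfLe hVY).toEquiv
  have hcardH : Nat.card H' = Nat.card H := Nat.card_congr (Subgroup.subgroupOfEquivOfLe hHY).toEquiv
  obtain ⟨k, K, hK1, hK2⟩ := exists_chain (Nat.card V') V' H' (le_refl _)
    (fun a ha b hb => Subtype.ext (hV a ha b hb)) (fun a ha b hb => Subtype.ext (hH a ha b hb))
    (by rw [hcardV, hcardH]; exact hcop) (by
      rw [← Subgroup.subgroupOf_sup hVY hHY]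
      exact Subgroup.subgroupOf_self _)
  let e : H ≃* H' := (Subgroup.subgroupOfEquivOfLe hHY).symm
  have heval : ∀ h : H, (((e h : H') : Y) : X) = (h : X) := fun h => rfl
  refine ⟨k, fun i => (K i).comap e.toMonoidHom, fun h => ?_, fun h hh => ?_⟩
  · have h1 := hK1 (e h)
    have h2 : (V' ⊓ centralizer ({((e h : H') : Y)} : Set Y)) = (V ⊓ centralizer ({(h : X)} : Set X)).subgroupOf Y := by
      ext x
      rw [Subgroup.mem_inf, Subgroup.mem_subgroupOf, Subgroup.mem_subgroupOf, Subgroup.mem_inf,
        mem_centralizer_singleton_iff, mem_centralizer_singleton_iff, Subtype.ext_iff]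
      rfl
    have h3 : Nat.card ↥(V' ⊓ centralizer ({((e h : H') : Y)} : Set Y)) = Nat.card ↥(V ⊓ centralizer ({(h : X)} : Set X)) := by
      rw [h2]
      exact Nat.card_congr (Subgroup.subgroupOfEquivOfLe (inf_le_left.trans hVY)).toEquiv
    rw [h3, hcardV] at h1
    have h4 : (∏ i, if h ∈ (K i).comap e.toMonoidHom then 1 else (((K i).comap e.toMonoidHom).index + 1)) =
        ∏ i, if e h ∈ K i then 1 else ((K i).index + 1) := by
      refine Finset.prod_congr rfl fun i _ => ?_
      rw [Subgroup.index_comap_of_surjective _ e.surjective]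
      rfl
    rw [h4]
    exact h1
  · have h1 := hK2 (e h) (fun i => hh i)
    rw [mem_centralizer_iff] at h1 ⊢
    intro x hx
    exact congrArg Subtype.val (h1 ⟨x, hVY hx⟩ hx)

end H84.Chain
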