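import Mathlib
import Cfsg.Agent.Lib.H84.FR8
import Cfsg.Agent.Lib.H18.CharInd
import Cfsg.Agent.Lib.H18.CharQuot

/-!
# The characters of groups with a self-centralizing abelian normal subgroup on which the group acts freely
-/

set_option autoImplicit false
set_option linter.unusedSectionVars false
set_option linter.unusedVariables false
set_option linter.style.haveILetI false

universe u v u' v'

namespace H84.FF

open Cfsg H5.PBb H18.CharOrtho H18.CharBasic H18.CharInd H20.Loc H84.FR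
open scoped ComplexConjugate
attribute [local instance 2000] Fintype.ofFinite

variable {F : Type u} [Group F] [Finite F] {Q : Subgroup F} [hQN : Q.Normal] {p : ℕ} {M : Ideal AlgInt}

/-- the group of automorphisms induced on `Q` -/
noncomputable abbrev WF (Q : Subgroup F) [Q.Normal] : Subgroup (MulAut Q) := (MulAut.conjNormal (H := Q)).range

theorem conj_coe (g : F) (x : Q) : ((MulAut.conjNormal g x : Q) : F) = g * x * g⁻¹ := by
  simp [MulAut.conjNormal_apply]

theorem ker_eq (hQC : Subgroup.centralizer (Q : Set F) = Q) : (MulAut.conjNormal (H := Q)).ker = Q := by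
  ext g
  rw [MonoidHom.mem_ker]
  conv_rhs => rw [← hQC]
  rw [Subgroup.mem_centralizer_iff]
  constructor
  · intro h x hx
    have h1 := congrArg (fun w : MulAut Q => ((w ⟨x, hx⟩ : Q) : F)) h
    have h2 : g * x * g⁻¹ = x := by
      have := conj_coe (Q := Q) g ⟨x, hx⟩
      rw [h] at this
      exact this.symm
    calc x * g = g * x * g⁻¹ * g := by rw [h2]
      _ = g * x := by group
  · intro h
    ext x
    rw [conj_coe, ← h x x.2]
    simp

theorem card_WF (hQC : Subgroup.centralizer (Q : Set F) = Q) : Nat.card (WF Q) = Q.index := by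
  rw [← Subgroup.index_ker, ker_eq hQC]

theorem card_fiber (hQC : Subgroup.centralizer (Q : Set F) = Q) (w : WF Q) :
    Nat.card {g : F // MulAut.conjNormal (H := Q) g = (w : MulAut Q)} = Nat.card Q := by
  obtain ⟨g0, hg0⟩ := w.2
  refine Nat.card_congr ⟨fun g => ⟨g0⁻¹ * g, ?_⟩, fun q => ⟨g0 * q, ?_⟩, fun g => ?_, fun q => ?_⟩
  · have h1 : g0⁻¹ * (g : F) ∈ (MulAut.conjNormal (H := Q)).ker := by
      rw [MonoidHom.mem_ker, map_mul, map_inv, hg0, g.2, inv_mul_cancel]
    rwa [ker_eq hQC] at h1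
  · have h1 : (q : F) ∈ (MulAut.conjNormal (H := Q)).ker := by rw [ker_eq hQC]; exact q.2
    rw [map_mul, MonoidHom.mem_ker.1 h1, mul_one, hg0]
  · apply Subtype.ext; simp
  · apply Subtype.ext; simp

/-- the restriction of an induced linear character -/
theorem ind_coe (hQC : Subgroup.centralizer (Q : Set F) = Q) (ψ : Q →* ℂˣ) (x : Q) :
    indFun Q (lf ψ) (x : F) = Th (WF Q) ψ x := by
  classical
  have hQ0 : (Nat.card Q : ℂ) ≠ 0 := card_ne_zero'
  rw [indFun_apply', Th_apply]
  have h1 : ∀ g : F, extendByZero Q (lf ψ) (g * (x : F) * g⁻¹) = (ψ (MulAut.conjNormal g x) : ℂ) := by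
    intro g
    rw [← conj_coe, ext_coe]
    rfl
  rw [Finset.sum_congr rfl fun g _ => h1 g]
  have h2 : ∑ g : F, (ψ (MulAut.conjNormal g x) : ℂ) =
      ∑ w : WF Q, ∑ g ∈ Finset.univ.filter (fun g : F => MulAut.conjNormal (H := Q) g = (w : MulAut Q)),
        (ψ (MulAut.conjNormal g x) : ℂ) := by
    have h3 := Finset.sum_fiberwise (Finset.univ : Finset F)
      (fun g => (⟨MulAut.conjNormal (H := Q) g, g, rfl⟩ : WF Q)) (fun g => (ψ (MulAut.conjNormal g x) : ℂ))
    rw [← h3]
    refine Finset.sum_congr rfl fun w _ => Finset.sum_congr ?_ fun _ _ => rfl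
    ext g
    simp only [Finset.mem_filter, Finset.mem_univ, true_and, Subtype.ext_iff]
  rw [h2]
  have h4 : ∀ w : WF Q, ∑ g ∈ Finset.univ.filter (fun g : F => MulAut.conjNormal (H := Q) g = (w : MulAut Q)),
        (ψ (MulAut.conjNormal g x) : ℂ) = (Nat.card Q : ℂ) * (ψ ((w : MulAut Q) x) : ℂ) := by
    intro w
    rw [Finset.sum_congr rfl (g := fun _ => (ψ ((w : MulAut Q) x) : ℂ)), Finset.sum_const, nsmul_eq_mul,
      ← Fintype.card_subtype, ← Nat.card_eq_fintype_card, card_fiber hQC w]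
    intro g hg
    rw [(Finset.mem_filter.1 hg).2]
  rw [Finset.sum_congr rfl fun w _ => h4 w, ← Finset.mul_sum, ← mul_assoc, inv_mul_cancel₀ hQ0, one_mul]

theorem ind_res (hQC : Subgroup.centralizer (Q : Set F) = Q) (ψ : Q →* ℂˣ) :
    (fun x : Q => indFun Q (lf ψ) (x : F)) = Th (WF Q) ψ := funext fun x => ind_coe hQC ψ x

theorem inner_ind (hQC : Subgroup.centralizer (Q : Set F) = Q) (ψ φ : Q →* ℂˣ) :
    classInner (indFun Q (lf ψ)) (indFun Q (lf φ)) = st (WF Q) ψ φ := by
  rw [frobenius Q _ (isClassFunction_indFun Q _), ind_res hQC, inner_lf_Th]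

theorem ind_irr (hA : ∀ a b : Q, a * b = b * a) (hQC : Subgroup.centralizer (Q : Set F) = Q)
    (hfp : ∀ w ∈ WF Q, w ≠ 1 → ∀ x : Q, w x = x → x = 1) {ψ : Q →* ℂˣ} (hψ : ψ ≠ 1) :
    IsIrrCharacter F (indFun Q (lf ψ)) := by
  rw [isIrr_iff]
  refine ⟨isCharacter_ind Q (isCharacter_of_isIrr (lf_irr ψ)), ?_⟩
  rw [inner_ind hQC, st_self hA hfp hψ, Nat.cast_one]

/-- characters orthogonal to all nontrivial induced characters are linear -/
theorem lin_of_orth (hA : ∀ a b : Q, a * b = b * a) {n : ℕ} {rep : Fin n → (Q →* ℂˣ)} (hrep : Reps (WF Q) n rep)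
    (hcomm : ∀ a b : F, a * b * a⁻¹ * b⁻¹ ∈ Q) {η : F → ℂ} (hη : IsIrrCharacter F η)
    (h : ∀ i, classInner η (indFun Q (lf (rep i))) = 0) : ∀ x : Q, η x = 1 := by
  have hc := isClassFunction_of_isIrr hη
  have h1 : ∀ ψ : Q →* ℂˣ, ψ ≠ 1 → classInner (lf ψ) (fun x : Q => η x) = 0 := by
    intro ψ hψ
    obtain ⟨i, w, hw, rfl⟩ := hrep.ex ψ hψ
    rw [inner_tw]
    · have h2 := h i
      rw [frobenius' Q _ hc] at h2
      have h3 := congrArg (starRingEnd ℂ) h2
      rwa [H18.CharOrtho.inner_conj_symm, map_zero] at h3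
    · intro x
      obtain ⟨g, rfl⟩ := hw
      show η ((MulAut.conjNormal g x : Q) : F) = η x
      rw [conj_coe]
      exact hc x g
  have h2 : ∀ x : Q, x ≠ 1 → η x = η 1 := by
    intro x hx
    have h3 := eq_of_inner hA (f := fun x : Q => η x)
      (g := fun _ => classInner (fun x : Q => η x) (lf (1 : Q →* ℂˣ))) (fun ψ hψ => ?_) hx
    · have h4 : classInner (fun x : Q => η x) (lf (1 : Q →* ℂˣ)) = η 1 := by
        have h5 := H18.CharOrtho.classFun_ext (G := Q)
          (f := fun x : Q => η x) (g := fun _ => classInner (fun x : Q => η x) (lf (1 : Q →* ℂˣ)))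
          (isClassFunction_restrict Q hc) (isClassFunction_const _) ?_
        · exact (congrFun h5 1).symm
        · intro χ hχ
          obtain ⟨ψ, rfl⟩ := exists_hom_of_isIrr_of_comm hA hχ
          have e1 : (fun g : Q => (ψ g : ℂ)) = lf ψ := rfl
          rw [e1]
          by_cases hψ : ψ = 1
          · subst hψ
            have h6 : classInner (fun _ : Q => classInner (fun x : Q => η x) (lf (1 : Q →* ℂˣ))) (lf 1) =
                classInner (fun x : Q => η x) (lf (1 : Q →* ℂˣ)) := by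
              rw [← H18.CharOrtho.inner_conj_symm, inner_lf_const, if_pos rfl, Complex.conj_conj]
            rw [h6]
          · rw [← H18.CharOrtho.inner_conj_symm, h1 ψ hψ, map_zero, ← H18.CharOrtho.inner_conj_symm, inner_lf_const, if_neg hψ, map_zero]
      rw [h3, h4]
    · rw [h1 ψ hψ, inner_lf_const, inner_lf_const, if_neg hψ, if_pos rfl, H18.CharOrtho.inner_conj_symm]
  have h3 : ∀ n ∈ Q, η n = η 1 := fun n hn => by
    by_cases hn1 : (⟨n, hn⟩ : Q) = 1
    · have : n = 1 := congrArg Subtype.val hn1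
      rw [this]
    · exact h2 ⟨n, hn⟩ hn1
  have h4 := H18.CharQuot.isIrrCharacter_deflate Q hη h3
  have h5 : ∀ a b : F ⧸ Q, a * b = b * a := by
    intro a b
    obtain ⟨a, rfl⟩ := QuotientGroup.mk_surjective a
    obtain ⟨b, rfl⟩ := QuotientGroup.mk_surjective b
    rw [← QuotientGroup.mk_mul, ← QuotientGroup.mk_mul]
    symm
    rw [QuotientGroup.eq]
    have := hcomm a⁻¹ b⁻¹
    have h6 := hcomm b⁻¹ a⁻¹
    have h7 : (b * a)⁻¹ * (a * b) = a⁻¹ * b⁻¹ * a⁻¹⁻¹ * b⁻¹⁻¹ := by group
    rw [h7]; exact this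
  have h6 := H18.CharQuot.degree_one_of_comm h5 h4
  have h7 := H18.CharQuot.deflate_mk Q (isCharacter_of_isIrr hη) h3 1
  rw [QuotientGroup.mk_one, h6] at h7
  intro x
  rw [h3 x x.2, ← h7]

end H84.FF
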