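import Mathlib
import Cfsg.Agent.Lib.H84.FF1

/-!
# Frobenius-type groups: structure of the set of all irreducible characters
-/

set_option autoImplicit false
set_option linter.unusedSectionVars false
set_option linter.unusedVariables false
set_option linter.style.haveILetI false

universe u v u' v'

namespace H84.FF

open Cfsg H5.PBb H18.CharOrtho H18.CharBasic H18.CharInd H20.Loc H84.FR
open scoped ComplexConjugate
attribute [local instance 2000] Fintype.ofFinite

variable {F : Type u} [Group F] [Finite F] {Q : Subgroup F} [hQN : Q.Normal] {p : ℕ} {M : Ideal AlgInt}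

/-- the restriction map -/
def RF (Q : Subgroup F) : IrrCharacter F → Q → ℂ := fun η x => (η : F → ℂ) x

theorem exists_strF (hA : ∀ a b : Q, a * b = b * a) (hQC : Subgroup.centralizer (Q : Set F) = Q)
    (hfp : ∀ w ∈ WF Q, w ≠ 1 → ∀ x : Q, w x = x → x = 1)
    {n : ℕ} {rep : Fin n → (Q →* ℂˣ)} (hrep : Reps (WF Q) n rep)
    (hcomm : ∀ a b : F, a * b * a⁻¹ * b⁻¹ ∈ Q) :
    ∃ μ : Fin n → IrrCharacter F, (∀ i, (μ i : F → ℂ) = indFun Q (lf (rep i))) ∧
      Str (Set.univ : Set (IrrCharacter F)) (RF Q) (WF Q) n rep μ 1 (fun _ => 1) := by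
  refine ⟨fun i => ⟨indFun Q (lf (rep i)), ind_irr hA hQC hfp (hrep.ne i)⟩, fun i => rfl, Or.inl rfl, ?_,
    fun _ => Set.mem_univ _, ?_, ?_⟩
  · intro i j h
    have h1 : indFun Q (lf (rep i)) = indFun Q (lf (rep j)) := congrArg Subtype.val h
    have h2 := inner_ind hQC (rep i) (rep j)
    rw [h1, inner_ind hQC, hrep.st hA hfp, hrep.st hA hfp, if_pos rfl] at h2
    by_contra hne
    rw [if_neg hne] at h2
    norm_num at h2
  · intro η _ hno
    refine ⟨Or.inl rfl, fun x hx => ?_⟩
    have h1 := lin_of_orth hA hrep hcomm η.2 (fun i => inner_irr_ne η.2 (ind_irr hA hQC hfp (hrep.ne i))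
      (fun h => hno i (Subtype.ext h.symm)))
    rw [RF, h1]
    simp
  · intro i x _
    show indFun Q (lf (rep i)) (x : F) = _
    rw [ind_coe hQC]
    simp

/-- the count of irreducible characters -/
theorem card_irrF (hA : ∀ a b : Q, a * b = b * a) (hQC : Subgroup.centralizer (Q : Set F) = Q)
    (hfp : ∀ w ∈ WF Q, w ≠ 1 → ∀ x : Q, w x = x → x = 1)
    {n : ℕ} {rep : Fin n → (Q →* ℂˣ)} (hrep : Reps (WF Q) n rep)
    (hcomm : ∀ a b : F, a * b * a⁻¹ * b⁻¹ ∈ Q) {μ : Fin n → IrrCharacter F}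
    (hμ : ∀ i, (μ i : F → ℂ) = indFun Q (lf (rep i)))
    (hS : Str (Set.univ : Set (IrrCharacter F)) (RF Q) (WF Q) n rep μ 1 (fun _ => 1)) :
    Nat.card (Set.univ : Set (IrrCharacter F)) = Nat.card (WF Q) + n := by
  classical
  have h1 := sum_degree_sq (G := F)
  have h2 := sum_split (B := (Set.univ : Set (IrrCharacter F))) (fun χ => (χ : F → ℂ) 1 ^ 2) hS.inj hS.mem
  simp only [Set.mem_univ, if_true, true_and] at h2
  rw [h1] at h2
  have hX : ∀ χ : IrrCharacter F, (∀ i, μ i ≠ χ) → (χ : F → ℂ) 1 = 1 := by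
    intro χ hno
    have h4 := lin_of_orth hA hrep hcomm χ.2 (fun i => inner_irr_ne χ.2 (ind_irr hA hQC hfp (hrep.ne i))
      (fun h => hno i (Subtype.ext ((hμ i).trans h.symm)))) 1
    simpa using h4
  have h4 : (∑ χ : IrrCharacter F, if ∀ i, μ i ≠ χ then
      (χ : F → ℂ) 1 ^ 2 else 0) = (Nat.card {χ : IrrCharacter F // χ ∈ (Set.univ : Set (IrrCharacter F)) ∧
        ∀ i, μ i ≠ χ} : ℂ) := by
    rw [Nat.card_eq_fintype_card, Fintype.card_subtype, Finset.card_filter]
    push_cast
    refine Finset.sum_congr rfl fun χ _ => ?_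
    by_cases h : ∀ i, μ i ≠ χ
    · rw [if_pos h, if_pos ⟨Set.mem_univ _, h⟩, hX χ h, one_pow]
    · rw [if_neg h, if_neg (fun h' => h h'.2)]
  have h5 : ∑ i, (μ i : F → ℂ) 1 ^ 2 = (n : ℂ) * (Nat.card (WF Q) : ℂ) ^ 2 := by
    rw [Finset.sum_congr rfl (g := fun _ => (Nat.card (WF Q) : ℂ) ^ 2), Finset.sum_const, nsmul_eq_mul,
      Finset.card_univ]
    · have := Nat.card_eq_fintype_card (α := Fin n)
      rw [← this, Nat.card_eq_fintype_card, Fintype.card_fin]
    · intro i _
      rw [hμ i, indFun_one, card_WF hQC]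
      simp [lf]
  rw [h4, h5] at h2
  have h6 : Nat.card F = Nat.card Q * Nat.card (WF Q) := by
    rw [card_WF hQC, Subgroup.card_mul_index]
  have h7 := hrep.card hA hfp
  have h8 : (Nat.card Q * Nat.card (WF Q)) = Nat.card {χ : IrrCharacter F // χ ∈ (Set.univ : Set (IrrCharacter F)) ∧
        ∀ i, μ i ≠ χ} + n * (Nat.card (WF Q)) ^ 2 := by
    rw [h6] at h2
    exact_mod_cast h2
  have h9 := hS.card_X
  have h10 : Nat.card {χ : IrrCharacter F // χ ∈ (Set.univ : Set (IrrCharacter F)) ∧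
        ∀ i, μ i ≠ χ} = Nat.card (WF Q) := by
    rw [← h7] at h8
    nlinarith
  omega

section dat

variable [Fact p.Prime]

theorem mem_of_comm (hQC : Subgroup.centralizer (Q : Set F) = Q)
    (hfp : ∀ w ∈ WF Q, w ≠ 1 → ∀ x : Q, w x = x → x = 1) {g : F} {x : Q} (hx : x ≠ 1) (h : g * x = x * g) :
    g ∈ Q := by
  have h1 : MulAut.conjNormal (H := Q) g = 1 := by
    by_contra hne
    apply hx
    refine hfp _ ⟨g, rfl⟩ hne x ?_
    apply Subtype.ext
    rw [conj_coe, h]
    group
  have h2 : g ∈ (MulAut.conjNormal (H := Q)).ker := h1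
  rwa [ker_eq hQC] at h2

theorem dat0 [M.IsPrime] (hM : IsPModular p M) (hpQ : IsPGroup p Q) (hcop : ¬ p ∣ Q.index)
    (hA : ∀ a b : Q, a * b = b * a) (hQC : Subgroup.centralizer (Q : Set F) = Q)
    (hfp : ∀ w ∈ WF Q, w ≠ 1 → ∀ x : Q, w x = x → x = 1) :
    Dat0 p M (Set.univ : Set (IrrCharacter F)) (RF Q) := by
  classical
  have hp : p.Prime := Fact.out
  have hQp : ∀ x : F, (∃ k, orderOf x = p ^ k) → x ∈ Q := by
    rintro x ⟨k, hk⟩
    have h1 : ((x : F) : F ⧸ Q) = 1 := by
      rw [← orderOf_eq_one_iff]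
      have h2 : orderOf ((x : F) : F ⧸ Q) ∣ p ^ k := hk ▸ orderOf_map_dvd (QuotientGroup.mk' Q) x
      have h3 : orderOf ((x : F) : F ⧸ Q) ∣ Q.index := by
        rw [Subgroup.index_eq_card]
        exact orderOf_dvd_natCard _
      have h4 : (p ^ k).Coprime Q.index := Nat.Coprime.pow_left _ ((Nat.Prime.coprime_iff_not_dvd hp).2 hcop)
      exact Nat.eq_one_of_dvd_coprimes h4 h2 h3
    exact (QuotientGroup.eq_one_iff x).1 h1
  refine ⟨fun χ _ => isGen_restrict Q (isGen_of_isIrr χ.2), ?_, ?_⟩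
  · intro x hx g hg
    have hnc : ¬ IsConj g (x : F) := by
      intro hc
      have h1 : orderOf g = orderOf (x : F) := by
        obtain ⟨c, hc⟩ := isConj_iff.1 hc
        rw [← hc]
        exact (MulEquiv.orderOf_eq (MulAut.conj c) g).symm
      obtain ⟨k, hk⟩ := IsPGroup.iff_orderOf.1 hpQ x
      rw [Subgroup.orderOf_coe, hk] at h1
      rcases Nat.eq_zero_or_pos k with h | h
      · apply hx
        rw [h, pow_zero] at hk
        exact orderOf_eq_one_iff.1 hk
      · apply hg
        rw [h1]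
        exact dvd_pow_self p h.ne'
    have h2 := column_orthogonality g (x : F)
    rw [if_neg hnc] at h2
    rw [← h2]
    refine Finset.sum_congr rfl fun χ _ => ?_
    rw [if_pos (Set.mem_univ _), mul_comm]
    rfl
  · intro g hg
    have hgQ : g ∈ Q := by
      have e1 := Nat.ordProj_mul_ordCompl_eq_self (orderOf g) p
      set m := orderOf g / p ^ (orderOf g).factorization p with hm
      have ho : orderOf g ≠ 0 := (orderOf_pos g).ne'
      have hm0 : m ≠ 0 := by
        intro h
        rw [h, mul_zero] at e1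
        exact ho e1.symm
      have h1 : orderOf (g ^ m) = p ^ (orderOf g).factorization p := by
        rw [orderOf_pow_of_dvd hm0 (Dvd.intro_left _ e1)]
        exact Nat.div_eq_of_eq_mul_left (Nat.pos_of_ne_zero hm0) e1.symm
      have h2 : g ^ m ∈ Q := hQp _ ⟨_, h1⟩
      have h3 : (⟨g ^ m, h2⟩ : Q) ≠ 1 := by
        intro h
        have h4 : g ^ m = 1 := congrArg Subtype.val h
        rw [h4, orderOf_one] at h1
        have h5 : 0 < (orderOf g).factorization p := hp.factorization_pos_of_dvd ho hg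
        have := Nat.one_lt_pow h5.ne' hp.one_lt
        omega
      refine mem_of_comm hQC hfp h3 ?_
      show g * g ^ m = g ^ m * g
      rw [← pow_succ, ← pow_succ']
    have hg1 : (⟨g, hgQ⟩ : Q) ≠ 1 := by
      intro h
      have h4 : g = 1 := congrArg Subtype.val h
      rw [h4, orderOf_one] at hg
      exact hp.one_lt.ne' (Nat.dvd_one.1 hg)
    have hcent : Subgroup.centralizer ({g} : Set F) = Q := by
      ext y
      rw [Subgroup.mem_centralizer_singleton_iff]
      constructor
      · intro h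
        exact mem_of_comm hQC hfp hg1 h
      · intro h
        exact congrArg Subtype.val (hA ⟨y, h⟩ ⟨g, hgQ⟩)
    refine ⟨fun x => if x = ⟨g, hgQ⟩ then 1 else 0, if_neg (fun h => hg1 h.symm), ?_, ?_, ?_⟩
    · intro x
      show MemLocalRing M (if x = ⟨g, hgQ⟩ then (1 : ℂ) else 0)
      split_ifs
      · exact locR_one
      · exact locR_zero
    · intro x
      rw [hcent]
      show MemLocalRing M ((Nat.card Q : ℂ) * (if x = ⟨g, hgQ⟩ then (1 : ℂ) else 0) / (Nat.card Q : ℂ))
      have hQ0 : (Nat.card Q : ℂ) ≠ 0 := card_ne_zero'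
      rw [mul_div_assoc, mul_div_left_comm, div_self hQ0, mul_one]
      split_ifs
      · exact locR_one
      · exact locR_zero
    · intro χ _
      rw [Finset.sum_eq_single (⟨g, hgQ⟩ : Q)]
      · beta_reduce; rw [if_pos rfl, one_mul]; rfl
      · intro y _ hy
        beta_reduce
        rw [if_neg hy, zero_mul]
      · intro h; exact absurd (Finset.mem_univ _) h

end dat

end H84.FF
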