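import Mathlib
import Cfsg.Agent.Lib.H84.FF2
import Cfsg.Agent.Lib.H80.CY

/-!
# Cyclic groups: matching of automorphism groups
-/

set_option autoImplicit false
set_option linter.unusedSectionVars false
set_option linter.unusedVariables false
set_option linter.style.haveILetI false

universe u v u' v'

namespace H84.FF

attribute [local instance 2000] Fintype.ofFinite

theorem mem_iff_pow {C : Type u} [Group C] [Finite C] [IsCyclic C] {H : Subgroup C} (x : C) :
    x ∈ H ↔ x ^ Nat.card H = 1 := by
  classical
  have h0 : 0 < Nat.card H := Nat.card_pos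
  have h1 := IsCyclic.card_pow_eq_one_le (α := C) h0
  have h2 : (Finset.univ.filter fun a : C => a ∈ H) ⊆ Finset.univ.filter fun a : C => a ^ Nat.card H = 1 := by
    intro a ha
    rw [Finset.mem_filter] at ha ⊢
    refine ⟨Finset.mem_univ _, ?_⟩
    have := pow_card_eq_one' (x := (⟨a, ha.2⟩ : H))
    exact congrArg Subtype.val this
  have h3 : (Finset.univ.filter fun a : C => a ∈ H).card = Nat.card H := by
    rw [← Fintype.card_subtype, ← Nat.card_eq_fintype_card]
  have h4 := Finset.eq_of_subset_of_card_le h2 (by rw [h3]; exact h1)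
  have h5 := Finset.ext_iff.1 h4 x
  simpa using h5

theorem match_cyclic {A : Type v} [Group A] [Finite A] [IsCyclic A] {A' : Type v'} [Group A'] [Finite A']
    {p a : ℕ} (hp : p.Prime) (hcard : Nat.card A = p ^ a) (α : A' ≃* A) {W : Subgroup (MulAut A)}
    {W' : Subgroup (MulAut A')} (h : Nat.card W' = Nat.card W) (hd : Nat.card W ∣ p - 1) (w : MulAut A') :
    w ∈ W' ↔ MulAut.congr α w ∈ W := by
  rcases eq_or_ne p 2 with h2 | h2
  · subst h2
    have h3 : Nat.card W = 1 := Nat.dvd_one.1 (by simpa using hd)
    rw [h3] at h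
    have h4 := Subgroup.card_eq_one.1 h3
    have h5 := Subgroup.card_eq_one.1 h
    rw [h4, h5, Subgroup.mem_bot, Subgroup.mem_bot]
    constructor
    · rintro rfl; exact map_one _
    · intro hh; exact (MulAut.congr α).injective (by rw [hh, map_one])
  · have hcyc : IsCyclic (MulAut A) := by
      have e := IsCyclic.mulAutMulEquiv A
      rw [hcard] at e
      have := ZMod.isCyclic_units_of_prime_pow p hp h2 a
      exact isCyclic_of_surjective _ e.symm.surjective
    have hcyc' : IsCyclic (MulAut A') := isCyclic_of_surjective _ (MulAut.congr α).symm.surjective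
    rw [mem_iff_pow (H := W'), mem_iff_pow (H := W), h, ← map_pow]
    constructor
    · intro hh; rw [hh, map_one]
    · intro hh; exact (MulAut.congr α).injective (by rw [hh, map_one])

/-- the normal subgroup -/
theorem normal_of_card {F : Type u} [Group F] [Finite F] {Q : Subgroup F} {p a e : ℕ} [Fact p.Prime]
    (hQ : Nat.card Q = p ^ a) (hF : Nat.card F = Nat.card Q * e) (he : e ∣ p - 1) : Q.Normal := by
  have hp : p.Prime := Fact.out
  have hp2 := hp.two_le
  have he0 : 0 < e := Nat.pos_of_dvd_of_pos he (by omega)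
  have hep : e ≤ p - 1 := Nat.le_of_dvd (by omega) he
  have hind : Q.index = e := by
    have h1 := Subgroup.card_mul_index Q
    rw [hF] at h1
    exact Nat.eq_of_mul_eq_mul_left Nat.card_pos h1
  have hpe : ¬ p ∣ Q.index := by
    rw [hind]
    intro h
    have := Nat.le_of_dvd he0 h
    omega
  let S : Sylow p F := (IsPGroup.of_card hQ).toSylow hpe
  have hSQ : (S : Subgroup F) = Q := rfl
  have h1 : Nat.card (Sylow p F) ∣ e := by
    have := S.card_dvd_index
    rw [hSQ, hind] at this
    exact this
  have h2 := card_sylow_modEq_one p F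
  have h3 : Nat.card (Sylow p F) ≤ e := Nat.le_of_dvd he0 h1
  have h4 : Nat.card (Sylow p F) = 1 := by
    have h5 : Nat.card (Sylow p F) % p = 1 % p := h2
    rw [Nat.mod_eq_of_lt (by omega : Nat.card (Sylow p F) < p), Nat.mod_eq_of_lt (by omega : 1 < p)] at h5
    exact h5
  have : Subsingleton (Sylow p F) := (Nat.card_eq_one_iff_unique.1 h4).1
  rw [← hSQ]
  exact Sylow.normal_of_subsingleton S

end H84.FF
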