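import Cfsg.Agent.Lib.H84.CyclicNorm
import Cfsg.Agent.Lib.H18.CharQuot

/-!
# Lower bounds for weighted norms of integral families on finite abelian groups

This is the tensor product argument of Knörr for abelian stabilisers: for subgroups `K i` of a
finite abelian group `H` with trivial intersection, a nonzero integral family `F` on `H` satisfies
`∑ |F|² ∏ w_i ≥ φ(n) |H|²`, where `w_i = 1` on `K i` and `|H : K i| + 1` off `K i`.
-/

set_option autoImplicit false
set_option linter.unusedSectionVars false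

namespace H84.GoodForm

open Polynomial
open scoped ComplexConjugate

universe u v

/-- integral families: values `P(ζ ^ a)` of an integral polynomial. -/
def Fam (ζ : ℂ) (c : ℕ → ℂ) : Prop :=
  ∃ P : ℤ[X], ∀ a, c a = (P.map (Int.castRingHom ℂ)).eval (ζ ^ a)

theorem Fam.add {ζ : ℂ} {c d : ℕ → ℂ} (hc : Fam ζ c) (hd : Fam ζ d) : Fam ζ (fun a => c a + d a) := by
  obtain ⟨P, hP⟩ := hc
  obtain ⟨Q, hQ⟩ := hd
  exact ⟨P + Q, fun a => by simp only [hP, hQ, Polynomial.map_add, eval_add]⟩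

theorem Fam.sub {ζ : ℂ} {c d : ℕ → ℂ} (hc : Fam ζ c) (hd : Fam ζ d) : Fam ζ (fun a => c a - d a) := by
  obtain ⟨P, hP⟩ := hc
  obtain ⟨Q, hQ⟩ := hd
  exact ⟨P - Q, fun a => by simp only [hP, hQ, Polynomial.map_sub, eval_sub]⟩

/-- exponents prime to `n` -/
def cop (n : ℕ) : Finset ℕ := (Finset.range n).filter (fun a => a.Coprime n)

theorem Fam.bound {n : ℕ} (hn : 0 < n) {ζ : ℂ} (hζ : IsPrimitiveRoot ζ n) {c : ℕ → ℂ} (hc : Fam ζ c)
    {a : ℕ} (ha : a ∈ cop n) (hca : c a ≠ 0) : (n.totient : ℝ) ≤ ∑ a ∈ cop n, ‖c a‖ ^ 2 := by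
  obtain ⟨P, hP⟩ := hc
  have h1 : IsPrimitiveRoot (ζ ^ a) n := hζ.pow_of_coprime a (Finset.mem_filter.1 ha).2
  have h2 : (P.map (Int.castRingHom ℂ)).eval ζ ≠ 0 := by
    apply H84.CyclicNorm.eval_ne_zero hn P h1 hζ
    rw [← hP]; exact hca
  have h3 := H84.CyclicNorm.card_le_sum_norm_sq hn P hζ h2
  rw [H84.CyclicNorm.sum_primitiveRoots hn hζ] at h3
  refine h3.trans (le_of_eq (Finset.sum_congr rfl fun a _ => by rw [hP]))

section

variable {A : Type u} [CommGroup A] [Fintype A]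

/-- families with integral Fourier coefficients -/
def IntFam (ζ : ℂ) (F : ℕ → A → ℂ) : Prop :=
  ∀ ξ : A →* ℂˣ, Fam ζ (fun a => (Fintype.card A : ℂ)⁻¹ * ∑ x, F a x * conj (ξ x : ℂ))

/-- The weight `w` on `A` is good if nonzero integral families have weighted norm at least
`|A|²` on average. -/
def Good (n : ℕ) (ζ : ℂ) (A : Type u) [CommGroup A] [Fintype A] (w : A → ℝ) : Prop :=
  ∀ F : ℕ → A → ℂ, IntFam ζ F → (∃ a ∈ cop n, ∃ x, F a x ≠ 0) →
    (n.totient : ℝ) * (Fintype.card A : ℝ) ^ 2 ≤ ∑ a ∈ cop n, ∑ x, ‖F a x‖ ^ 2 * w x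

theorem good_of_subsingleton {n : ℕ} (hn : 0 < n) {ζ : ℂ} (hζ : IsPrimitiveRoot ζ n)
    [Subsingleton A] {w : A → ℝ} (hw : ∀ x, 1 ≤ w x) : Good n ζ A w := by
  intro F hF hne
  obtain ⟨a0, ha0, x0, hx0⟩ := hne
  have hcard : Fintype.card A = 1 := Fintype.card_eq_one_iff.2 ⟨1, fun y => Subsingleton.elim _ _⟩
  have hsum : ∀ f : A → ℂ, ∑ x, f x = f 1 := by
    intro f
    rw [Finset.sum_eq_single (1 : A) (fun b _ hb => absurd (Subsingleton.elim b 1) hb)
      (fun h => absurd (Finset.mem_univ _) h)]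
  have hsum' : ∀ f : A → ℝ, ∑ x, f x = f 1 := by
    intro f
    rw [Finset.sum_eq_single (1 : A) (fun b _ hb => absurd (Subsingleton.elim b 1) hb)
      (fun h => absurd (Finset.mem_univ _) h)]
  have h1 := hF 1
  have h2 : Fam ζ (fun a => F a 1) := by
    refine (congrArg (Fam ζ) ?_).mp h1
    funext a
    rw [hcard, hsum]
    simp
  have h3 : F a0 1 ≠ 0 := by rwa [Subsingleton.elim (1 : A) x0]
  have h4 := h2.bound hn hζ ha0 h3
  rw [hcard]
  simp only [Nat.cast_one, one_pow, mul_one]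
  refine h4.trans (Finset.sum_le_sum fun a _ => ?_)
  rw [hsum']
  exact le_mul_of_one_le_right (by positivity) (hw 1)

theorem Good.mono {n : ℕ} {ζ : ℂ} {w w' : A → ℝ} (h : Good n ζ A w) (hw : ∀ x, w x ≤ w' x) :
    Good n ζ A w' := by
  intro F hF hne
  refine (h F hF hne).trans (Finset.sum_le_sum fun a _ => Finset.sum_le_sum fun x _ => ?_)
  exact mul_le_mul_of_nonneg_left (hw x) (by positivity)

/-- pulling back along an injective homomorphism -/
theorem Good.comap {n : ℕ} {ζ : ℂ} {w : A → ℝ} (h : Good n ζ A w) {H : Type v} [CommGroup H]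
    [Fintype H] (ι : H →* A) (hι : Function.Injective ι) : Good n ζ H (fun x => w (ι x)) := by
  classical
  intro F hF hne
  let F' : ℕ → A → ℂ := fun a => Function.extend ι (fun x => ((Fintype.card A : ℂ) / Fintype.card H) * F a x) 0
  have hA0 : (Fintype.card A : ℂ) ≠ 0 := by exact_mod_cast Fintype.card_ne_zero
  have hH0 : (Fintype.card H : ℂ) ≠ 0 := by exact_mod_cast Fintype.card_ne_zero
  have hA0' : (0 : ℝ) < Fintype.card A := by exact_mod_cast Fintype.card_pos
  have hH0' : (0 : ℝ) < Fintype.card H := by exact_mod_cast Fintype.card_pos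
  have hF'1 : ∀ a x, F' a (ι x) = ((Fintype.card A : ℂ) / Fintype.card H) * F a x := by
    intro a x
    exact hι.extend_apply _ _ _
  have hF'0 : ∀ a y, (¬ ∃ x, ι x = y) → F' a y = 0 := by
    intro a y hy
    exact Function.extend_apply' _ _ _ hy
  have hsumC : ∀ g : A → ℂ, (∀ y, (¬ ∃ x, ι x = y) → g y = 0) → ∑ y, g y = ∑ x, g (ι x) := by
    intro g hg
    rw [← Finset.sum_image (s := Finset.univ) (g := ι) (f := g) (fun x _ y _ hxy => hι hxy)]
    symm
    apply Finset.sum_subset (Finset.subset_univ _)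
    intro y _ hy
    apply hg
    rintro ⟨x, rfl⟩
    exact hy (Finset.mem_image_of_mem _ (Finset.mem_univ x))
  have hsumR : ∀ g : A → ℝ, (∀ y, (¬ ∃ x, ι x = y) → g y = 0) → ∑ y, g y = ∑ x, g (ι x) := by
    intro g hg
    rw [← Finset.sum_image (s := Finset.univ) (g := ι) (f := g) (fun x _ y _ hxy => hι hxy)]
    symm
    apply Finset.sum_subset (Finset.subset_univ _)
    intro y _ hy
    apply hg
    rintro ⟨x, rfl⟩
    exact hy (Finset.mem_image_of_mem _ (Finset.mem_univ x))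
  have hInt : IntFam ζ F' := by
    intro ξ
    have h1 := hF (ξ.comp ι)
    refine (congrArg (Fam ζ) ?_).mp h1
    funext a
    rw [hsumC (fun y => F' a y * conj (ξ y : ℂ)) (fun y hy => by rw [hF'0 a y hy, zero_mul])]
    simp only [hF'1, MonoidHom.comp_apply]
    rw [Finset.mul_sum, Finset.mul_sum]
    refine Finset.sum_congr rfl fun x _ => ?_
    field_simp
  have hne' : ∃ a ∈ cop n, ∃ x, F' a x ≠ 0 := by
    obtain ⟨a, ha, x, hx⟩ := hne
    refine ⟨a, ha, ι x, ?_⟩
    rw [hF'1]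
    exact mul_ne_zero (div_ne_zero hA0 hH0) hx
  have h1 := h F' hInt hne'
  have h2 : ∀ a, ∑ y, ‖F' a y‖ ^ 2 * w y =
      ((Fintype.card A : ℝ) / Fintype.card H) ^ 2 * ∑ x, ‖F a x‖ ^ 2 * w (ι x) := by
    intro a
    rw [hsumR (fun y => ‖F' a y‖ ^ 2 * w y) (fun y hy => by rw [hF'0 a y hy]; simp), Finset.mul_sum]
    refine Finset.sum_congr rfl fun x _ => ?_
    rw [hF'1, norm_mul, norm_div, Complex.norm_natCast, Complex.norm_natCast]
    ring
  rw [Finset.sum_congr rfl (fun a _ => h2 a), ← Finset.mul_sum] at h1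
  have h3 : (n.totient : ℝ) * (Fintype.card A : ℝ) ^ 2 =
      ((Fintype.card A : ℝ) / Fintype.card H) ^ 2 * ((n.totient : ℝ) * (Fintype.card H : ℝ) ^ 2) := by
    field_simp
  rw [h3] at h1
  exact le_of_mul_le_mul_left h1 (by positivity)

end

section fourier

variable {C : Type u} [CommGroup C] [Fintype C]

theorem finite_dual : Finite (C →* ℂˣ) := by
  have h : Nat.card (C →* ℂˣ) = (commutator C).index := H18.CharQuot.card_hom_eq_index
  apply Nat.finite_of_card_ne_zero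
  rw [h]
  exact Subgroup.index_ne_zero_of_finite

theorem card_dual [Fintype (C →* ℂˣ)] : Fintype.card (C →* ℂˣ) = Fintype.card C := by
  have h : Nat.card (C →* ℂˣ) = (commutator C).index := H18.CharQuot.card_hom_eq_index
  have h2 : commutator C = ⊥ := by
    rw [commutator_def, Subgroup.commutator_eq_bot_iff_le_centralizer]
    intro x _
    rw [Subgroup.mem_centralizer_iff]
    intro y _
    exact mul_comm y x
  rw [h2, Subgroup.index_bot, Nat.card_eq_fintype_card, Nat.card_eq_fintype_card] at h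
  exact h

open Classical in
theorem sum_dual [Fintype (C →* ℂˣ)] (c : C) :
    (∑ β : C →* ℂˣ, (β c : ℂ)) = if c = 1 then (Fintype.card C : ℂ) else 0 := by
  classical
  split_ifs with hc
  · subst hc
    simp only [map_one, Units.val_one, Finset.sum_const, Finset.card_univ, card_dual, nsmul_eq_mul, mul_one]
  · have h1 : c ∉ commutator C := by
      have h2 : commutator C = ⊥ := by
        rw [commutator_def, Subgroup.commutator_eq_bot_iff_le_centralizer]
        intro x _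
        rw [Subgroup.mem_centralizer_iff]
        intro y _
        exact mul_comm y x
      rw [h2, Subgroup.mem_bot]; exact hc
    obtain ⟨β0, hβ0⟩ := H18.CharQuot.exists_hom_ne_one h1
    have h3 : (β0 c : ℂ) * ∑ β : C →* ℂˣ, (β c : ℂ) = ∑ β : C →* ℂˣ, (β c : ℂ) := by
      rw [Finset.mul_sum]
      refine Fintype.sum_equiv (Equiv.mulLeft β0) _ _ fun β => ?_
      simp
    have h4 : (β0 c : ℂ) ≠ 1 := fun h => hβ0 (Units.ext h)
    have h5 : ((β0 c : ℂ) - 1) * ∑ β : C →* ℂˣ, (β c : ℂ) = 0 := by rw [sub_mul, h3, one_mul, sub_self]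
    rcases mul_eq_zero.1 h5 with h | h
    · exact absurd (sub_eq_zero.1 h) h4
    · exact h

/-- Fourier coefficient -/
noncomputable def fc (f : C → ℂ) (β : C →* ℂˣ) : ℂ := (Fintype.card C : ℂ)⁻¹ * ∑ c, f c * conj (β c : ℂ)

theorem sum_fc [Fintype (C →* ℂˣ)] (f : C → ℂ) : ∑ β : C →* ℂˣ, fc f β = f 1 := by
  classical
  have hC0 : (Fintype.card C : ℂ) ≠ 0 := by exact_mod_cast Fintype.card_ne_zero
  unfold fc
  rw [← Finset.mul_sum, Finset.sum_comm]
  have h1 : ∀ c : C, ∑ β : C →* ℂˣ, f c * conj (β c : ℂ) = if c = 1 then f c * (Fintype.card C : ℂ) else 0 := by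
    intro c
    rw [← Finset.mul_sum, ← map_sum, sum_dual]
    split_ifs <;> simp
  rw [Finset.sum_congr rfl (fun c _ => h1 c), Finset.sum_ite_eq' Finset.univ (1 : C), if_pos (Finset.mem_univ _)]
  field_simp

theorem parseval_fc [Fintype (C →* ℂˣ)] (f : C → ℂ) :
    ∑ β : C →* ℂˣ, ‖fc f β‖ ^ 2 = (Fintype.card C : ℝ)⁻¹ * ∑ c, ‖f c‖ ^ 2 := by
  classical
  have hC0 : (Fintype.card C : ℂ) ≠ 0 := by exact_mod_cast Fintype.card_ne_zero
  have h1 : ((∑ β : C →* ℂˣ, ‖fc f β‖ ^ 2 : ℝ) : ℂ) =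
      (((Fintype.card C : ℝ)⁻¹ * ∑ c, ‖f c‖ ^ 2 : ℝ) : ℂ) := by
    push_cast
    have h2 : ∀ β : C →* ℂˣ, ((‖fc f β‖ : ℂ)) ^ 2 = fc f β * conj (fc f β) := by
      intro β
      rw [Complex.mul_conj, Complex.normSq_eq_norm_sq]; push_cast; rfl
    rw [Finset.sum_congr rfl (fun β _ => h2 β)]
    have h3 : ∀ β : C →* ℂˣ, fc f β * conj (fc f β) = (Fintype.card C : ℂ)⁻¹ * (Fintype.card C : ℂ)⁻¹ *
        ∑ c, ∑ d, f c * conj (f d) * (β (d * c⁻¹) : ℂ) := by
      intro β
      unfold fc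
      rw [map_mul, map_inv₀, Complex.conj_natCast, map_sum]
      have h4 : (∑ c, f c * conj (β c : ℂ)) * ∑ d, conj (f d * conj (β d : ℂ)) =
          ∑ c, ∑ d, f c * conj (f d) * (β (d * c⁻¹) : ℂ) := by
        rw [Finset.sum_mul_sum]
        refine Finset.sum_congr rfl fun c _ => Finset.sum_congr rfl fun d _ => ?_
        rw [map_mul, Complex.conj_conj, map_mul, Units.val_mul, H18.CharBasic.hom_inv_eq_conj β c]
        ring
      rw [← h4]; ring
    rw [Finset.sum_congr rfl (fun β _ => h3 β), ← Finset.mul_sum, Finset.sum_comm]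
    have h5 : ∀ c : C, ∑ β : C →* ℂˣ, ∑ d, f c * conj (f d) * (β (d * c⁻¹) : ℂ) =
        (Fintype.card C : ℂ) * ((‖f c‖ : ℂ)) ^ 2 := by
      intro c
      rw [Finset.sum_comm]
      have h6 : ∀ d : C, ∑ β : C →* ℂˣ, f c * conj (f d) * (β (d * c⁻¹) : ℂ) =
          if d = c then f c * conj (f d) * (Fintype.card C : ℂ) else 0 := by
        intro d
        rw [← Finset.mul_sum, sum_dual]
        have : d * c⁻¹ = 1 ↔ d = c := mul_inv_eq_one
        simp only [this]
        split_ifs <;> simp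
      rw [Finset.sum_congr rfl (fun d _ => h6 d), Finset.sum_ite_eq' Finset.univ c, if_pos (Finset.mem_univ _),
        Complex.mul_conj, Complex.normSq_eq_norm_sq]
      push_cast; ring
    rw [Finset.sum_congr rfl (fun c _ => h5 c), ← Finset.mul_sum]
    field_simp
  exact_mod_cast h1

end fourier

/-- The edge identity. -/
theorem edge_identity {ι : Type v} [Fintype ι] (z : ι → ℂ) :
    ((Fintype.card ι : ℝ) + 1) * ∑ i, ‖z i‖ ^ 2 - ‖∑ i, z i‖ ^ 2 =
      ∑ i, ‖z i‖ ^ 2 + (1 / 2) * ∑ i, ∑ j, ‖z i - z j‖ ^ 2 := by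
  have h1 : ∀ z w : ℂ, ‖z - w‖ ^ 2 = ‖z‖ ^ 2 + ‖w‖ ^ 2 - 2 * (z * conj w).re := by
    intro z w
    have := Complex.normSq_sub z w
    rw [Complex.normSq_eq_norm_sq, Complex.normSq_eq_norm_sq, Complex.normSq_eq_norm_sq] at this
    exact this
  have h2 : ‖∑ i, z i‖ ^ 2 = ∑ i, ∑ j, (z i * conj (z j)).re := by
    rw [← Complex.normSq_eq_norm_sq]
    have h3 : (Complex.normSq (∑ i, z i) : ℂ) = ∑ i, ∑ j, z i * conj (z j) := by
      rw [← Complex.mul_conj, map_sum, Finset.sum_mul_sum]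
    have h4 := congrArg Complex.re h3
    rw [Complex.ofReal_re, Complex.re_sum] at h4
    rw [h4]
    exact Finset.sum_congr rfl fun i _ => Complex.re_sum _ _
  have h5 : ∑ i, ∑ j, ‖z i - z j‖ ^ 2 = 2 * (Fintype.card ι : ℝ) * ∑ i, ‖z i‖ ^ 2 - 2 * ‖∑ i, z i‖ ^ 2 := by
    rw [h2]
    simp only [h1, Finset.sum_sub_distrib, Finset.sum_add_distrib, Finset.sum_const, Finset.card_univ,
      nsmul_eq_mul, ← Finset.mul_sum]
    ring
  rw [h5]; ring

open Classical in
theorem good_prod {n : ℕ} {ζ : ℂ} {C : Type u} [CommGroup C] [Fintype C] {A : Type v} [CommGroup A] [Fintype A] {w : A → ℝ} (hw : ∀ x, 0 ≤ w x)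
    (h : Good n ζ A w) :
    Good n ζ (C × A) (fun x => (if x.1 = 1 then 1 else (Fintype.card C : ℝ) + 1) * w x.2) := by
  intro F hF hne
  have := finite_dual (C := C)
  have := Fintype.ofFinite (C →* ℂˣ)
  set e := Fintype.card C with he
  have he0 : (e : ℂ) ≠ 0 := by exact_mod_cast Fintype.card_ne_zero
  have he0' : (0 : ℝ) < e := by exact_mod_cast Fintype.card_pos
  have hA0 : (Fintype.card A : ℂ) ≠ 0 := by exact_mod_cast Fintype.card_ne_zero
  let Fb : (C →* ℂˣ) → ℕ → A → ℂ := fun β a x => fc (fun c => F a (c, x)) β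
  have hFbInt : ∀ β, IntFam ζ (Fb β) := by
    intro β ξ
    let η : C × A →* ℂˣ := (β.comp (MonoidHom.fst C A)) * (ξ.comp (MonoidHom.snd C A))
    have h1 := hF η
    refine (congrArg (Fam ζ) ?_).mp h1
    funext a
    simp only [Fb, fc, ← he]
    rw [Fintype.sum_prod_type_right, Fintype.card_prod, ← he]
    push_cast
    rw [mul_inv, mul_comm (e : ℂ)⁻¹, mul_assoc]
    congr 1
    rw [Finset.mul_sum]
    refine Finset.sum_congr rfl fun x _ => ?_
    rw [Finset.mul_sum, Finset.mul_sum, Finset.sum_mul]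
    refine Finset.sum_congr rfl fun c _ => ?_
    have h2 : ((η (c, x) : ℂˣ) : ℂ) = (β c : ℂ) * (ξ x : ℂ) := by
      simp [η]
    rw [h2, map_mul]
    ring
  have hsub : ∀ β γ, IntFam ζ (fun a x => Fb β a x - Fb γ a x) := by
    intro β γ ξ
    refine (congrArg (Fam ζ) ?_).mp ((hFbInt β ξ).sub (hFbInt γ ξ))
    funext a
    rw [← mul_sub, ← Finset.sum_sub_distrib]
    congr 1
    refine Finset.sum_congr rfl fun x _ => ?_
    ring
  -- the weighted norm on A
  let S : (ℕ → A → ℂ) → ℝ := fun F => ∑ a ∈ cop n, ∑ x, ‖F a x‖ ^ 2 * w x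
  let m : ℝ := (n.totient : ℝ) * (Fintype.card A : ℝ) ^ 2
  have hm0 : 0 ≤ m := by positivity
  have hS0 : ∀ F, 0 ≤ S F := fun F => Finset.sum_nonneg fun a _ => Finset.sum_nonneg fun x _ =>
    mul_nonneg (by positivity) (hw x)
  -- main identity
  have hid : ∑ a ∈ cop n, ∑ x : C × A, ‖F a x‖ ^ 2 * ((if x.1 = 1 then 1 else (e : ℝ) + 1) * w x.2) =
      e * (∑ β, S (Fb β) + (1 / 2) * ∑ β, ∑ γ, S (fun a x => Fb β a x - Fb γ a x)) := by
    have h1 : ∀ a, ∑ x : C × A, ‖F a x‖ ^ 2 * ((if x.1 = 1 then 1 else (e : ℝ) + 1) * w x.2) =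
        ∑ x : A, (e * (∑ β, ‖Fb β a x‖ ^ 2 + (1 / 2) * ∑ β, ∑ γ, ‖Fb β a x - Fb γ a x‖ ^ 2)) * w x := by
      intro a
      rw [Fintype.sum_prod_type_right]
      refine Finset.sum_congr rfl fun x _ => ?_
      have h2 : ∀ c : C, ‖F a (c, x)‖ ^ 2 * ((if c = 1 then 1 else (e : ℝ) + 1) * w x) =
          ((e + 1) * ‖F a (c, x)‖ ^ 2 - (if c = 1 then e * ‖F a (c, x)‖ ^ 2 else 0)) * w x := by
        intro c
        split_ifs <;> ring
      rw [Finset.sum_congr rfl (fun c _ => h2 c), ← Finset.sum_mul]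
      congr 1
      rw [Finset.sum_sub_distrib, Finset.sum_ite_eq' Finset.univ (1 : C), if_pos (Finset.mem_univ _),
        ← Finset.mul_sum]
      have h3 := parseval_fc (fun c => F a (c, x))
      have h4 := sum_fc (fun c => F a (c, x))
      have h5 := edge_identity (fun β => Fb β a x)
      rw [card_dual, ← he] at h5
      rw [← h5]
      have h6 : ∑ β, ‖Fb β a x‖ ^ 2 = (e : ℝ)⁻¹ * ∑ c, ‖F a (c, x)‖ ^ 2 := h3
      have h7 : ∑ β, Fb β a x = F a (1, x) := h4
      rw [h6, h7]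
      field_simp
    rw [Finset.sum_congr rfl (fun a _ => h1 a)]
    simp only [S]
    have h8 : ∀ β, ∑ a ∈ cop n, ∑ x, ‖Fb β a x‖ ^ 2 * w x = ∑ a ∈ cop n, ∑ x, ‖Fb β a x‖ ^ 2 * w x := fun _ => rfl
    have e1 : ∑ β, ∑ a ∈ cop n, ∑ x, ‖Fb β a x‖ ^ 2 * w x =
        ∑ a ∈ cop n, ∑ x, (∑ β, ‖Fb β a x‖ ^ 2) * w x := by
      rw [Finset.sum_comm]
      refine Finset.sum_congr rfl fun a _ => ?_
      rw [Finset.sum_comm]
      exact Finset.sum_congr rfl fun x _ => by rw [Finset.sum_mul]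
    have e2 : ∑ β, ∑ γ, ∑ a ∈ cop n, ∑ x, ‖Fb β a x - Fb γ a x‖ ^ 2 * w x =
        ∑ a ∈ cop n, ∑ x, (∑ β, ∑ γ, ‖Fb β a x - Fb γ a x‖ ^ 2) * w x := by
      have e3 : ∀ β, ∑ γ, ∑ a ∈ cop n, ∑ x, ‖Fb β a x - Fb γ a x‖ ^ 2 * w x =
          ∑ a ∈ cop n, ∑ x, (∑ γ, ‖Fb β a x - Fb γ a x‖ ^ 2) * w x := by
        intro β
        rw [Finset.sum_comm]
        refine Finset.sum_congr rfl fun a _ => ?_
        rw [Finset.sum_comm]
        exact Finset.sum_congr rfl fun x _ => by rw [Finset.sum_mul]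
      rw [Finset.sum_congr rfl (fun β _ => e3 β), Finset.sum_comm]
      refine Finset.sum_congr rfl fun a _ => ?_
      rw [Finset.sum_comm]
      exact Finset.sum_congr rfl fun x _ => by rw [Finset.sum_mul]
    rw [e1, e2, Finset.mul_sum, ← Finset.sum_add_distrib, Finset.mul_sum]
    refine Finset.sum_congr rfl fun a _ => ?_
    rw [Finset.mul_sum, ← Finset.sum_add_distrib, Finset.mul_sum]
    refine Finset.sum_congr rfl fun x _ => ?_
    ring
  -- nonvanishing
  have hex : ∃ β0, ∃ a ∈ cop n, ∃ x, Fb β0 a x ≠ 0 := by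
    obtain ⟨a, ha, ⟨c, x⟩, hx⟩ := hne
    by_contra hcon
    push Not at hcon
    have h3 := parseval_fc (fun c => F a (c, x))
    have h4 : ∑ β : C →* ℂˣ, ‖fc (fun c => F a (c, x)) β‖ ^ 2 = 0 := by
      refine Finset.sum_eq_zero fun β _ => ?_
      have := hcon β a ha x
      simp only [Fb] at this
      rw [this]; simp
    rw [h4] at h3
    have h5 : ∑ c, ‖F a (c, x)‖ ^ 2 = 0 := by
      rcases mul_eq_zero.1 h3.symm with h | h
      · exact absurd h (inv_ne_zero (ne_of_gt he0'))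
      · exact h
    rw [Finset.sum_eq_zero_iff_of_nonneg (fun c _ => by positivity)] at h5
    have h6 := h5 c (Finset.mem_univ _)
    have h7 : ‖F a (c, x)‖ = 0 := by simpa using h6
    exact hx (norm_eq_zero.1 h7)
  obtain ⟨β0, a0, ha0, x0, hx0⟩ := hex
  -- the counting
  have hcount : (e : ℝ) * m ≤ ∑ β, S (Fb β) + (1 / 2) * ∑ β, ∑ γ, S (fun a x => Fb β a x - Fb γ a x) := by
    have hsymm : ∀ β γ, S (fun a x => Fb β a x - Fb γ a x) = S (fun a x => Fb γ a x - Fb β a x) := by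
      intro β γ
      simp only [S]
      refine Finset.sum_congr rfl fun a _ => Finset.sum_congr rfl fun x _ => ?_
      rw [norm_sub_rev]
    have h1 : ∑ β, S (fun a x => Fb β0 a x - Fb β a x) ≤ (1 / 2) * ∑ β, ∑ γ, S (fun a x => Fb β a x - Fb γ a x) := by
      have h2 : ∑ β, ∑ γ, S (fun a x => Fb β a x - Fb γ a x) ≥
          ∑ γ, S (fun a x => Fb β0 a x - Fb γ a x) + ∑ β ∈ Finset.univ.erase β0, S (fun a x => Fb β a x - Fb β0 a x) := by
        rw [← Finset.add_sum_erase Finset.univ _ (Finset.mem_univ β0)]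
        gcongr with β hβ
        exact Finset.single_le_sum (f := fun γ => S (fun a x => Fb β a x - Fb γ a x))
          (fun γ _ => hS0 _) (Finset.mem_univ β0)
      have h3 : ∑ β ∈ Finset.univ.erase β0, S (fun a x => Fb β a x - Fb β0 a x) =
          ∑ γ, S (fun a x => Fb β0 a x - Fb γ a x) := by
        rw [← Finset.add_sum_erase Finset.univ (fun γ => S (fun a x => Fb β0 a x - Fb γ a x)) (Finset.mem_univ β0)]
        have h4 : S (fun a x => Fb β0 a x - Fb β0 a x) = 0 := by simp [S]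
        rw [h4, zero_add]
        exact Finset.sum_congr rfl fun β _ => hsymm _ _
      rw [h3] at h2
      linarith
    refine le_trans ?_ (add_le_add_right h1 (∑ β, S (Fb β)))
    rw [← Finset.sum_add_distrib]
    have h5 : (e : ℝ) * m = ∑ _β : C →* ℂˣ, m := by
      rw [Finset.sum_const, Finset.card_univ, card_dual, nsmul_eq_mul]
    rw [h5]
    refine Finset.sum_le_sum fun β _ => ?_
    by_cases hβ : ∃ a ∈ cop n, ∃ x, Fb β a x ≠ 0
    · have h6 : m ≤ S (Fb β) := h (Fb β) (hFbInt β) hβ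
      have h7 := hS0 (fun a x => Fb β0 a x - Fb β a x)
      linarith
    · push Not at hβ
      have h6 : m ≤ S (fun a x => Fb β0 a x - Fb β a x) := by
        apply h _ (hsub β0 β)
        refine ⟨a0, ha0, x0, ?_⟩
        rw [hβ a0 ha0 x0, sub_zero]
        exact hx0
      have h7 := hS0 (Fb β)
      linarith
  rw [hid, Fintype.card_prod, ← he]
  push_cast
  calc (n.totient : ℝ) * ((e : ℝ) * (Fintype.card A : ℝ)) ^ 2 = e * (e * m) := by simp only [m]; ring
    _ ≤ _ := mul_le_mul_of_nonneg_left hcount he0'.le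

open Classical in
theorem good_pi {n : ℕ} (hn : 0 < n) {ζ : ℂ} (hζ : IsPrimitiveRoot ζ n) : ∀ (k : ℕ) (C : Fin k → Type u)
    [∀ i, CommGroup (C i)] [∀ i, Fintype (C i)],
    Good n ζ (∀ i, C i) (fun x => ∏ i, if x i = 1 then (1 : ℝ) else (Fintype.card (C i) : ℝ) + 1) := by
  intro k
  induction k with
  | zero =>
    intro C _ _
    apply good_of_subsingleton hn hζ
    intro x
    simp
  | succ k ih =>
    intro C _ _
    have h1 := ih (fun i => C i.succ)
    have h2 := good_prod (C := C 0) (fun x => Finset.prod_nonneg fun i _ => by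
      split_ifs
      · exact zero_le_one
      · positivity) h1
    let ι : (∀ i, C i) →* C 0 × (∀ i : Fin k, C i.succ) :=
      { toFun := fun x => (x 0, fun i => x i.succ)
        map_one' := rfl
        map_mul' := fun _ _ => rfl }
    have hι : Function.Injective ι := by
      intro x y hxy
      funext i
      have h3 : x 0 = y 0 := congrArg Prod.fst hxy
      have h4 : (fun i : Fin k => x i.succ) = fun i : Fin k => y i.succ := congrArg Prod.snd hxy
      refine Fin.cases h3 (fun j => congrFun h4 j) i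
    have h5 := h2.comap ι hι
    refine h5.mono fun x => le_of_eq ?_
    rw [Fin.prod_univ_succ]
    rfl

open Classical in
/-- The tensor bound for subgroups with trivial intersection. -/
theorem good_subgroups {n : ℕ} (hn : 0 < n) {ζ : ℂ} (hζ : IsPrimitiveRoot ζ n) {H : Type u}
    [CommGroup H] [Fintype H] (k : ℕ) (K : Fin k → Subgroup H) (hK : ∀ h, (∀ i, h ∈ K i) → h = 1) :
    Good n ζ H (fun h => ∏ i, if h ∈ K i then (1 : ℝ) else ((K i).index : ℝ) + 1) := by
  have : ∀ i, Fintype (H ⧸ K i) := fun i => Fintype.ofFinite _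
  have h1 := good_pi hn hζ k (fun i => H ⧸ K i)
  let ι : H →* (∀ i, H ⧸ K i) := MonoidHom.pi (fun i => QuotientGroup.mk' (K i))
  have hι : Function.Injective ι := by
    rw [injective_iff_map_eq_one]
    intro x hx
    apply hK
    intro i
    have := congrFun hx i
    exact (QuotientGroup.eq_one_iff x).1 this
  refine (h1.comap ι hι).mono fun h => le_of_eq ?_
  refine Finset.prod_congr rfl fun i _ => ?_
  have h2 : ι h i = 1 ↔ h ∈ K i := QuotientGroup.eq_one_iff h
  simp only [h2]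
  rw [Subgroup.index, Nat.card_eq_fintype_card]

end H84.GoodForm
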