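import Mathlib

/-!
# Cancellation on chains of p-subgroups normalized by an element
-/

set_option autoImplicit false

namespace H84.KR

universe u

variable {G : Type u} [Group G] [Finite G] {p : ℕ}

/-- top of a chain -/
def tp (s : Finset (Subgroup G)) : Subgroup G := s.sup id

/-- stabilizer of a chain -/
def Ns (s : Finset (Subgroup G)) : Subgroup G := ⨅ Q ∈ s, Subgroup.normalizer (Q : Set G)

omit [Finite G] in
theorem mem_Ns {s : Finset (Subgroup G)} {x : G} : x ∈ Ns s ↔ ∀ Q ∈ s, x ∈ Subgroup.normalizer (Q : Set G) := by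
  unfold Ns
  simp only [Subgroup.mem_iInf]

/-- normal chains -/
structure IsCh (p : ℕ) (s : Finset (Subgroup G)) : Prop where
  chain : ∀ Q ∈ s, ∀ R ∈ s, Q ≤ R ∨ R ≤ Q
  ne : ∀ Q ∈ s, Q ≠ ⊥
  pgr : ∀ Q ∈ s, IsPGroup p Q
  top_le : ∀ Q ∈ s, tp s ≤ Subgroup.normalizer (Q : Set G)

omit [Finite G] in
theorem le_tp {s : Finset (Subgroup G)} {Q : Subgroup G} (h : Q ∈ s) : Q ≤ tp s := Finset.le_sup (f := id) h

omit [Finite G] in
theorem sup_mem_of_chain {s : Finset (Subgroup G)} (hch : ∀ Q ∈ s, ∀ R ∈ s, Q ≤ R ∨ R ≤ Q) (hne : s.Nonempty) :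
    s.sup id ∈ s := by
  classical
  induction s using Finset.induction_on with
  | empty => exact absurd hne (by simp)
  | insert Q s hQ ih =>
    rw [Finset.sup_insert]
    by_cases hs : s.Nonempty
    · have h1 := ih (fun A hA B hB => hch A (Finset.mem_insert_of_mem hA) B (Finset.mem_insert_of_mem hB)) hs
      rcases hch Q (Finset.mem_insert_self _ _) _ (Finset.mem_insert_of_mem h1) with h | h
      · have : id Q ⊔ s.sup id = s.sup id := sup_eq_right.2 h
        rw [this]; exact Finset.mem_insert_of_mem h1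
      · have : id Q ⊔ s.sup id = Q := sup_eq_left.2 h
        rw [this]; exact Finset.mem_insert_self _ _
    · rw [Finset.not_nonempty_iff_eq_empty.1 hs]
      simp

theorem IsCh.tp_mem {s : Finset (Subgroup G)} (h : IsCh p s) (hne : s.Nonempty) : tp s ∈ s :=
  sup_mem_of_chain h.chain hne

theorem IsCh.tp_pgr {s : Finset (Subgroup G)} (h : IsCh p s) : IsPGroup p (tp s) := by
  by_cases hne : s.Nonempty
  · exact h.pgr _ (h.tp_mem hne)
  · rw [Finset.not_nonempty_iff_eq_empty.1 hne]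
    unfold tp
    rw [Finset.sup_empty]
    exact IsPGroup.of_bot

/-- the conditions of the statement -/
theorem isCh_iff {s : Finset (Subgroup G)} (hne : s.Nonempty) : IsCh p s ↔
    (∀ Q ∈ s, ∀ R ∈ s, Q ≤ R ∨ R ≤ Q) ∧ (∀ Q ∈ s, Q ≠ ⊥ ∧ IsPGroup p Q) ∧
      ∃ T ∈ s, ∀ Q ∈ s, Q ≤ T ∧ T ≤ Subgroup.normalizer ((Q : Subgroup G) : Set G) := by
  constructor
  · intro h
    exact ⟨h.chain, fun Q hQ => ⟨h.ne Q hQ, h.pgr Q hQ⟩, tp s, h.tp_mem hne, fun Q hQ => ⟨le_tp hQ, h.top_le Q hQ⟩⟩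
  · rintro ⟨h1, h2, T, hT, h3⟩
    refine ⟨h1, fun Q hQ => (h2 Q hQ).1, fun Q hQ => (h2 Q hQ).2, ?_⟩
    intro Q hQ
    have : tp s = T := le_antisymm (Finset.sup_le fun Q hQ => (h3 Q hQ).1) (le_tp hT)
    rw [this]
    exact (h3 Q hQ).2

open Classical in
/-- the largest member not containing `u` -/
noncomputable def q0 (s : Finset (Subgroup G)) (u : G) : Subgroup G := (s.filter (fun Q => u ∉ Q)).sup id

/-- conjugates of `u` under `T` -/
def nc (T : Subgroup G) (u : G) : Subgroup G := Subgroup.closure {x | ∃ t ∈ T, x = t * u * t⁻¹}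

/-- the subgroup to be toggled -/
noncomputable def RR (s : Finset (Subgroup G)) (u : G) : Subgroup G := q0 s u ⊔ nc (tp s) u

omit [Finite G] in
theorem nc_mono {T T' : Subgroup G} (h : T ≤ T') (u : G) : nc T u ≤ nc T' u := by
  apply Subgroup.closure_mono
  rintro x ⟨t, ht, rfl⟩
  exact ⟨t, h ht, rfl⟩

omit [Finite G] in
theorem mem_nc (T : Subgroup G) (u : G) : u ∈ nc T u := Subgroup.subset_closure ⟨1, one_mem T, by simp⟩

omit [Finite G] in
theorem mem_RR (s : Finset (Subgroup G)) (u : G) : u ∈ RR s u := Subgroup.mem_sup_right (mem_nc _ u)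

omit [Finite G] in
theorem nc_le {T Q : Subgroup G} {u : G} (hT : T ≤ Subgroup.normalizer (Q : Set G)) (hu : u ∈ Q) : nc T u ≤ Q := by
  unfold nc
  rw [Subgroup.closure_le]
  rintro x ⟨t, ht, rfl⟩
  exact (Subgroup.mem_normalizer_iff.1 (hT ht) u).1 hu

/-- normalizer of a join -/
theorem mem_normalizer_sup {A B : Subgroup G} {x : G} (hA : x ∈ Subgroup.normalizer (A : Set G))
    (hB : x ∈ Subgroup.normalizer (B : Set G)) : x ∈ Subgroup.normalizer ((A ⊔ B : Subgroup G) : Set G) := by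
  have h : ∀ C : Subgroup G, x ∈ Subgroup.normalizer (C : Set G) ↔ C.map (MulAut.conj x).toMonoidHom = C := by
    intro C
    constructor
    · intro h
      apply Subgroup.eq_of_le_of_card_ge
      · rintro _ ⟨y, hy, rfl⟩
        exact (Subgroup.mem_normalizer_iff.1 h y).1 hy
      · rw [Subgroup.card_map_of_injective (MulAut.conj x).injective]
    · intro h
      rw [Subgroup.mem_normalizer_iff]
      intro y
      constructor
      · intro hy
        rw [← h]
        exact ⟨y, hy, rfl⟩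
      · intro hy
        have hy' : x * y * x⁻¹ ∈ C := hy
        rw [← h] at hy'
        obtain ⟨z, hz, h2⟩ := hy'
        have h3 : x * z * x⁻¹ = x * y * x⁻¹ := h2
        have h4 : z = y := mul_left_cancel (mul_right_cancel h3)
        rw [← h4]; exact hz
  rw [h] at hA hB ⊢
  rw [Subgroup.map_sup, hA, hB]

theorem mem_normalizer_nc {T : Subgroup G} {u x : G} (hT : x ∈ Subgroup.normalizer (T : Set G))
    (hxu : x * u * x⁻¹ = u) : x ∈ Subgroup.normalizer (nc T u : Set G) := by
  have h1 : ∀ y ∈ nc T u, x * y * x⁻¹ ∈ nc T u := by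
    intro y hy
    have h2 : nc T u ≤ (nc T u).comap (MulAut.conj x).toMonoidHom := by
      conv_lhs => unfold nc
      rw [Subgroup.closure_le]
      rintro z ⟨t, ht, rfl⟩
      apply Subgroup.subset_closure
      refine ⟨x * t * x⁻¹, (Subgroup.mem_normalizer_iff.1 hT t).1 ht, ?_⟩
      change x * (t * u * t⁻¹) * x⁻¹ = _
      conv_rhs => rw [← hxu]
      group
    exact h2 hy
  rw [Subgroup.mem_normalizer_iff]
  intro y
  refine ⟨h1 y, ?_⟩
  intro hy
  have h3 : (nc T u).map (MulAut.conj x).toMonoidHom = nc T u := by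
    apply Subgroup.eq_of_le_of_card_ge
    · rintro _ ⟨z, hz, rfl⟩
      exact h1 z hz
    · rw [Subgroup.card_map_of_injective (MulAut.conj x).injective]
  rw [← h3] at hy
  obtain ⟨z, hz, h4⟩ := hy
  have h5 : x * z * x⁻¹ = x * y * x⁻¹ := h4
  rw [← mul_left_cancel (mul_right_cancel h5)]
  exact hz

/-- `T` normalizes its own normal closures -/
theorem le_normalizer_nc {T : Subgroup G} {u x : G} (hx : x ∈ T) : x ∈ Subgroup.normalizer (nc T u : Set G) := by
  have h1 : ∀ y ∈ nc T u, x * y * x⁻¹ ∈ nc T u := by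
    intro y hy
    have h2 : nc T u ≤ (nc T u).comap (MulAut.conj x).toMonoidHom := by
      conv_lhs => unfold nc
      rw [Subgroup.closure_le]
      rintro z ⟨t, ht, rfl⟩
      apply Subgroup.subset_closure
      refine ⟨x * t, mul_mem hx ht, ?_⟩
      change x * (t * u * t⁻¹) * x⁻¹ = _
      group
    exact h2 hy
  rw [Subgroup.mem_normalizer_iff]
  intro y
  refine ⟨h1 y, ?_⟩
  intro hy
  have h3 : (nc T u).map (MulAut.conj x).toMonoidHom = nc T u := by
    apply Subgroup.eq_of_le_of_card_ge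
    · rintro _ ⟨z, hz, rfl⟩
      exact h1 z hz
    · rw [Subgroup.card_map_of_injective (MulAut.conj x).injective]
  rw [← h3] at hy
  obtain ⟨z, hz, h4⟩ := hy
  have h5 : x * z * x⁻¹ = x * y * x⁻¹ := h4
  rw [← mul_left_cancel (mul_right_cancel h5)]
  exact hz

/-- the generation property of p-groups -/
theorem pgroup_gen [Fact p.Prime] {T A : Subgroup G} {u : G} (hT : IsPGroup p T) (hu : u ∈ T)
    (hAT : A ≤ T) (h : T ≤ A ⊔ nc T u) : T ≤ A ⊔ Subgroup.zpowers u := by
  by_contra hcon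
  set B : Subgroup T := (A ⊔ Subgroup.zpowers u).subgroupOf T with hB
  have hBne : B ≠ ⊤ := by
    intro h1
    apply hcon
    rw [hB, Subgroup.subgroupOf_eq_top] at h1
    exact h1
  obtain ⟨Mx, hMx, hBM⟩ := (eq_top_or_exists_le_coatom B).resolve_left hBne
  have hnil : Group.IsNilpotent T := hT.isNilpotent
  have hnorm : Mx.Normal := Subgroup.NormalizerCondition.normal_of_coatom Mx (Group.normalizerCondition_of_isNilpotent) hMx
  apply hMx.1
  rw [eq_top_iff]
  rintro ⟨x, hx⟩ -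
  have hx2 : x ∈ A ⊔ nc T u := h hx
  have hle : A ⊔ nc T u ≤ Mx.map T.subtype := by
    apply sup_le
    · intro a ha
      refine ⟨⟨a, hAT ha⟩, ?_, rfl⟩
      apply hBM
      rw [hB, Subgroup.mem_subgroupOf]
      exact Subgroup.mem_sup_left ha
    · unfold nc
      rw [Subgroup.closure_le]
      rintro y ⟨t, ht, rfl⟩
      refine ⟨⟨t, ht⟩ * ⟨u, hu⟩ * ⟨t, ht⟩⁻¹, ?_, rfl⟩
      apply hnorm.conj_mem
      apply hBM
      rw [hB, Subgroup.mem_subgroupOf]
      exact Subgroup.mem_sup_right (Subgroup.mem_zpowers u)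
  obtain ⟨y, hy, hyx⟩ := hle hx2
  have : y = ⟨x, hx⟩ := Subtype.ext hyx
  rw [← this]
  exact hy

end H84.KR
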