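import Cfsg.Agent.Lib.H84.KR3

/-!
# The toggling involution
-/

set_option autoImplicit false

namespace H84.KR

universe u

variable {G : Type u} [Group G] [Finite G] {p : ℕ} {s : Finset (Subgroup G)} {u : G}

open Classical in
omit [Finite G] in
theorem q0_insert {R : Subgroup G} (hR : u ∈ R) : q0 (insert R s) u = q0 s u := by
  unfold q0
  rw [Finset.filter_insert, if_neg (not_not.2 hR)]

open Classical in
omit [Finite G] in
theorem q0_erase {R : Subgroup G} (hR : u ∈ R) : q0 (s.erase R) u = q0 s u := by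
  unfold q0
  congr 1
  ext Q
  simp only [Finset.mem_filter, Finset.mem_erase]
  constructor
  · rintro ⟨⟨h1, h2⟩, h3⟩; exact ⟨h2, h3⟩
  · rintro ⟨h1, h2⟩
    refine ⟨⟨?_, h1⟩, h2⟩
    rintro rfl
    exact h2 hR

theorem q0_cases (h : IsCh p s) (u : G) : (q0 s u ∈ s ∧ u ∉ q0 s u) ∨ q0 s u = ⊥ := by
  classical
  by_cases hne : (s.filter (fun Q => u ∉ Q)).Nonempty
  · left
    have h1 := sup_mem_of_chain (s := s.filter (fun Q => u ∉ Q)) (fun A hA B hB =>
      h.chain A (Finset.mem_filter.1 hA).1 B (Finset.mem_filter.1 hB).1) hne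
    have h2 : q0 s u = (s.filter (fun Q => u ∉ Q)).sup id := by
      unfold q0
      congr
    rw [h2]
    exact Finset.mem_filter.1 h1
  · right
    unfold q0
    have h2 : (s.filter (fun Q => u ∉ Q)) = ∅ := Finset.not_nonempty_iff_eq_empty.1 hne
    convert Finset.sup_empty (f := (id : Subgroup G → Subgroup G))

theorem q0_le_tp (h : IsCh p s) : q0 s u ≤ tp s := by
  rcases q0_cases h u with h1 | h1
  · exact le_tp h1.1
  · rw [h1]; exact bot_le

omit [Finite G] in
theorem le_q0 {Q : Subgroup G} (hQ : Q ∈ s) (hu : u ∉ Q) : Q ≤ q0 s u := by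
  classical
  unfold q0
  exact Finset.le_sup (f := id) (Finset.mem_filter.2 ⟨hQ, hu⟩)

theorem q0_le (h : IsCh p s) {Q : Subgroup G} (hQ : Q ∈ s) (hu : u ∈ Q) : q0 s u ≤ Q := by
  rcases q0_cases h u with h1 | h1
  · rcases h.chain _ h1.1 Q hQ with h2 | h2
    · exact h2
    · exact absurd (h2 hu) h1.2
  · rw [h1]; exact bot_le

theorem RR_le (h : IsCh p s) {Q : Subgroup G} (hQ : Q ∈ s) (hu : u ∈ Q) : RR s u ≤ Q :=
  sup_le (q0_le h hQ hu) (nc_le (h.top_le Q hQ) hu)

theorem RR_le_sup (h : IsCh p s) : RR s u ≤ tp s ⊔ Subgroup.zpowers u := by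
  apply sup_le ((q0_le_tp h).trans le_sup_left)
  unfold nc
  rw [Subgroup.closure_le]
  rintro x ⟨t, ht, rfl⟩
  exact mul_mem (mul_mem (Subgroup.mem_sup_left ht) (Subgroup.mem_sup_right (Subgroup.mem_zpowers u)))
    (inv_mem (Subgroup.mem_sup_left ht))

theorem Ns_tp (h : IsCh p s) : Ns s ≤ Subgroup.normalizer (tp s : Set G) := by
  intro x hx
  by_cases hne : s.Nonempty
  · exact mem_Ns.1 hx _ (h.tp_mem hne)
  · rw [Finset.not_nonempty_iff_eq_empty.1 hne]
    unfold tp
    rw [Finset.sup_empty, Subgroup.mem_normalizer_iff]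
    intro y
    rw [Subgroup.mem_bot, Subgroup.mem_bot]
    constructor
    · rintro rfl; simp
    · intro h
      have : y = x⁻¹ * (x * y * x⁻¹) * x := by group
      rw [this, h]; simp

theorem Ns_q0 (h : IsCh p s) : Ns s ≤ Subgroup.normalizer (q0 s u : Set G) := by
  intro x hx
  rcases q0_cases h u with h1 | h1
  · exact mem_Ns.1 hx _ h1.1
  · rw [h1, Subgroup.mem_normalizer_iff]
    intro y
    rw [Subgroup.mem_bot, Subgroup.mem_bot]
    constructor
    · rintro rfl; simp
    · intro h
      have : y = x⁻¹ * (x * y * x⁻¹) * x := by group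
      rw [this, h]; simp

theorem sup_pgr [Fact p.Prime] (h : IsCh p s) (hu : u ∈ Ns s) (hp : ∃ k : ℕ, orderOf u = p ^ k) :
    IsPGroup p (tp s ⊔ Subgroup.zpowers u : Subgroup G) := by
  obtain ⟨k, hk⟩ := hp
  have h1 : IsPGroup p (Subgroup.zpowers u) := by
    rw [IsPGroup.iff_card]
    exact ⟨k, by rw [Nat.card_zpowers, hk]⟩
  rw [sup_comm]
  apply IsPGroup.to_sup_of_normal_right' h1 h.tp_pgr
  rw [Subgroup.zpowers_le]
  exact Ns_tp h hu

/-- elements of `N(s) ∩ C(u)` normalize `R` -/
theorem Ns_RR (h : IsCh p s) {x : G} (hx : x ∈ Ns s) (hxu : x * u * x⁻¹ = u) :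
    x ∈ Subgroup.normalizer (RR s u : Set G) :=
  mem_normalizer_sup (Ns_q0 h hx) (mem_normalizer_nc (Ns_tp h hx) hxu)

theorem tp_RR (h : IsCh p s) : tp s ≤ Subgroup.normalizer (RR s u : Set G) := by
  intro x hx
  apply mem_normalizer_sup _ (le_normalizer_nc hx)
  have hxN : x ∈ Ns s := mem_Ns.2 fun Q hQ => h.top_le Q hQ hx
  exact Ns_q0 h hxN

open Classical in
theorem isCh_insert [Fact p.Prime] (h : IsCh p s) (hu : u ∈ Ns s) (hu1 : u ≠ 1)
    (hp : ∃ k : ℕ, orderOf u = p ^ k) : IsCh p (insert (RR s u) s) := by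
  have huR := mem_RR s u
  have hcmp : ∀ Q ∈ s, Q ≤ RR s u ∨ RR s u ≤ Q := by
    intro Q hQ
    by_cases h1 : u ∈ Q
    · right; exact RR_le h hQ h1
    · left; exact (le_q0 hQ h1).trans le_sup_left
  have htp : tp (insert (RR s u) s) ≤ tp s ⊔ RR s u := by
    unfold tp
    rw [Finset.sup_insert]
    exact sup_le le_sup_right le_sup_left
  refine ⟨?_, ?_, ?_, ?_⟩
  · intro A hA B hB
    rcases Finset.mem_insert.1 hA with rfl | hA
    · rcases Finset.mem_insert.1 hB with rfl | hB
      · left; exact le_rfl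
      · exact (hcmp B hB).symm
    · rcases Finset.mem_insert.1 hB with rfl | hB
      · exact hcmp A hA
      · exact h.chain A hA B hB
  · intro A hA
    rcases Finset.mem_insert.1 hA with rfl | hA
    · intro h1
      rw [h1, Subgroup.mem_bot] at huR
      exact hu1 huR
    · exact h.ne A hA
  · intro A hA
    rcases Finset.mem_insert.1 hA with rfl | hA
    · exact (sup_pgr h hu hp).to_le (RR_le_sup h)
    · exact h.pgr A hA
  · intro A hA
    refine htp.trans ?_
    rcases Finset.mem_insert.1 hA with rfl | hA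
    · exact sup_le (tp_RR h) Subgroup.le_normalizer
    · refine sup_le (h.top_le A hA) ((RR_le_sup h).trans (sup_le (h.top_le A hA) ?_))
      rw [Subgroup.zpowers_le]
      exact mem_Ns.1 hu A hA

open Classical in
theorem isCh_erase (h : IsCh p s) (R : Subgroup G) : IsCh p (s.erase R) := by
  refine ⟨fun A hA B hB => h.chain A (Finset.mem_of_mem_erase hA) B (Finset.mem_of_mem_erase hB),
    fun A hA => h.ne A (Finset.mem_of_mem_erase hA), fun A hA => h.pgr A (Finset.mem_of_mem_erase hA), ?_⟩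
  intro A hA
  exact (Finset.sup_mono (f := id) (Finset.erase_subset _ _)).trans (h.top_le A (Finset.mem_of_mem_erase hA))

open Classical in
theorem RR_insert (h : IsCh p s) : RR (insert (RR s u) s) u = RR s u := by
  have huR := mem_RR s u
  change q0 (insert (RR s u) s) u ⊔ nc (tp (insert (RR s u) s)) u = RR s u
  rw [q0_insert huR]
  apply le_antisymm
  · apply sup_le le_sup_left
    apply nc_le _ huR
    unfold tp
    rw [Finset.sup_insert]
    exact sup_le Subgroup.le_normalizer (tp_RR h)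
  · apply sup_le_sup_left
    apply nc_mono
    exact Finset.sup_mono (f := id) (Finset.subset_insert _ _)

open Classical in
theorem RR_erase [Fact p.Prime] (h : IsCh p s) (hR : RR s u ∈ s) : RR (s.erase (RR s u)) u = RR s u := by
  have huR := mem_RR s u
  have hne : s.Nonempty := ⟨_, hR⟩
  have htop := h.tp_mem hne
  by_cases hcase : RR s u = tp s
  · -- all other members do not contain `u`
    have h1 : q0 s u ⊔ nc (tp s) u = tp s := hcase
    have h2 := pgroup_gen (p := p) (u := u) (A := q0 s u) (T := tp s) h.tp_pgr (by rw [← hcase]; exact huR)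
      (q0_le_tp h) h1.ge
    apply le_antisymm
    · change q0 (s.erase (RR s u)) u ⊔ nc (tp (s.erase (RR s u))) u ≤ RR s u
      rw [q0_erase huR]
      apply sup_le_sup_left
      apply nc_mono
      exact Finset.sup_mono (f := id) (Finset.erase_subset _ _)
    · rw [hcase]
      change tp s ≤ q0 (s.erase (tp s)) u ⊔ nc (tp (s.erase (tp s))) u
      rw [q0_erase (by rw [← hcase]; exact huR)]
      refine h2.trans (sup_le_sup_left ?_ _)
      rw [Subgroup.zpowers_le]
      exact mem_nc _ u
  · have h3 : tp (s.erase (RR s u)) = tp s := by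
      apply le_antisymm (Finset.sup_mono (f := id) (Finset.erase_subset _ _))
      exact le_tp (Finset.mem_erase.2 ⟨fun h => hcase h.symm, htop⟩)
    change q0 (s.erase (RR s u)) u ⊔ nc (tp (s.erase (RR s u))) u = RR s u
    rw [q0_erase huR, h3]
    rfl

open Classical in
theorem Ns_insert (h : IsCh p s) :
    Ns (insert (RR s u) s) ⊓ Subgroup.centralizer ({u} : Set G) = Ns s ⊓ Subgroup.centralizer ({u} : Set G) := by
  ext x
  rw [Subgroup.mem_inf, Subgroup.mem_inf, Subgroup.mem_centralizer_singleton_iff]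
  constructor
  · rintro ⟨h1, h2⟩
    exact ⟨mem_Ns.2 fun Q hQ => mem_Ns.1 h1 Q (Finset.mem_insert_of_mem hQ), h2⟩
  · rintro ⟨h1, h2⟩
    refine ⟨mem_Ns.2 fun Q hQ => ?_, h2⟩
    rcases Finset.mem_insert.1 hQ with rfl | hQ
    · apply Ns_RR h h1
      rw [h2]; group
    · exact mem_Ns.1 h1 Q hQ

open Classical in
/-- the involution -/
noncomputable def tog (u : G) (s : Finset (Subgroup G)) : Finset (Subgroup G) :=
  if RR s u ∈ s then s.erase (RR s u) else insert (RR s u) s

open Classical in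
theorem tog_tog [Fact p.Prime] (h : IsCh p s) : tog u (tog u s) = s := by
  by_cases hR : RR s u ∈ s
  · have h1 : tog u s = s.erase (RR s u) := if_pos hR
    rw [h1]
    unfold tog
    rw [RR_erase h hR, if_neg (Finset.notMem_erase _ _), Finset.insert_erase hR]
  · have h1 : tog u s = insert (RR s u) s := if_neg hR
    rw [h1]
    unfold tog
    rw [RR_insert h, if_pos (Finset.mem_insert_self _ _), Finset.erase_insert hR]

theorem tog_isCh [Fact p.Prime] (h : IsCh p s) (hu : u ∈ Ns s) (hu1 : u ≠ 1)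
    (hp : ∃ k : ℕ, orderOf u = p ^ k) : IsCh p (tog u s) := by
  classical
  unfold tog
  split_ifs with hR
  · exact isCh_erase h _
  · exact isCh_insert h hu hu1 hp

theorem tog_Ns [Fact p.Prime] (h : IsCh p s) :
    Ns (tog u s) ⊓ Subgroup.centralizer ({u} : Set G) = Ns s ⊓ Subgroup.centralizer ({u} : Set G) := by
  classical
  by_cases hR : RR s u ∈ s
  · have h1 : tog u s = s.erase (RR s u) := if_pos hR
    have h2 := isCh_erase h (RR s u)
    have h3 := Ns_insert (u := u) h2
    rw [RR_erase h hR, Finset.insert_erase hR] at h3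
    rw [h1]
    exact h3.symm
  · have h1 : tog u s = insert (RR s u) s := if_neg hR
    rw [h1]
    exact Ns_insert h

theorem tog_mem [Fact p.Prime] (h : IsCh p s) (hu : u ∈ Ns s) : u ∈ Ns (tog u s) := by
  have h1 : u ∈ Ns s ⊓ Subgroup.centralizer ({u} : Set G) :=
    ⟨hu, Subgroup.mem_centralizer_singleton_iff.2 rfl⟩
  rw [← tog_Ns h] at h1
  exact h1.1

theorem tog_sign (u : G) (s : Finset (Subgroup G)) : (-1 : ℤ) ^ (tog u s).card = -(-1 : ℤ) ^ s.card := by
  classical
  unfold tog
  split_ifs with hR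
  · rw [Finset.card_erase_of_mem hR]
    have : 0 < s.card := Finset.card_pos.2 ⟨_, hR⟩
    obtain ⟨n, hn⟩ := Nat.exists_eq_succ_of_ne_zero this.ne'
    rw [hn]
    simp [pow_succ]
  · rw [Finset.card_insert_of_notMem hR, pow_succ]
    ring

theorem tog_ne (u : G) (s : Finset (Subgroup G)) : tog u s ≠ s := by
  intro h
  have h1 := tog_sign u s
  rw [h] at h1
  have h2 : (-1 : ℤ) ^ s.card ≠ 0 := by
    apply pow_ne_zero
    norm_num
  omega

open Classical in
/-- cancellation -/
theorem sum_chains [Fact p.Prime] (hu1 : u ≠ 1) (hp : ∃ k : ℕ, orderOf u = p ^ k)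
    [Fintype (Finset (Subgroup G))] (g : Subgroup G → ℤ) :
    ∑ s ∈ (Finset.univ : Finset (Finset (Subgroup G))).filter (fun s => IsCh p s ∧ u ∈ Ns s),
      (-1 : ℤ) ^ s.card * g (Ns s ⊓ Subgroup.centralizer ({u} : Set G)) = 0 := by
  apply Finset.sum_involution (fun s _ => tog u s)
  · intro s hs
    obtain ⟨-, h1, h2⟩ := Finset.mem_filter.1 hs
    rw [tog_sign, tog_Ns h1]
    ring
  · intro s _ _
    exact tog_ne u s
  · intro s hs
    obtain ⟨-, h1, h2⟩ := Finset.mem_filter.1 hs
    exact Finset.mem_filter.2 ⟨Finset.mem_univ _, tog_isCh h1 h2 hu1 hp, tog_mem h1 h2⟩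
  · intro s hs
    obtain ⟨-, h1, h2⟩ := Finset.mem_filter.1 hs
    exact tog_tog h1

end H84.KR
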