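import Cfsg.Agent.Lib.H77.Blich60

/-!
Elements with two eigenvalues, less than 60 degrees apart.
-/

set_option autoImplicit false
set_option linter.unusedSectionVars false

namespace H84.LG2

open H77.Blich60 Matrix
open scoped Matrix.Norms.L2Operator ComplexOrder

theorem sum_pow_root {p : ℕ} {ν : ℂ} (h : ν ^ p = 1) (h1 : ν ≠ 1) : ∑ j ∈ Finset.range p, ν ^ j = 0 := by
  have h2 := mul_neg_geom_sum ν p
  rw [h, sub_self] at h2
  rcases mul_eq_zero.1 h2 with h3 | h3
  · exact absurd (sub_eq_zero.1 h3).symm h1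
  · exact h3

variable {n : ℕ}

theorem eq_zero_of_idem {F : Matrix (Fin n) (Fin n) ℂ} (h1 : F * F = F) (h2 : star F = F) (h3 : F.trace = 0) :
    F = 0 := by
  have h4 : (Fᴴ * F).trace = 0 := by
    rw [← Matrix.star_eq_conjTranspose, h2, h1, h3]
  exact Matrix.trace_conjTranspose_mul_self_eq_zero_iff.1 h4

theorem decomp {p : ℕ} (hp : p ≠ 0) {X : Matrix (Fin n) (Fin n) ℂ} (hX : X ^ p = 1) (hXu : star X * X = 1)
    {ω : ℂ} (hω : ω ^ p = 1) (hω1 : ω ≠ 1) {a b : ℂ} (htr : ∀ k : ℕ, (X ^ k).trace = a + b * ω ^ k) :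
    ∃ E : Matrix (Fin n) (Fin n) ℂ, E * E = E ∧ star E = E ∧ X = pr p X + ω • E ∧ pr p X + E = 1 := by
  have hω0 : ω ≠ 0 := by
    rintro rfl
    rw [zero_pow hp] at hω
    exact zero_ne_one hω
  have hωn : ‖ω‖ = 1 := Complex.norm_eq_one_of_pow_eq_one hω hp
  have hp0 : (p : ℂ) ≠ 0 := by exact_mod_cast hp
  set Y := ω⁻¹ • X with hY
  have hYp : Y ^ p = 1 := by rw [hY, smul_pow, hX, inv_pow, hω, inv_one, one_smul]
  have hYu : star Y * Y = 1 := by
    rw [hY, star_smul, smul_mul_smul_comm]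
    have h2 : star ω⁻¹ * ω⁻¹ = 1 := by
      have h3 : star ω⁻¹ * ω⁻¹ = ((‖ω⁻¹‖ ^ 2 : ℝ) : ℂ) := by
        rw [← Complex.normSq_eq_norm_sq, Complex.normSq_eq_conj_mul_self]
        rfl
      rw [h3, norm_inv, hωn]
      simp
    rw [hXu, h2, one_smul]
  set E1 := pr p X with hE1
  set E := pr p Y with hE
  have h1 : E1 * E1 = E1 := pr_idem hp hX
  have h1s : star E1 = E1 := pr_star hp hX hXu
  have h2 : E * E = E := pr_idem hp hYp
  have h2s : star E = E := pr_star hp hYp hYu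
  have hXE1 : X * E1 = E1 := mul_pr hX
  have hXE : X * E = ω • E := by
    have h3 := mul_pr hYp
    rw [← hE, hY, smul_mul_assoc] at h3
    have h4 : ω • (ω⁻¹ • (X * E)) = ω • E := by rw [h3]
    rwa [smul_smul, mul_inv_cancel₀ hω0, one_smul] at h4
  have hcE1 : Commute X E1 := pr_commute (Commute.refl X)
  have hcE : Commute E1 E := by
    apply pr_commute
    exact (hcE1.symm).smul_right _
  have hzero : E1 * E = 0 := by
    have h3 : E1 * E = ω • (E1 * E) := by
      calc E1 * E = (X * E1) * E := by rw [hXE1]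
        _ = (E1 * X) * E := by rw [hcE1.eq]
        _ = E1 * (X * E) := by rw [mul_assoc]
        _ = ω • (E1 * E) := by rw [hXE, mul_smul_comm]
    have h4 : (1 - ω) • (E1 * E) = 0 := by rw [sub_smul, one_smul, ← h3, sub_self]
    rcases smul_eq_zero.1 h4 with h5 | h5
    · exact absurd (sub_eq_zero.1 h5).symm hω1
    · exact h5
  have hzero' : E * E1 = 0 := by rw [← hcE.eq]; exact hzero
  have ht1 : E1.trace = a := by
    rw [hE1, pr, Matrix.trace_smul, Matrix.trace_sum, Finset.sum_congr rfl (fun k _ => htr k), Finset.sum_add_distrib,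
      Finset.sum_const, Finset.card_range, ← Finset.mul_sum, sum_pow_root hω hω1, mul_zero, add_zero, nsmul_eq_mul,
      smul_eq_mul]
    field_simp
  have ht2 : E.trace = b := by
    have h3 : ∀ k : ℕ, (Y ^ k).trace = a * (ω⁻¹) ^ k + b := by
      intro k
      rw [hY, smul_pow, Matrix.trace_smul, htr k, smul_eq_mul, mul_add]
      have h4 : ω⁻¹ ^ k * (b * ω ^ k) = b := by
        rw [mul_left_comm, ← mul_pow, inv_mul_cancel₀ hω0, one_pow, mul_one]
      rw [h4, mul_comm]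
    have hinv : ω⁻¹ ^ p = 1 := by rw [inv_pow, hω, inv_one]
    have hinv1 : ω⁻¹ ≠ 1 := fun h => hω1 (by rw [← inv_inv ω, h, inv_one])
    rw [hE, pr, Matrix.trace_smul, Matrix.trace_sum, Finset.sum_congr rfl (fun k _ => h3 k), Finset.sum_add_distrib,
      Finset.sum_const, Finset.card_range, ← Finset.mul_sum, sum_pow_root hinv hinv1, mul_zero, zero_add, nsmul_eq_mul,
      smul_eq_mul]
    field_simp
  have hn : ((1 : Matrix (Fin n) (Fin n) ℂ)).trace = a + b := by
    have := htr 0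
    rwa [pow_zero, pow_zero, mul_one] at this
  have hF : 1 - E1 - E = 0 := by
    apply eq_zero_of_idem
    · simp only [sub_mul, mul_sub, one_mul, mul_one, h1, h2, hzero, hzero', sub_zero]
      abel
    · rw [star_sub, star_sub, star_one, h1s, h2s]
    · rw [Matrix.trace_sub, Matrix.trace_sub, hn, ht1, ht2]; ring
  have hsum : E1 + E = 1 := by
    have : 1 - (E1 + E) = 0 := by rw [← hF]; abel
    exact (sub_eq_zero.1 this).symm
  refine ⟨E, h2, h2s, ?_, hsum⟩
  calc X = X * (E1 + E) := by rw [hsum, mul_one]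
    _ = E1 + ω • E := by rw [mul_add, hXE1, hXE]

theorem commute_conj_two {G : Type*} [Group G] [Finite G] (R : G →* Matrix (Fin n) (Fin n) ℂ) {p : ℕ} (hp : p ≠ 0)
    {z : G} (hz : z ^ p = 1) {ω : ℂ} (hω : ω ^ p = 1) (hω1 : ω ≠ 1) (hω2 : ‖ω - 1‖ < 1) {a b : ℂ}
    (htr : ∀ k : ℕ, (R (z ^ k)).trace = a + b * ω ^ k) (s : G) : Commute (R (s⁻¹ * z * s)) (R z) := by
  classical
  rcases Nat.eq_zero_or_pos n with hn0 | hn0
  · subst hn0
    exact Subsingleton.elim _ _
  haveI : NeZero n := ⟨hn0.ne'⟩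
  obtain ⟨A, hA, hAU⟩ := H77.Unitary.exists_unitary_conj R
  have hdet : IsUnit A.det := (Matrix.isUnit_iff_isUnit_det _).mp hA
  have hA1 : A⁻¹ * A = 1 := Matrix.nonsing_inv_mul _ hdet
  have hA2 : A * A⁻¹ = 1 := Matrix.mul_nonsing_inv _ hdet
  let U : G →* Matrix (Fin n) (Fin n) ℂ :=
    { toFun := fun g => A * R g * A⁻¹
      map_one' := by rw [map_one, mul_one, hA2]
      map_mul' := fun g h => by
        show A * R (g * h) * A⁻¹ = (A * R g * A⁻¹) * (A * R h * A⁻¹)
        rw [map_mul]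
        calc A * (R g * R h) * A⁻¹ = A * R g * 1 * R h * A⁻¹ := by simp only [mul_assoc, one_mul]
          _ = A * R g * (A⁻¹ * A) * R h * A⁻¹ := by rw [hA1]
          _ = (A * R g * A⁻¹) * (A * R h * A⁻¹) := by simp only [mul_assoc] }
  have hUdef : ∀ g, U g = A * R g * A⁻¹ := fun g => rfl
  have hU : ∀ g, U g ∈ Matrix.unitaryGroup (Fin n) ℂ := hAU
  have htrU : ∀ k : ℕ, ((U z) ^ k).trace = a + b * ω ^ k := by
    intro k
    rw [← map_pow, hUdef, Matrix.trace_mul_comm, ← mul_assoc, hA1, one_mul, htr k]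
  have hUp : (U z) ^ p = 1 := by rw [← map_pow, hz, map_one]
  have hUu : star (U z) * U z = 1 := Unitary.star_mul_self_of_mem (hU z)
  obtain ⟨E, h1, h2, h3, h4⟩ := decomp hp hUp hUu hω hω1 htrU
  have hr : ‖U z - algebraMap ℂ _ 1‖ < 1 := by
    have h5 : U z - algebraMap ℂ _ 1 = (ω - 1) • E := by
      calc U z - algebraMap ℂ _ 1 = (pr p (U z) + ω • E) - (pr p (U z) + E) := by rw [h4, ← h3, map_one]
        _ = (ω - 1) • E := by rw [sub_smul, one_smul]; abel
    rw [h5]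
    calc ‖(ω - 1) • E‖ ≤ ‖ω - 1‖ * ‖E‖ := norm_smul_le _ _
      _ ≤ ‖ω - 1‖ * 1 := mul_le_mul_of_nonneg_left (norm_idem_le h1 h2) (norm_nonneg _)
      _ < 1 := by rw [mul_one]; exact hω2
  have hc := commute_conj U hU (pr_idem hp hUp) (pr_star hp hUp hUu) (g := z) (ε := 1)
    (by rw [one_smul]; exact mul_pr hUp) hr (fun Y hY => pr_commute hY) s
  have hc2 : Commute (U (s⁻¹ * z * s)) (U z) := by
    have h5 : U z = pr p (U z) + ω • (1 - pr p (U z)) := by
      have h6 : E = 1 - pr p (U z) := by rw [← h4]; abel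
      rw [← h6]; exact h3
    rw [h5]
    exact hc.add_right (((Commute.one_right _).sub_right hc).smul_right ω)
  -- back
  have hback : ∀ g, R g = A⁻¹ * U g * A := by
    intro g
    rw [hUdef]
    calc R g = (A⁻¹ * A) * R g * (A⁻¹ * A) := by rw [hA1, one_mul, mul_one]
      _ = _ := by simp only [mul_assoc]
  show R _ * R _ = R _ * R _
  rw [hback, hback z]
  have e : ∀ M N : Matrix (Fin n) (Fin n) ℂ, (A⁻¹ * M * A) * (A⁻¹ * N * A) = A⁻¹ * (M * N) * A := by
    intro M N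
    calc (A⁻¹ * M * A) * (A⁻¹ * N * A) = A⁻¹ * M * (A * A⁻¹) * N * A := by simp only [mul_assoc]
      _ = _ := by rw [hA2, mul_one]; simp only [mul_assoc]
  rw [e, e, hc2.eq]

end H84.LG2
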