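import Cfsg.Agent.Lib.H84.LG1
import Cfsg.Agent.Lib.H84.LG2
import Cfsg.Agent.Lib.H31.Clifford
import Cfsg.Agent.Lib.H1.Cores

/-!
Linear groups of degree less than `2 p` with non-abelian Sylow `p`-subgroups.
-/

set_option autoImplicit false

namespace H84.LG3

open Cfsg H18.CharBasic H18.CharOrtho H18.CharQuot H84.CharMisc H84.LG1 H84.LG2 H31.Clifford
open scoped commutatorElement

universe u

/-- The restriction of `χ` to an abelian normal subgroup with an element of order `p` having two
eigenvalues of multiplicities `p` and `m`, `0 < m < p`, is multiplicity free. -/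
theorem mult_free {G : Type u} [Group G] [Fintype G] {p m : ℕ} [hp : Fact p.Prime] (hm0 : 0 < m) (hmp : m < p)
    {χ : G → ℂ} (hχ : IsIrrCharacter G χ) (N : Subgroup G) [N.Normal] [Fintype N]
    (hab : ∀ a b : N, a * b = b * a) (z : N) (hz : z ^ p = 1) {ε : ℂ} (hε : ε ^ p = 1) (hε1 : ε ≠ 1)
    (hval : ∀ k : ℕ, χ ((z : G) ^ k) = m + p * ε ^ k) {θ : N → ℂ} (hθ : IsIrrCharacter N θ)
    (hne : classInner (fun h : N => χ h) θ ≠ 0) : classInner (fun h : N => χ h) θ = 1 := by
  classical
  have hp0 : (p : ℂ) ≠ 0 := by exact_mod_cast hp.out.ne_zero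
  have hε0 : ε ≠ 0 := by
    rintro rfl
    rw [zero_pow hp.out.ne_zero] at hε
    exact zero_ne_one hε
  obtain ⟨e, he⟩ := inner_char_natCast (isCharacter_restrict N (isCharacter_of_isIrr hχ)) (isCharacter_of_isIrr hθ)
  have hres := restrict_eq N hχ hθ hne
  rw [he] at hres
  have hfv : ∀ k : ℕ, (m : ℂ) + p * ε ^ k = e * ∑ φ ∈ orb N θ, (φ z) ^ k := by
    intro k
    have h1 := congrFun hres (z ^ k)
    rw [Subgroup.coe_pow, hval k] at h1
    rw [h1, Pi.smul_apply, Finset.sum_apply, smul_eq_mul]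
    congr 1
    refine Finset.sum_congr rfl fun φ hφ => ?_
    obtain ⟨f, hf⟩ := exists_hom_of_degree_one (isCharacter_of_isIrr (irr_of_mem_orb N hθ hφ))
      (degree_one_of_comm hab (irr_of_mem_orb N hθ hφ))
    rw [hf]
    simp only [map_pow, Units.val_pow_eq_pow_val]
  have hroot : ∀ φ ∈ orb N θ, (φ z) ^ p = 1 := by
    intro φ hφ
    obtain ⟨f, hf⟩ := exists_hom_of_degree_one (isCharacter_of_isIrr (irr_of_mem_orb N hθ hφ))
      (degree_one_of_comm hab (irr_of_mem_orb N hθ hφ))
    rw [hf]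
    simp only
    rw [← Units.val_pow_eq_pow_val, ← map_pow, hz, map_one, Units.val_one]
  -- multiplicities
  have hmul : ∀ μ : ℂ, μ ^ p = 1 → ∑ k ∈ Finset.range p, (μ⁻¹) ^ k * ((m : ℂ) + p * ε ^ k) =
      (p * (e * ((orb N θ).filter fun φ => φ z = μ).card : ℕ) : ℂ) := by
    intro μ hμ
    have hμ0 : μ ≠ 0 := by
      rintro rfl
      rw [zero_pow hp.out.ne_zero] at hμ
      exact zero_ne_one hμ
    have h1 : ∀ k ∈ Finset.range p, (μ⁻¹) ^ k * ((m : ℂ) + p * ε ^ k) =
        e * ∑ φ ∈ orb N θ, (μ⁻¹ * φ z) ^ k := by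
      intro k _
      rw [hfv k, mul_left_comm, Finset.mul_sum]
      congr 1
      exact Finset.sum_congr rfl fun φ _ => by rw [mul_pow]
    rw [Finset.sum_congr rfl h1, ← Finset.mul_sum, Finset.sum_comm]
    have h2 : ∀ φ ∈ orb N θ, ∑ k ∈ Finset.range p, (μ⁻¹ * φ z) ^ k = if φ z = μ then (p : ℂ) else 0 := by
      intro φ hφ
      split_ifs with h
      · rw [h, inv_mul_cancel₀ hμ0]
        simp
      · apply sum_pow_root
        · rw [mul_pow, hroot φ hφ, inv_pow, hμ, inv_one, mul_one]
        · intro h3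
          apply h
          have := congrArg (μ * ·) h3
          simpa [mul_inv_cancel_left₀ hμ0] using this
    rw [Finset.sum_congr rfl h2, ← Finset.sum_filter, Finset.sum_const, nsmul_eq_mul]
    push_cast
    ring
  -- for `μ = ε`
  have hA : e * ((orb N θ).filter fun φ => φ z = ε).card = p := by
    have h1 := hmul ε hε
    have hinv : ε⁻¹ ^ p = 1 := by rw [inv_pow, hε, inv_one]
    have hinv1 : ε⁻¹ ≠ 1 := fun h => hε1 (by rw [← inv_inv ε, h, inv_one])
    have h2 : ∀ k ∈ Finset.range p, (ε⁻¹) ^ k * ((m : ℂ) + p * ε ^ k) = m * (ε⁻¹) ^ k + p := by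
      intro k _
      have : ε⁻¹ ^ k * ε ^ k = 1 := by rw [← mul_pow, inv_mul_cancel₀ hε0, one_pow]
      linear_combination (p : ℂ) * this
    rw [Finset.sum_congr rfl h2, Finset.sum_add_distrib, ← Finset.mul_sum, sum_pow_root hinv hinv1, mul_zero, zero_add,
      Finset.sum_const, Finset.card_range, nsmul_eq_mul] at h1
    have h3 := mul_left_cancel₀ hp0 h1
    exact_mod_cast h3.symm
  have hB : e * ((orb N θ).filter fun φ => φ z = 1).card = m := by
    have h1 := hmul 1 (one_pow p)
    have h2 : ∀ k ∈ Finset.range p, ((1 : ℂ)⁻¹) ^ k * ((m : ℂ) + p * ε ^ k) = m + p * ε ^ k := by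
      intro k _
      rw [inv_one, one_pow, one_mul]
    rw [Finset.sum_congr rfl h2, Finset.sum_add_distrib, ← Finset.mul_sum, sum_pow_root hε hε1, mul_zero, add_zero,
      Finset.sum_const, Finset.card_range, nsmul_eq_mul] at h1
    have h3 := mul_left_cancel₀ hp0 h1
    exact_mod_cast h3.symm
  have he1 : e = 1 := by
    rcases (Nat.dvd_prime hp.out).1 (Dvd.intro _ hA : e ∣ p) with h | h
    · exact h
    · have h1 : e ∣ m := Dvd.intro _ hB
      have := Nat.le_of_dvd hm0 h1
      omega
  rw [he, he1]; simp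

/-- `G` modulo the kernel of its action on the constituents of the restriction. -/
theorem index_dvd {G : Type u} [Group G] [Fintype G] {χ : G → ℂ} (hχ : IsIrrCharacter G χ)
    (hfaith : ∀ x, χ x = χ 1 → x = 1) (N : Subgroup G) [N.Normal] [Fintype N]
    (hab : ∀ a b : N, a * b = b * a) {θ : N → ℂ} (hθ : IsIrrCharacter N θ)
    (hne : classInner (fun h : N => χ h) θ ≠ 0) :
    (Subgroup.centralizer (N : Set G)).index ∣ Nat.factorial (orb N θ).card := by
  classical
  have hmem : ∀ (g : G) (φ : N → ℂ), φ ∈ orb N θ → conjFunN N g φ ∈ orb N θ := by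
    intro g φ hφ
    obtain ⟨a, rfl⟩ := (mem_orb N).1 hφ
    rw [cj_mul]
    exact (mem_orb N).2 ⟨a * g, rfl⟩
  let f : G →* Equiv.Perm (orb N θ) :=
    { toFun := fun g =>
        { toFun := fun φ => ⟨conjFunN N g⁻¹ φ.1, hmem _ _ φ.2⟩
          invFun := fun φ => ⟨conjFunN N g φ.1, hmem _ _ φ.2⟩
          left_inv := fun φ => Subtype.ext (by
            change conjFunN N g (conjFunN N g⁻¹ φ.1) = φ.1
            rw [cj_mul, inv_mul_cancel, cj_one])
          right_inv := fun φ => Subtype.ext (by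
            change conjFunN N g⁻¹ (conjFunN N g φ.1) = φ.1
            rw [cj_mul, mul_inv_cancel, cj_one]) }
      map_one' := by
        ext φ : 2
        change conjFunN N 1⁻¹ φ.1 = φ.1
        rw [inv_one, cj_one]
      map_mul' := fun g h => by
        ext φ : 2
        change conjFunN N (g * h)⁻¹ φ.1 = conjFunN N g⁻¹ (conjFunN N h⁻¹ φ.1)
        rw [cj_mul, mul_inv_rev] }
  have hker : f.ker ≤ Subgroup.centralizer (N : Set G) := by
    intro g hg
    rw [MonoidHom.mem_ker] at hg
    have hfix : ∀ φ ∈ orb N θ, conjFunN N g φ = φ := by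
      intro φ hφ
      have h1 := congrArg (fun σ : Equiv.Perm (orb N θ) => ((σ.symm ⟨φ, hφ⟩ : orb N θ) : N → ℂ)) hg
      exact h1
    rw [Subgroup.mem_centralizer_iff]
    intro x hx
    -- `g x g⁻¹ x⁻¹` is in the kernel
    have hxN : g * x * g⁻¹ * x⁻¹ ∈ N := N.mul_mem (Subgroup.Normal.conj_mem inferInstance x hx g) (N.inv_mem hx)
    have h1 : χ (g * x * g⁻¹ * x⁻¹) = χ 1 := by
      have hres := restrict_eq N hχ hθ hne
      have h2 := congrFun hres ⟨g * x * g⁻¹ * x⁻¹, hxN⟩
      have h3 := congrFun hres 1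
      simp only [Pi.smul_apply, Finset.sum_apply, OneMemClass.coe_one] at h2 h3
      rw [h2, h3]
      congr 1
      refine Finset.sum_congr rfl fun φ hφ => ?_
      obtain ⟨l, hl⟩ := exists_hom_of_degree_one (isCharacter_of_isIrr (irr_of_mem_orb N hθ hφ))
        (degree_one_of_comm hab (irr_of_mem_orb N hθ hφ))
      have h4 := congrFun (hfix φ hφ) ⟨x, hx⟩
      rw [cj_apply, hl] at h4
      simp only at h4
      have h5 : l ⟨g * x * g⁻¹, Subgroup.Normal.conj_mem inferInstance x hx g⟩ = l ⟨x, hx⟩ := Units.ext h4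
      have h6 : (⟨g * x * g⁻¹ * x⁻¹, hxN⟩ : N) =
          ⟨g * x * g⁻¹, Subgroup.Normal.conj_mem inferInstance x hx g⟩ * (⟨x, hx⟩ : N)⁻¹ := rfl
      rw [hl]
      simp only
      rw [h6, map_mul, map_inv, h5, mul_inv_cancel, map_one]
    have h2 := hfaith _ h1
    have h3 : g * x * g⁻¹ = x := mul_inv_eq_one.1 h2
    rw [← mul_inv_eq_iff_eq_mul.1 h3]
  have h1 : (Subgroup.centralizer (N : Set G)).index ∣ f.ker.index := Subgroup.index_dvd_of_le hker
  have h2 : f.ker.index ∣ Nat.card (Equiv.Perm (orb N θ)) := by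
    rw [Subgroup.index_ker]
    exact Subgroup.card_subgroup_dvd_card _
  have h3 : Nat.card (Equiv.Perm (orb N θ)) = Nat.factorial (orb N θ).card := by
    rw [Nat.card_eq_fintype_card, Fintype.card_perm, Fintype.card_coe]
  rw [← h3]
  exact h1.trans h2

/-- The centralizer of a multiplicity free subgroup is abelian. -/
theorem cent_comm {G : Type u} [Group G] [Fintype G] {χ : G → ℂ} (hχ : IsIrrCharacter G χ)
    (hfaith : ∀ x, χ x = χ 1 → x = 1) (N : Subgroup G) [N.Normal] [Fintype N]
    (hab : ∀ a b : N, a * b = b * a) {θ : N → ℂ} (hθ : IsIrrCharacter N θ)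
    (hne : classInner (fun h : N => χ h) θ = 1) :
    ∀ x ∈ Subgroup.centralizer (N : Set G), ∀ y ∈ Subgroup.centralizer (N : Set G), x * y = y * x := by
  classical
  set C := Subgroup.centralizer (N : Set G) with hC
  have := Fintype.ofFinite C
  have hNC : N ≤ C := by
    intro x hx
    rw [hC, Subgroup.mem_centralizer_iff]
    intro y hy
    exact congrArg Subtype.val (hab ⟨y, hy⟩ ⟨x, hx⟩)
  have hχC : IsCharacter C (fun x : C => χ x) := isCharacter_restrict C (isCharacter_of_isIrr hχ)
  have hlin := ker_of_linear hχC (fun ψ hψ hne2 => by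
    have hne2' : classInner (fun x : C => χ x) ψ ≠ 0 := hne2
    obtain ⟨d, hd0, hd⟩ := exists_degree_pos hψ
    -- the central character
    obtain ⟨φ, hφ, hφ2⟩ : ∃ φ : N → ℂ, IsIrrCharacter N φ ∧ resH hNC ψ = (d : ℂ) • φ := by
      obtain ⟨m, ρ, hρ, rfl⟩ := hψ
      have hcen : ∀ x : N, ∃ c : ℂ, ρ ⟨x, hNC x.2⟩ = c • (LinearMap.id : (Fin m → ℂ) →ₗ[ℂ] (Fin m → ℂ)) := by
        intro x
        apply H4.CenterIndex.exists_scalar_of_center ρ hρ
        rw [Subgroup.mem_center_iff]
        intro y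
        apply Subtype.ext
        have := Subgroup.mem_centralizer_iff.1 y.2 (x : G) x.2
        exact this.symm
      choose c hc using hcen
      have hm : (m : ℂ) = d := by rw [← hd, Representation.char_one]; simp
      have hm' : m = d := by exact_mod_cast hm
      have hcv : ∀ x : N, ρ.character ⟨x, hNC x.2⟩ = c x * d := by
        intro x
        unfold Representation.character
        rw [hc x, map_smul, smul_eq_mul]
        congr 1
        rw [← hd]
        unfold Representation.character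
        rw [map_one]
        rfl
      have hone : ((LinearMap.id : (Fin m → ℂ) →ₗ[ℂ] (Fin m → ℂ))) ≠ 0 := by
        intro h
        have h1 := LinearMap.congr_fun h (fun _ => 1)
        have h2 := congrFun h1 ⟨0, by omega⟩
        simp at h2
      have hcm : ∀ x y : N, c (x * y) = c x * c y := by
        intro x y
        have h1 : ρ ⟨(x * y : N), hNC (x * y).2⟩ = ρ ⟨x, hNC x.2⟩ * ρ ⟨y, hNC y.2⟩ := by
          rw [← map_mul]; rfl
        rw [hc, hc, hc] at h1
        have h2 : (c (x * y)) • (LinearMap.id : (Fin m → ℂ) →ₗ[ℂ] (Fin m → ℂ)) = (c x * c y) • LinearMap.id := by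
          rw [h1, smul_mul_smul_comm]
          rfl
        exact smul_left_injective ℂ hone h2
      have hc1 : c 1 = 1 := by
        have h1 := hc 1
        have h2 : ρ ⟨((1 : N) : G), hNC (1 : N).2⟩ = 1 := by
          have : (⟨((1 : N) : G), hNC (1 : N).2⟩ : C) = 1 := rfl
          rw [this, map_one]
        rw [h2] at h1
        have h3 : (1 : ℂ) • (LinearMap.id : (Fin m → ℂ) →ₗ[ℂ] (Fin m → ℂ)) = c 1 • LinearMap.id := by
          rw [← h1, one_smul]; rfl
        exact (smul_left_injective ℂ hone h3).symm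
      let f : N →* ℂ := { toFun := c, map_one' := hc1, map_mul' := hcm }
      have hf : IsCharacter N c := by
        have h1 := isCharacter_of_isIrr (isIrr_of_degree_one (G := N) (χ := fun x => ((f.toHomUnits x : ℂˣ) : ℂ))
          ((linear_iff).2 ⟨f.toHomUnits, rfl⟩).1 (by simp))
        exact h1
      refine ⟨c, isIrr_of_degree_one hf hc1, ?_⟩
      funext x
      rw [resH_apply, hcv x, Pi.smul_apply, smul_eq_mul, mul_comm]
    -- multiplicity
    have h1 := isCharacter_sub_constituent hχC hψ hne2'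
    have h2 : IsCharacter N (resH hNC ((fun x : C => χ x) - ψ)) := isCharacter_resH N C hNC h1
    obtain ⟨k, hk⟩ := inner_char_natCast h2 (isCharacter_of_isIrr hφ)
    have h3 : (fun x : N => χ x) = (d : ℂ) • φ + resH hNC ((fun x : C => χ x) - ψ) := by
      rw [← hφ2]
      funext x
      simp only [Pi.add_apply, resH_apply, Pi.sub_apply]
      ring
    have h4 : classInner (fun x : N => χ x) φ = (d : ℂ) + k := by
      rw [h3, H18.CharOrtho.inner_add_left, H18.CharOrtho.inner_smul_left, inner_irr_self hφ, mul_one, hk]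
    have h5 : classInner (fun x : N => χ x) φ ≠ 0 := by
      rw [h4]
      exact_mod_cast (by omega : d + k ≠ 0)
    obtain ⟨g, hg⟩ := constituents_conj N hχ hθ hφ (by rw [hne]; exact one_ne_zero) h5
    rw [hg, inner_restrict_cj N g (isClassFunction_of_isIrr hχ), hne] at h4
    have h6 : 1 = d + k := by exact_mod_cast h4
    have h7 : d = 1 := by omega
    rw [hd, h7]; simp)
  intro x hx y hy
  have h1 : (⁅(⟨x, hx⟩ : C), ⟨y, hy⟩⁆ : C) ∈ commutator C :=
    Subgroup.commutator_mem_commutator (Subgroup.mem_top _) (Subgroup.mem_top _)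
  have h2 := hlin _ h1
  have h3 : ((⁅(⟨x, hx⟩ : C), ⟨y, hy⟩⁆ : C) : G) = 1 := hfaith _ h2
  have h4 : (⁅(⟨x, hx⟩ : C), ⟨y, hy⟩⁆ : C) = 1 := Subtype.ext h3
  rw [commutatorElement_eq_one_iff_mul_comm] at h4
  exact congrArg Subtype.val h4

end H84.LG3
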