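import Cfsg.Agent.Lib.H19.ClassNil
import Cfsg.Agent.Lib.H20.Orth
import Cfsg.Agent.Lib.H20.Blk
import Cfsg.Agent.Lib.H1.Coprime
import Cfsg.Agent.Lib.H1.Frat

/-!
# Central characters off the centralizer of a normal `p`-subgroup; separation of blocks
-/

set_option autoImplicit false
set_option linter.unusedSectionVars false

namespace H84.NilCls

open Cfsg H20.GA H20.Blk H20.Orth H20.Loc Subgroup
open scoped ComplexConjugate

universe u
variable {G : Type u} [Group G] [Finite G] {p : ℕ} [Fact p.Prime] {M : Ideal AlgInt}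

/-- The central character of `χ` at `g` lies in the local ideal if no conjugate of `g` centralizes
the normal `p`-subgroup `D`. -/
theorem centralChar_locI (hM : IsPModular p M) (D : Subgroup G) [D.Normal] (hD : IsPGroup p D)
    (χ : IrrCharacter G) (g : G) (hg : ∀ x : G, IsConj g x → x ∉ centralizer (D : Set G)) :
    MemLocalIdeal M (centralChar (χ : G → ℂ) g) := by
  classical
  have hMp : M.IsPrime := pm_isPrime hM
  have := Fintype.ofFinite G
  obtain ⟨n, hn⟩ := H19.ClassNil.classSum_isNilpotent (F := ZMod p) D hD g hg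
  let φp : MonoidAlgebra ℤ G →+* MonoidAlgebra (ZMod p) G :=
    MonoidAlgebra.mapRingHom G (Int.castRingHom (ZMod p))
  let φc : MonoidAlgebra ℤ G →+* MonoidAlgebra ℂ G :=
    MonoidAlgebra.mapRingHom G (Int.castRingHom ℂ)
  let S : MonoidAlgebra ℤ G := H19.ClassNil.classSum ℤ g
  have hcoefS : ∀ (F : Type) [CommRing F], ∀ h : G, (H19.ClassNil.classSum F g).coeff h = if IsConj g h then (1 : F) else 0 := by
    intro F _ h
    unfold H19.ClassNil.classSum
    rw [MonoidAlgebra.coeff_sum, Finset.sum_apply']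
    rw [Finset.sum_eq_single h]
    · split_ifs <;> simp
    · intro b _ hb
      split_ifs
      · simp [hb]
      · simp
    · intro hh; exact absurd (Finset.mem_univ _) hh
  have hp1 : φp S = H19.ClassNil.classSum (ZMod p) g := by
    apply MonoidAlgebra.ext
    refine Finsupp.ext fun h => ?_
    rw [MonoidAlgebra.coeff_mapRingHom, hcoefS, hcoefS]
    split_ifs <;> simp
  have hc1 : φc S = toA (cls g) := by
    apply MonoidAlgebra.ext
    refine Finsupp.ext fun h => ?_
    rw [MonoidAlgebra.coeff_mapRingHom, hcoefS]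
    change _ = zc (cls g) h
    rw [zc_cls]
    split_ifs <;> simp
  have hzero : φp (S ^ n) = 0 := by rw [map_pow, hp1, hn]
  have hdvd : ∀ h, (p : ℤ) ∣ (S ^ n).coeff h := by
    intro h
    have h1 : (φp (S ^ n)).coeff h = 0 := by rw [hzero]; rfl
    rw [MonoidAlgebra.coeff_mapRingHom] at h1
    exact (ZMod.intCast_zmod_eq_zero_iff_dvd _ _).1 h1
  have hI : ∀ h, MemLocalIdeal M (zc ((cls g) ^ n) h) := by
    intro h
    have h1 : zc ((cls g) ^ n) h = (((S ^ n).coeff h : ℤ) : ℂ) := by
      change (toA ((cls g) ^ n)).coeff h = _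
      rw [map_pow, ← hc1, ← map_pow, MonoidAlgebra.coeff_mapRingHom]
      rfl
    rw [h1, locI_intCast_iff hM]
    exact hdvd h
  have h1 := omega_memI χ hI
  rw [map_pow, omega_cls] at h1
  exact locI_of_pow (centralChar_memR χ g) h1

/-- Characters in different blocks are separated by the class of a `p`-regular element centralizing
a given normal `p`-subgroup. -/
theorem exists_separating (hM : IsPModular p M) (D : Subgroup G) [hDn : D.Normal] (hD : IsPGroup p D)
    {χ ψ : IrrCharacter G} (h : ¬ SameBlock M (χ : G → ℂ) (ψ : G → ℂ)) :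
    ∃ g : G, ¬ p ∣ orderOf g ∧ g ∈ centralizer (D : Set G) ∧
      ¬ MemLocalIdeal M (centralChar (χ : G → ℂ) g - centralChar (ψ : G → ℂ) g) := by
  classical
  have hMp : M.IsPrime := pm_isPrime hM
  have := Fintype.ofFinite G
  have := Fintype.ofFinite (ConjClasses G)
  set B := blockOf M (χ : G → ℂ) with hB
  have hBB : IsPBlock M B := isPBlock_blockOf χ
  have h1 : omega χ (eB B) = 1 := omega_eB_mem (mem_blockOf_self χ)
  have h2 : omega ψ (eB B) = 0 := omega_eB_notMem (fun hh => h hh)
  have h3 := eq_sum_cls (eB B)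
  by_contra hcon
  push Not at hcon
  have h4 : MemLocalIdeal M (omega χ (eB B) - omega ψ (eB B)) := by
    rw [h3, map_sum, map_sum, ← Finset.sum_sub_distrib]
    refine locI_sum fun C _ => ?_
    rw [map_smul, map_smul, smul_eq_mul, smul_eq_mul, ← mul_sub, omega_cls, omega_cls]
    by_cases hreg : p ∣ orderOf C.out
    · have h5 : zc (eB B) C.out = 0 := blockCoeff_eq_zero hM (isUnion_of_isPBlock hBB) hreg
      rw [h5, zero_mul]; exact locI_zero
    · refine locI_mul_left (eB_mem hBB C.out) ?_
      by_cases hcen : C.out ∈ centralizer (D : Set G)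
      · exact hcon _ hreg hcen
      · have h6 : ∀ x : G, IsConj C.out x → x ∉ centralizer (D : Set G) := by
          intro x hx hxD
          apply hcen
          obtain ⟨c, hc⟩ := isConj_iff.1 hx
          have hCn : (centralizer (D : Set G)).Normal := inferInstance
          have := hCn.conj_mem x hxD c⁻¹
          rw [← hc] at this
          simpa [mul_assoc] using this
        exact locI_sub (centralChar_locI hM D hD χ _ h6) (centralChar_locI hM D hD ψ _ h6)
  rw [h1, h2, sub_zero] at h4
  exact not_locI_one h4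

/-- A `p`-regular lift of a `p`-regular element modulo a normal `p`-subgroup. -/
theorem exists_regular_lift (N : Subgroup G) [N.Normal] (hN : IsPGroup p N) {y : G ⧸ N}
    (hy : ¬ p ∣ orderOf y) : ∃ x : G, (QuotientGroup.mk x : G ⧸ N) = y ∧ ¬ p ∣ orderOf x := by
  obtain ⟨x0, rfl⟩ := QuotientGroup.mk_surjective y
  set m := orderOf (QuotientGroup.mk x0 : G ⧸ N) with hm
  have h1 : x0 ^ m ∈ N := by
    rw [← QuotientGroup.eq_one_iff, QuotientGroup.mk_pow, hm, pow_orderOf_eq_one]
  obtain ⟨a, ha⟩ := hN ⟨x0 ^ m, h1⟩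
  have ha' : (x0 ^ m) ^ p ^ a = 1 := congrArg Subtype.val ha
  have hcop : Nat.Coprime (p ^ a) m := by
    apply Nat.Coprime.pow_left
    exact (Nat.Prime.coprime_iff_not_dvd Fact.out).2 hy
  obtain ⟨t, ht⟩ := exists_pow_eq_self_of_coprime hcop
  refine ⟨(x0 ^ p ^ a) ^ t, ?_, ?_⟩
  · rw [QuotientGroup.mk_pow, QuotientGroup.mk_pow]
    exact ht
  · intro h
    apply hy
    refine h.trans (orderOf_dvd_of_pow_eq_one ?_)
    have h2 : ((x0 ^ p ^ a) ^ t) ^ m = ((x0 ^ m) ^ p ^ a) ^ t := by
      rw [← pow_mul, ← pow_mul, ← pow_mul, ← pow_mul]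
      congr 1
      ring
    rw [h2, ha', one_pow]

end H84.NilCls
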