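import Mathlib

/-!
# A sum over a family
-/

set_option autoImplicit false

universe v

namespace H84.RK

open Classical in
theorem sum_fam {ι : Type v} [Fintype ι] (m : ℕ) (inst : Fintype ((Fin 2 × ι) ⊕ (Fin m × ι × ι)))
    (F : (Fin 2 × ι) ⊕ (Fin m × ι × ι) → ℝ) (c : ℝ) (h0 : ∀ y : Fin 2 × ι, F (Sum.inl y) = c * (1 + m))
    (h1 : ∀ y : Fin m × ι × ι, F (Sum.inr y) = 2 * c - (if y.2.1 = y.2.2 then 2 * c else 0)) :
    (@Finset.sum _ _ _ (@Finset.univ _ inst) F) = 2 * Nat.card ι * (c * (m * Nat.card ι + 1)) := by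
  have e : inst = instFintypeSum _ _ := Subsingleton.elim _ _
  subst e
  have e9 : ∑ y : Fin m × ι × ι, (if y.2.1 = y.2.2 then 2 * c else 0) = m * (Nat.card ι * (2 * c)) := by
    have e1 : ∑ y : Fin m × ι × ι, (if y.2.1 = y.2.2 then 2 * c else 0) =
        ∑ _t : Fin m, ∑ i : ι, ∑ j : ι, (if i = j then 2 * c else 0) := by
      rw [Fintype.sum_prod_type]
      refine Finset.sum_congr rfl fun t _ => ?_
      exact Fintype.sum_prod_type (fun z : ι × ι => (if z.1 = z.2 then 2 * c else 0))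
    rw [e1]
    simp only [Finset.sum_ite_eq, Finset.mem_univ, if_true, Finset.sum_const, Finset.card_univ, Fintype.card_fin,
      nsmul_eq_mul]
    rw [Nat.card_eq_fintype_card]
  rw [Fintype.sum_sum_type, Finset.sum_congr rfl fun y _ => h0 y, Finset.sum_congr rfl fun y _ => h1 y,
    Finset.sum_sub_distrib, e9]
  simp only [Finset.sum_const, Finset.card_univ, nsmul_eq_mul, Fintype.card_prod, Fintype.card_fin]
  rw [Nat.card_eq_fintype_card]
  push_cast
  ring

end H84.RK
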