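import Mathlib
import Cfsg.Agent.Lib.H78.Contr5
import Cfsg.Agent.Lib.H79.FormBd

/-! Bounds for the number of irreducible characters in a block from a major subsection. -/

set_option autoImplicit false
set_option linter.unusedSectionVars false
set_option linter.unusedVariables false
set_option linter.style.haveILetI false
open Cfsg H20.Loc H20.GA H20.Blk H20.Orth H20.Defect H20.Height H78.BlkCount H78.Sect
open Polynomial H78.Cyc2 H78.Contr
open scoped ComplexConjugate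

namespace H84.RK

universe u v

variable {G : Type u} [Group G] [Fintype G] {M : Ideal AlgInt} {p : ℕ}
variable {H : Subgroup G} [Fintype H] {u : G} {n : ℕ} {ζ : ℂ} {e : IrrCharacter H → ℕ}
  {b : Set (IrrCharacter H)} {B : Set (IrrCharacter G)} [Fintype (IrrCharacter H)]
  [Fintype (IrrCharacter G)]

theorem dd_ne (S : Sit M p H u n ζ e b B) (hq : blockDefect p b = blockDefect p B)
    {χ : IrrCharacter G} (hχ : χ ∈ B) : dd H u p b (χ : G → ℂ) ≠ 0 := by
  haveI := pm_isPrime S.hM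
  obtain ⟨ψ, hψ, hψ0⟩ := exists_height_zero S.hM S.hb.2.1
  have hζR : ζ ∈ primitiveRoots n ℂ := (mem_primitiveRoots (Nat.pos_of_ne_zero S.n_ne)).2 S.hζ
  have hA := S.major_ne_zero hq hχ hψ hψ0 hζR
  intro h0
  apply hA
  have h4 := S.A_pow 1 χ ψ
  rw [pow_one, pow_one] at h4
  rw [h4, mm, h0, H18.CharOrtho.inner_zero_left, mul_zero]

/-- the bound by a separating family with many nonzero products -/
theorem mul_card_le (S : Sit M p H u n ζ e b B) (hq : blockDefect p b = blockDefect p B)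
    {ι : Type v} [Fintype ι] (W : ι → H → ℂ)
    (hW : ∀ i, W i ∈ rspn p b) (z : ι → IrrCharacter H → ℤ)
    (hz : ∀ i (ξ : IrrCharacter H), classInner (W i) (ξ : H → ℂ) = z i ξ)
    (N : ℕ) (hN : ∀ f ∈ rspn p b, f ≠ 0 → N ≤ Nat.card {i : ι // classInner (W i) f ≠ 0}) (c : ℝ)
    (hc : ∑ i, (classInner (W i) (W i)).re ≤ c) :
    (N : ℝ) * (Nat.card B : ℝ) ≤ c := by
  classical
  haveI := pm_isPrime S.hM
  have hp := pm_prime S.hM
  set T := Finset.univ.filter (fun ψ : IrrCharacter G => ψ ∈ B) with hT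
  have hTc : Nat.card B = T.card := by
    have : Nat.card B = Nat.card {ψ : IrrCharacter G // ψ ∈ B} := rfl
    rw [this, Nat.card_eq_fintype_card, Fintype.card_subtype]
  set R := primitiveRoots n ℂ with hR
  have hζR : ζ ∈ R := (mem_primitiveRoots (Nat.pos_of_ne_zero S.n_ne)).2 S.hζ
  have hRpos : (0 : ℝ) < R.card := by exact_mod_cast Finset.card_pos.2 ⟨ζ, hζR⟩
  -- parseval for each root
  have h1 : ∀ i, ∀ μ ∈ R, ∑ χ : IrrCharacter G, ‖ev (H79.FormBd.P n e (z i) χ) μ‖ ^ 2 =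
      (classInner (W i) (W i)).re := by
    intro i μ hμ
    obtain ⟨k, rfl, hk1, hk2⟩ := S.exists_pow hμ
    have h2 := parseval_w H (u ^ k) hp hk1 hk2 (hW i) (hW i)
    rw [← h2, Complex.re_sum]
    refine Finset.sum_congr rfl fun χ _ => ?_
    rw [Complex.mul_conj, Complex.ofReal_re, Complex.normSq_eq_norm_sq, H79.FormBd.ev_P S (hz i)]
  have h2 : ∑ i, ∑ μ ∈ R, ∑ χ : IrrCharacter G, ‖ev (H79.FormBd.P n e (z i) χ) μ‖ ^ 2 ≤ R.card * c := by
    calc ∑ i, ∑ μ ∈ R, ∑ χ : IrrCharacter G, ‖ev (H79.FormBd.P n e (z i) χ) μ‖ ^ 2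
        = ∑ i, (R.card : ℝ) * (classInner (W i) (W i)).re := by
          refine Finset.sum_congr rfl fun i _ => ?_
          rw [Finset.sum_congr rfl (h1 i), Finset.sum_const, nsmul_eq_mul]
      _ = R.card * ∑ i, (classInner (W i) (W i)).re := by rw [Finset.mul_sum]
      _ ≤ R.card * c := mul_le_mul_of_nonneg_left hc hRpos.le
  -- each character contributes at least `N`
  have h3 : ∀ χ ∈ T, (N : ℝ) * R.card ≤ ∑ i, ∑ μ ∈ R, ‖ev (H79.FormBd.P n e (z i) χ) μ‖ ^ 2 := by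
    intro χ hχ
    obtain ⟨-, hχB⟩ := Finset.mem_filter.1 hχ
    have hdd := dd_ne S hq hχB
    have hin : ∀ i, classInner (W i) (dd H u p b (χ : G → ℂ)) = ev (H79.FormBd.P n e (z i) χ) ζ := by
      intro i
      have h4 := H79.FormBd.ev_P S (hz i) χ 1
      rw [pow_one, pow_one] at h4
      rw [h4, inner_dd H u S.hM S.hb.1 (hW i)]
    have h5 := hN _ (dd_mem H u b (χ : G → ℂ)) hdd
    rw [Nat.card_eq_fintype_card, Fintype.card_subtype] at h5
    set F := Finset.univ.filter (fun i => classInner (W i) (dd H u p b (χ : G → ℂ)) ≠ 0) with hF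
    calc (N : ℝ) * R.card ≤ (F.card : ℝ) * R.card := by
          apply mul_le_mul_of_nonneg_right _ hRpos.le
          exact_mod_cast h5
      _ = ∑ i ∈ F, (R.card : ℝ) := by rw [Finset.sum_const, nsmul_eq_mul]
      _ ≤ ∑ i ∈ F, ∑ μ ∈ R, ‖ev (H79.FormBd.P n e (z i) χ) μ‖ ^ 2 := by
          refine Finset.sum_le_sum fun i hi => ?_
          have h6 := (Finset.mem_filter.1 hi).2
          rw [hin] at h6
          exact norm_ineq_one S.n_ne S.hζ h6
      _ ≤ ∑ i, ∑ μ ∈ R, ‖ev (H79.FormBd.P n e (z i) χ) μ‖ ^ 2 :=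
          Finset.sum_le_sum_of_subset_of_nonneg (Finset.subset_univ _)
            fun _ _ _ => Finset.sum_nonneg fun _ _ => by positivity
  have h4 : (T.card : ℝ) * (N * R.card) ≤ R.card * c := by
    calc (T.card : ℝ) * (N * R.card) = ∑ χ ∈ T, (N : ℝ) * R.card := by
          rw [Finset.sum_const, nsmul_eq_mul]
      _ ≤ ∑ χ ∈ T, ∑ i, ∑ μ ∈ R, ‖ev (H79.FormBd.P n e (z i) χ) μ‖ ^ 2 := Finset.sum_le_sum h3
      _ ≤ ∑ χ : IrrCharacter G, ∑ i, ∑ μ ∈ R, ‖ev (H79.FormBd.P n e (z i) χ) μ‖ ^ 2 :=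
          Finset.sum_le_sum_of_subset_of_nonneg (Finset.subset_univ _)
            fun _ _ _ => Finset.sum_nonneg fun _ _ => Finset.sum_nonneg fun _ _ => by positivity
      _ = ∑ i, ∑ μ ∈ R, ∑ χ : IrrCharacter G, ‖ev (H79.FormBd.P n e (z i) χ) μ‖ ^ 2 := by
          rw [Finset.sum_comm]
          refine Finset.sum_congr rfl fun i _ => ?_
          rw [Finset.sum_comm]
      _ ≤ _ := h2
  rw [hTc]
  have h5 : (R.card : ℝ) * (N * T.card) ≤ R.card * c := by linarith
  exact le_of_mul_le_mul_left h5 hRpos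

/-- the simple bound `k(B) ≤ p ^ d l(b)`. -/
theorem card_le (S : Sit M p H u n ζ e b B) (hq : blockDefect p b = blockDefect p B) :
    Nat.card B ≤ p ^ blockDefect p B * blockRank p b := by
  classical
  set T := Finset.univ.filter (fun ψ : IrrCharacter G => ψ ∈ B) with hT
  have hTc : Nat.card B = T.card := by
    have : Nat.card B = Nat.card {ψ : IrrCharacter G // ψ ∈ B} := rfl
    rw [this, Nat.card_eq_fintype_card, Fintype.card_subtype]
  obtain ⟨ψ, hψ, hψ0⟩ := exists_height_zero S.hM S.hb.2.1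
  set R := primitiveRoots n ℂ with hR
  have hζR : ζ ∈ R := (mem_primitiveRoots (Nat.pos_of_ne_zero S.n_ne)).2 S.hζ
  have hRpos : (0 : ℝ) < R.card := by exact_mod_cast Finset.card_pos.2 ⟨ζ, hζR⟩
  have h1 : ∀ χ ∈ T, (R.card : ℝ) ≤ ∑ μ ∈ R, (S.A μ χ χ).re := by
    intro χ hχ
    obtain ⟨-, hχB⟩ := Finset.mem_filter.1 hχ
    have h0 : S.A ζ χ χ ≠ 0 := by
      intro h
      have := S.diag_pos hζR (S.major_ne_zero hq hχB hψ hψ0 hζR)
      rw [h] at this
      exact lt_irrefl _ this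
    have h2 := norm_ineq_val S.n_ne S.hζ h0
    refine h2.trans (le_of_eq ?_)
    refine Finset.sum_congr rfl fun μ hμ => ?_
    show ‖S.A μ χ χ‖ = _
    rw [← S.diag_im hμ χ, Complex.norm_real, Complex.ofReal_re, Real.norm_eq_abs,
      abs_of_nonneg (S.diag_nonneg hμ χ)]
  have h2 : (T.card : ℝ) * R.card ≤ R.card * (p ^ blockDefect p b * blockRank p b) := by
    calc (T.card : ℝ) * R.card = ∑ χ ∈ T, (R.card : ℝ) := by rw [Finset.sum_const, nsmul_eq_mul]
      _ ≤ ∑ χ ∈ T, ∑ μ ∈ R, (S.A μ χ χ).re := Finset.sum_le_sum h1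
      _ ≤ ∑ χ : IrrCharacter G, ∑ μ ∈ R, (S.A μ χ χ).re :=
          Finset.sum_le_sum_of_subset_of_nonneg (Finset.subset_univ _)
            fun χ _ _ => Finset.sum_nonneg fun μ hμ => S.diag_nonneg hμ χ
      _ = ∑ μ ∈ R, ∑ χ : IrrCharacter G, (S.A μ χ χ).re := Finset.sum_comm
      _ = ∑ μ ∈ R, ((p : ℝ) ^ blockDefect p b * blockRank p b) :=
          Finset.sum_congr rfl fun μ hμ => S.sum_diag_re hμ
      _ = _ := by rw [Finset.sum_const, nsmul_eq_mul]
  rw [hTc, ← hq]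
  have h3 : (R.card : ℝ) * T.card ≤ R.card * (p ^ blockDefect p b * blockRank p b) := by linarith
  have h4 := le_of_mul_le_mul_left h3 hRpos
  exact_mod_cast h4

end H84.RK
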