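import Mathlib
import Cfsg.Agent.Lib.H81.Deficiency

/-! Major subsections with a given defect group. -/

set_option autoImplicit false
set_option linter.unusedSectionVars false
set_option linter.unusedVariables false
set_option linter.style.haveILetI false
open Cfsg H20.Loc H20.GA H20.Blk H20.DefGrp H20.Orth H20.Defect H20.Nil H19.Second H19.Second3
  H19.BrMap H19.BrMap2 H81.BrIdem

namespace H84.RK

universe u
variable {G : Type u} [Group G] [Finite G] {p : ℕ} {M : Ideal AlgInt}

theorem defect_of_coeff (hM : IsPModular p M) {b : Set (IrrCharacter G)} (hb : IsPBlock M b) {h : G}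
    (hh : ¬ MemLocalIdeal M (blockCoeff b h)) {Q : Subgroup G} (hQ : IsPGroup p Q)
    (hQh : Q ≤ Subgroup.centralizer ({h} : Set G)) (hcard : Nat.card Q = p ^ blockDefect p b) :
    IsDefectGroup p M b Q := by
  haveI := pm_isPrime hM
  haveI : Fact p.Prime := ⟨pm_prime hM⟩
  obtain ⟨D', hD'⟩ := exists_isDefectGroup hM hb
  have hc := card_defectGroup hM hb hD'
  have hD'' := hD'
  obtain ⟨g, hg, P, rfl⟩ := hD'
  obtain ⟨χ, hχ⟩ := isPBlock_nonempty hb
  obtain ⟨x, hx1, hx2⟩ := sylow_le_of_blockCoeff hM hb ⟨χ, hχ, hg.2.2 χ hχ⟩ hh hQ hQh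
  obtain ⟨y, hy⟩ := exists_conj_le hx1 P hQ hx2
  have h1 : Q = (sylC g P).map (MulAut.conj y).toMonoidHom := by
    apply Subgroup.eq_of_le_of_card_ge hy
    rw [Subgroup.card_map_of_injective (MulAut.conj y).injective, hcard]
    exact hc.le
  rw [h1]
  exact isDefectGroup_map_conj hD'' y

/-- For `y` central in a defect group `D`, some block of the centralizer has defect group `D` and
induces `B`. -/
theorem exists_major (hM : IsPModular p M) {B : Set (IrrCharacter G)} (hB : IsPBlock M B)
    {D : Subgroup G} (hD : IsDefectGroup p M B D) {y : G} (hyD : y ∈ D)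
    (hyc : ∀ d ∈ D, d * y = y * d) :
    ∃ b : Set (IrrCharacter (Subgroup.centralizer ({y} : Set G))),
      IsInducedBlock M (Subgroup.centralizer ({y} : Set G)) b B ∧
      blockDefect p b = blockDefect p B ∧
      IsDefectGroup p M b (D.subgroupOf (Subgroup.centralizer ({y} : Set G))) := by
  haveI := pm_isPrime hM
  haveI : Fact p.Prime := ⟨pm_prime hM⟩
  have hDp := isPGroup_of_isDefectGroup hD
  have hcard := card_defectGroup hM hB hD
  obtain ⟨g, hg, P, rfl⟩ := hD
  have hy : ∃ k : ℕ, orderOf y = p ^ k := by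
    obtain ⟨k, hk⟩ := IsPGroup.iff_orderOf.1 hDp ⟨y, hyD⟩
    exact ⟨k, by rw [← hk]; exact (Subgroup.orderOf_mk y hyD).symm⟩
  have hDC : sylC g P ≤ Subgroup.centralizer ({y} : Set G) := by
    intro d hd
    rw [Subgroup.mem_centralizer_singleton_iff]
    exact hyc d hd
  have hgy : g ∈ Subgroup.centralizer ({y} : Set G) := by
    have h1 := Subgroup.mem_centralizer_singleton_iff.1 (sylC_le g P hyD)
    rw [Subgroup.mem_centralizer_singleton_iff]
    exact h1.symm
  have h1 : Subgroup.zpowers y ≤ Subgroup.centralizer ({y} : Set G) := by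
    rw [Subgroup.zpowers_le, Subgroup.mem_centralizer_singleton_iff]
  have h2 : Subgroup.centralizer ({y} : Set G) ≤
      Subgroup.normalizer (Subgroup.zpowers y : Set G) := by
    rw [← centralizer_zpowers]
    intro c hc
    rw [Subgroup.mem_normalizer_iff]
    rw [Subgroup.mem_centralizer_iff] at hc
    intro h
    constructor
    · intro hh
      rw [← hc h hh, mul_inv_cancel_right]
      exact hh
    · intro hh
      have h5 := hc _ hh
      have h6 : c * h * c⁻¹ = h := by
        have h7 : c * h * c⁻¹ * c = c * (c * h * c⁻¹) := h5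
        rw [inv_mul_cancel_right] at h7
        exact (mul_left_cancel h7).symm
      rwa [h6] at hh
  obtain ⟨b, hb, hbg⟩ := exists_correspondent hM (isPGroup_zpowers hy) h1
    (by rw [centralizer_zpowers]) h2 hB (g := ⟨g, hgy⟩)
    (by rw [centralizer_zpowers]; exact hgy) hg.2.1
  have hQp : IsPGroup p ((sylC g P).subgroupOf (Subgroup.centralizer ({y} : Set G))) :=
    hDp.comap_of_injective _ (Subgroup.subtype_injective _)
  have hQc : (sylC g P).subgroupOf (Subgroup.centralizer ({y} : Set G)) ≤
      Subgroup.centralizer ({(⟨g, hgy⟩ : Subgroup.centralizer ({y} : Set G))} : Set _) := by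
    intro d hd
    rw [Subgroup.mem_subgroupOf] at hd
    have h3 := Subgroup.mem_centralizer_singleton_iff.1 (sylC_le g P hd)
    rw [Subgroup.mem_centralizer_singleton_iff]
    exact Subtype.ext h3
  have hQcard : Nat.card ((sylC g P).subgroupOf (Subgroup.centralizer ({y} : Set G))) =
      p ^ blockDefect p B := by
    rw [← hcard]
    exact Nat.card_congr (Subgroup.subgroupOfEquivOfLe hDC).toEquiv
  have hdef : blockDefect p b = blockDefect p B := le_antisymm (H81.Deficiency.defect_le_of_induced hM hb)
    (le_blockDefect hM hb.1 hbg hQp hQc hQcard)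
  exact ⟨b, hb, hdef, defect_of_coeff hM hb.1 hbg hQp hQc (by rw [hdef]; exact hQcard)⟩

end H84.RK
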