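import Mathlib
import Cfsg.Agent.Lib.H84.FR8
import Cfsg.Agent.Lib.H84.FL12
import Cfsg.Agent.Lib.H78.BlkCount
import Cfsg.Agent.Lib.H78.Contr1
import Cfsg.Agent.Lib.H20.DefZero

/-!
# Cyclic defect groups: integral vectors in the regular span with Gram matrix `1 + m J`
-/

set_option autoImplicit false
set_option linter.unusedSectionVars false
set_option linter.unusedVariables false
set_option linter.style.haveILetI false

universe u v

namespace H84.RK

open Cfsg H5.PBb H18.CharOrtho H18.CharBasic H20.Loc H84.FR H78.BlkCount H78.Contr H20.Orth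
open scoped ComplexConjugate
attribute [local instance 2000] Fintype.ofFinite

variable {G : Type u} [Group G] [Finite G] {p : ℕ} {M : Ideal AlgInt}

open Classical in
/-- vectors of the regular span with Gram matrix `1 + m J`. -/
structure TypeA (p : ℕ) (B : Set (IrrCharacter G)) (q m : ℕ) {ι : Type v} [Finite ι] (w : ι → G → ℂ) : Prop where
  card : m * Nat.card ι + 1 = q
  zero : m = 0 → Nat.card ι = 1
  pos : 0 < Nat.card ι
  gen : ∀ i, IsGeneralizedCharacter G (w i)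
  mem : ∀ i, w i ∈ rspn p B
  gram : ∀ i j, classInner (w i) (w j) = (if i = j then 1 else 0) + (m : ℂ)
  sep : ∀ f ∈ rspn p B, (∀ i, classInner (w i) f = 0) → f = 0

section str
variable {A : Type v} [Group A] [Finite A] {W : Subgroup (MulAut A)}
variable {B : Set (IrrCharacter G)} {R : IrrCharacter G → A → ℂ}
variable {n : ℕ} {rep : Fin n → (A →* ℂˣ)} {μ : Fin n → IrrCharacter G} {δ : ℤ} {a : IrrCharacter G → ℤ}

/-- the vectors -/
noncomputable def wv (μ : Fin n → IrrCharacter G) (δ : ℤ) (a : IrrCharacter G → ℤ) (χ : IrrCharacter G) : G → ℂ :=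
  (a χ : ℂ) • (χ : G → ℂ) + (δ : ℂ) • ∑ i, (μ i : G → ℂ)

theorem wv_gen (χ : IrrCharacter G) : IsGeneralizedCharacter G (wv μ δ a χ) :=
  isGen_add (isGen_intCast_smul _ (isGen_of_isIrr χ.2))
    (isGen_intCast_smul _ (isGen_sum _ _ fun i _ => isGen_of_isIrr (μ i).2))

theorem wv_reg (hD : Dat p M B W R) (hA : ∀ a b : A, a * b = b * a)
    (hfp : ∀ w ∈ W, w ≠ 1 → ∀ x : A, w x = x → x = 1)
    (hrep : Reps W n rep) (hS : Str B R W n rep μ δ a) {χ : IrrCharacter G} (hχ : χ ∈ B)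
    (hχ' : ∀ i, μ i ≠ χ) : reg p (wv μ δ a χ) = wv μ δ a χ := by
  funext g
  by_cases hg : p ∣ orderOf g
  · rw [reg_not hg]
    obtain ⟨s, h1, h2⟩ := hS.sing hD hA hfp hrep hg
    have h3 : wv μ δ a χ g = (a χ : ℂ) * (χ : G → ℂ) g + (δ : ℂ) * ∑ i, (μ i : G → ℂ) g := by
      rw [wv, Pi.add_apply, Pi.smul_apply, Pi.smul_apply, Finset.sum_apply, smul_eq_mul, smul_eq_mul]
    rw [h3, h1 χ hχ hχ', h2]
    have h4 : (δ : ℂ) * δ = 1 := by rcases hS.hδ with h | h <;> rw [h] <;> norm_num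
    linear_combination s * h4
  · rw [reg_of hg]

theorem wv_mem (hD : Dat p M B W R) (hA : ∀ a b : A, a * b = b * a)
    (hfp : ∀ w ∈ W, w ≠ 1 → ∀ x : A, w x = x → x = 1)
    (hrep : Reps W n rep) (hS : Str B R W n rep μ δ a) {χ : IrrCharacter G} (hχ : χ ∈ B)
    (hχ' : ∀ i, μ i ≠ χ) : wv μ δ a χ ∈ rspn p B := by
  rw [rspn_eq_map]
  refine ⟨wv μ δ a χ, ?_, ?_⟩
  · refine Submodule.add_mem _ (Submodule.smul_mem _ _ (Submodule.subset_span ⟨χ, hχ, rfl⟩))
      (Submodule.smul_mem _ _ (Submodule.sum_mem _ fun i _ => Submodule.subset_span ⟨μ i, hS.mem i, rfl⟩))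
  · exact wv_reg hD hA hfp hrep hS hχ hχ'

open Classical in
theorem wv_gram (hS : Str B R W n rep μ δ a) {χ ψ : IrrCharacter G} (hχ : χ ∈ B)
    (hχ' : ∀ i, μ i ≠ χ) (hψ : ψ ∈ B) (hψ' : ∀ i, μ i ≠ ψ) :
    classInner (wv μ δ a χ) (wv μ δ a ψ) = (if χ = ψ then 1 else 0) + (n : ℂ) := by
  have h1 : classInner (∑ i, (μ i : G → ℂ)) (∑ i, (μ i : G → ℂ)) = (n : ℂ) := by
    rw [H18.CharOrtho.inner_sum_left]
    have : ∀ i : Fin n, classInner (μ i : G → ℂ) (∑ j, (μ j : G → ℂ)) = 1 := by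
      intro i
      rw [H18.CharOrtho.inner_sum_right, Finset.sum_eq_single i]
      · rw [inner_mu, if_pos rfl]
      · intro j _ hj; rw [inner_mu, if_neg (fun h => hj (hS.inj h).symm)]
      · intro h; exact absurd (Finset.mem_univ _) h
    rw [Finset.sum_congr rfl fun i _ => this i, Finset.sum_const, Finset.card_univ]
    have h3 := Nat.card_eq_fintype_card (α := Fin n)
    rw [← h3, Nat.card_eq_fintype_card, Fintype.card_fin, nsmul_eq_mul, mul_one]
  have h2 : ∀ χ : IrrCharacter G, (∀ i, μ i ≠ χ) → classInner (χ : G → ℂ) (∑ i, (μ i : G → ℂ)) = 0 := by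
    intro χ h
    rw [H18.CharOrtho.inner_sum_right]
    exact Finset.sum_eq_zero fun i _ => by rw [inner_mu, if_neg (fun h' => h i h'.symm)]
  have h3 : ∀ χ : IrrCharacter G, (∀ i, μ i ≠ χ) → classInner (∑ i, (μ i : G → ℂ)) (χ : G → ℂ) = 0 := by
    intro χ h
    rw [H18.CharOrtho.inner_sum_left]
    exact Finset.sum_eq_zero fun i _ => by rw [inner_mu, if_neg (h i)]
  have h4 : (δ : ℂ) * δ = 1 := by rcases hS.hδ with h | h <;> rw [h] <;> norm_num
  have h5 : (a ψ : ℂ) * a ψ = 1 := by rcases (hS.aX ψ hψ hψ').1 with h | h <;> rw [h] <;> norm_num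
  rw [wv, wv, H18.CharOrtho.inner_add_left, H18.CharOrtho.inner_add_right, H18.CharOrtho.inner_add_right]
  simp only [H18.CharOrtho.inner_smul_left, H18.CharOrtho.inner_smul_right, map_intCast]
  rw [h1, h2 χ hχ', h3 ψ hψ', inner_mu]
  split_ifs with h
  · subst h
    linear_combination (n : ℂ) * h4 + h5
  · linear_combination (n : ℂ) * h4

theorem wv_sep (hD : Dat p M B W R) (hA : ∀ a b : A, a * b = b * a)
    (hfp : ∀ w ∈ W, w ≠ 1 → ∀ x : A, w x = x → x = 1)
    (hrep : Reps W n rep) (hS : Str B R W n rep μ δ a) {f : G → ℂ} (hf : f ∈ rspn p B)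
    (h0 : ∀ χ ∈ B, (∀ i, μ i ≠ χ) → classInner (wv μ δ a χ) f = 0) : f = 0 := by
  classical
  -- the non-exceptional characters span
  have h1 : rspn p B ≤ Submodule.span ℂ (Set.range
      (fun χ : {χ : IrrCharacter G // χ ∈ B ∧ ∀ i, μ i ≠ χ} => reg p (χ.1 : G → ℂ))) := by
    rw [rspn, Submodule.span_le]
    rintro _ ⟨χ, hχ, rfl⟩
    show pRegularPart p (χ : G → ℂ) ∈ _
    rw [← reg_eq_pRegularPart]
    by_cases h : ∀ i, μ i ≠ χ
    · exact Submodule.subset_span ⟨⟨χ, hχ, h⟩, rfl⟩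
    · push Not at h
      obtain ⟨i, rfl⟩ := h
      have h2 : reg p (μ i : G → ℂ) = ∑ χ : {χ : IrrCharacter G // χ ∈ B ∧ ∀ i, μ i ≠ χ},
          ((δ : ℂ) * a χ.1) • reg p (χ.1 : G → ℂ) := by
        funext g
        rw [Finset.sum_apply]
        by_cases hg : p ∣ orderOf g
        · rw [reg_not hg]
          symm
          apply Finset.sum_eq_zero
          intro χ _
          rw [Pi.smul_apply, reg_not hg, smul_zero]
        · rw [reg_of hg]
          have h3 := hS.reg hD hA hfp hrep i hg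
          have h4 : (δ : ℂ) * δ = 1 := by rcases hS.hδ with h | h <;> rw [h] <;> norm_num
          have h5 : ∑ χ : {χ : IrrCharacter G // χ ∈ B ∧ ∀ i, μ i ≠ χ},
              (((δ : ℂ) * a χ.1) • reg p (χ.1 : G → ℂ)) g =
              (δ : ℂ) * ∑ χ : IrrCharacter G, (if χ ∈ B ∧ ∀ i, μ i ≠ χ then (a χ : ℂ) * (χ : G → ℂ) g else 0) := by
            rw [← Finset.sum_filter, Finset.mul_sum]
            rw [← Finset.sum_subtype (p := fun χ : IrrCharacter G => χ ∈ B ∧ ∀ i, μ i ≠ χ)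
              (Finset.univ.filter (fun χ : IrrCharacter G => χ ∈ B ∧ ∀ i, μ i ≠ χ)) (by simp)
              (fun χ : IrrCharacter G => (((δ : ℂ) * a χ) • reg p (χ : G → ℂ)) g)]
            refine Finset.sum_congr rfl fun χ _ => ?_
            rw [Pi.smul_apply, reg_of hg, smul_eq_mul, mul_assoc]
          rw [h5, h3]
          linear_combination -(μ i : G → ℂ) g * h4
      rw [h2]
      exact Submodule.sum_mem _ fun χ _ => Submodule.smul_mem _ _ (Submodule.subset_span ⟨χ, rfl⟩)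
  obtain ⟨c, hc⟩ := (Submodule.mem_span_range_iff_exists_fun ℂ).1 (h1 hf)
  have h2 : ∀ ψ : {χ : IrrCharacter G // χ ∈ B ∧ ∀ i, μ i ≠ χ}, c ψ = 0 := by
    intro ψ
    have h3 := h0 ψ.1 ψ.2.1 ψ.2.2
    rw [← hc, H18.CharOrtho.inner_sum_right, Finset.sum_eq_single ψ] at h3
    · rw [H18.CharOrtho.inner_smul_right, ← inner_reg_left, wv_reg hD hA hfp hrep hS ψ.2.1 ψ.2.2, wv,
        H18.CharOrtho.inner_add_left, H18.CharOrtho.inner_smul_left, H18.CharOrtho.inner_smul_left,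
        H18.CharOrtho.inner_sum_left, Finset.sum_eq_zero (fun i _ => by rw [inner_mu, if_neg (ψ.2.2 i)]),
        inner_mu, if_pos rfl, mul_zero, add_zero, mul_one] at h3
      have h5 : (a ψ.1 : ℂ) ≠ 0 := by
        rcases (hS.aX ψ.1 ψ.2.1 ψ.2.2).1 with h | h <;> rw [h] <;> norm_num
      have h6 := (mul_eq_zero.1 h3).resolve_right h5
      exact (map_eq_zero _).1 h6
    · intro χ _ hχψ
      rw [H18.CharOrtho.inner_smul_right, ← inner_reg_left, wv_reg hD hA hfp hrep hS ψ.2.1 ψ.2.2, wv,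
        H18.CharOrtho.inner_add_left, H18.CharOrtho.inner_smul_left, H18.CharOrtho.inner_smul_left,
        H18.CharOrtho.inner_sum_left, Finset.sum_eq_zero (fun i _ => by rw [inner_mu, if_neg (χ.2.2 i)]),
        inner_mu, if_neg (fun h => hχψ (Subtype.ext h.symm)), mul_zero, mul_zero, add_zero, mul_zero]
    · intro h; exact absurd (Finset.mem_univ _) h
  rw [← hc]
  exact Finset.sum_eq_zero fun ψ _ => by rw [h2 ψ, zero_smul]

theorem typeA_str (hD : Dat p M B W R) (hA : ∀ a b : A, a * b = b * a)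
    (hfp : ∀ w ∈ W, w ≠ 1 → ∀ x : A, w x = x → x = 1)
    (hrep : Reps W n rep) (hS : Str B R W n rep μ δ a) (hn : 1 ≤ n) (hcard : Nat.card B = Nat.card W + n) :
    TypeA p B (Nat.card A) n (fun χ : {χ : IrrCharacter G // χ ∈ B ∧ ∀ i, μ i ≠ χ} => wv μ δ a χ.1) := by
  classical
  have h1 := hS.card_X
  have h2 : Nat.card {χ : IrrCharacter G // χ ∈ B ∧ ∀ i, μ i ≠ χ} = Nat.card W := by omega
  refine ⟨?_, ?_, ?_, fun i => wv_gen i.1, fun i => wv_mem hD hA hfp hrep hS i.2.1 i.2.2, ?_, ?_⟩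
  · rw [h2]; exact hrep.card hA hfp
  · intro h; omega
  · rw [h2]; exact Nat.card_pos
  · intro i j
    rw [wv_gram hS i.2.1 i.2.2 j.2.1 j.2.2]
    congr 1
    by_cases h : i = j
    · rw [if_pos h, if_pos (congrArg Subtype.val h)]
    · rw [if_neg h, if_neg (fun h' => h (Subtype.ext h'))]
  · intro f hf h0
    exact wv_sep hD hA hfp hrep hS hf (fun χ hχ hχ' => h0 ⟨χ, hχ, hχ'⟩)

end str

/-- defect zero -/
theorem typeA_zero (hM : IsPModular p M) {B : Set (IrrCharacter G)} (hB : IsPBlock M B)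
    (h0 : blockDefect p B = 0) : ∃ w : PUnit.{v+1} → G → ℂ, TypeA p B 1 0 w := by
  haveI := H20.Loc.pm_isPrime hM
  obtain ⟨χ, hχ⟩ := H20.Blk.isPBlock_nonempty hB
  have h1 := (H20.DefZero.blockDefect_eq_zero_iff hM hB hχ).1 h0
  have h2 : ∀ y : G, p ∣ orderOf y → (χ : G → ℂ) y = 0 := fun y hy =>
    H20.DefZero.vanish_of_full_degree hM h1 hy
  have h3 : reg p (χ : G → ℂ) = (χ : G → ℂ) := by
    funext g
    by_cases hg : p ∣ orderOf g
    · rw [reg_not hg, h2 g hg]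
    · rw [reg_of hg]
  have h4 := H20.DefZero.blockOf_eq_singleton hM h1
  have h5 : B = {χ} := by
    rw [← h4]
    ext ψ
    exact H20.Blk.isPBlock_mem_iff hB hχ ψ
  have hmem : (χ : G → ℂ) ∈ rspn p B := by
    rw [rspn_eq_map]
    exact ⟨_, Submodule.subset_span ⟨χ, hχ, rfl⟩, h3⟩
  refine ⟨fun _ => (χ : G → ℂ), ⟨by simp, by simp, by simp, fun _ => isGen_of_isIrr χ.2, fun _ => hmem, ?_, ?_⟩⟩
  · intro i j
    rw [if_pos (Subsingleton.elim _ _), inner_irr_self χ.2]
    simp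
  · intro f hf h0
    rw [rspn, h5, Set.image_singleton, Submodule.mem_span_singleton] at hf
    obtain ⟨c, rfl⟩ := hf
    have h6 := h0 PUnit.unit
    rw [← reg_eq_pRegularPart, h3, H18.CharOrtho.inner_smul_right, inner_irr_self χ.2, mul_one] at h6
    rw [(map_eq_zero _).1 h6, zero_smul]

end H84.RK
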