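import Mathlib
import Cfsg.Agent.Lib.H84.RK4

/-!
# Blocks with cyclic defect groups: existence of the vectors
-/

set_option autoImplicit false
set_option linter.unusedSectionVars false
set_option linter.unusedVariables false

namespace H84.RK

open Cfsg H20.Loc H20.GA H80.GA H80.GB H80.GC H80.GD H80.GE H80.GF H80.GG H80.GH H80.GJ H80.FS H84.RG H18.CharBasic H18.CharOrtho H84.TrR
open H20.Blk H20.Orth H20.Ind H20.Height H20.Defect H80.BR1 H80.BR2 H19.Second H19.Second3 H81.Section H81.Contrib
open H84.Star H84.Wat H80.BR7 H84.FR H84.FL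
open scoped ComplexConjugate

universe u

attribute [local instance 2000] Fintype.ofFinite

theorem exists_typeA {M : Ideal AlgInt} {G : Type u} [Group G] [Finite G] {p : ℕ} [Fact p.Prime]
    {B : Set (IrrCharacter G)} {P : Subgroup G} (hM : IsPModular p M) (hB : IsPBlock M B)
    (hPD : IsDefectGroup p M B P) (hcyc : IsCyclic P) :
    ∃ (m : ℕ) (ι : Type u) (_ : Finite ι) (w : ι → G → ℂ), TypeA p B (Nat.card P) m w := by
  have : M.IsMaximal := hM.2.1
  have : CharP (H20.Loc.ResF M) p := H20.Loc.charP_resF hM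
  let _ : Algebra (ZMod p) (H20.Loc.ResF M) := ZMod.algebra (H20.Loc.ResF M) p
  have : Algebra.IsAlgebraic (ZMod p) (H20.Loc.ResF M) := H80.BR1.isAlgebraic_resF hM
  have : IsAlgClosed (H20.Loc.ResF M) := H20.Loc.isAlgClosed_resF
  by_cases hP1 : P = ⊥
  · have h1 := card_defectGroup hM hB hPD
    have h2 : Nat.card P = 1 := by rw [hP1]; exact Subgroup.card_bot
    rw [h2] at h1
    have h3 : blockDefect p B = 0 := by
      by_contra h
      exact absurd h1.symm (Nat.one_lt_pow h (Fact.out : p.Prime).one_lt).ne'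
    obtain ⟨w, hw⟩ := typeA_zero.{u, u} hM hB h3
    exact ⟨0, PUnit, inferInstance, w, by rw [h2]; exact hw⟩
  · obtain ⟨e, hmax⟩ := exists_isMax_of_isDefectGroup hM hB hPD
    have hab := H80.BR11.ab_of_cyclic hcyc
    have hfree := free_cyclic hmax hcyc
    have hcop := cop_WT hmax hab
    have hl := rank_eq_max_cyclic hM hmax hB hcyc hP1
    obtain ⟨S, φ, R, hL⟩ := exists_loc_cyclic hM hmax hB hcyc hP1 hfree hcop
    obtain ⟨n, rep, hrep⟩ := exists_reps (sub_comm hab) (WT P e)
    obtain ⟨hD, μ, δ, a, hS⟩ := str_loc hM hmax hB hab hP1 hfree hL hl hrep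
    have hfp := WT_free hfree
    have hn := card_fin_n (sub_comm hab) hfp hrep (exists_ne_one hP1)
    have hc := card_eq hM hmax hB hab hfree (hrep.card (sub_comm hab) hfp)
    rw [hl] at hc
    exact ⟨n, _, inferInstance, _, typeA_str hD (sub_comm hab) hfp hrep hS hn hc⟩

end H84.RK
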