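import Mathlib
import Cfsg.Agent.Lib.H79.CentQ
import Cfsg.Agent.Lib.H77.DefQuot
import Cfsg.Agent.Lib.H81.RankCard

/-! Quotients by central `p`-subgroups: regular spans of blocks. -/

set_option autoImplicit false
set_option linter.unusedSectionVars false
set_option linter.unusedVariables false
set_option linter.style.haveILetI false
open Cfsg

namespace H84.RK

open H20.Loc H20.GA H20.Blk H20.NormQ H20.Orth H20.NPC H18.CharBasic H18.CharOrtho H78.BlkCount H79.CentQ
open scoped ComplexConjugate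

universe u

variable {G : Type u} [Group G] [Finite G] {p : ℕ} {M : Ideal AlgInt}

/-- the regular span of a block comes from the quotient -/
theorem rspn_quot (hM : IsPModular p M) (Q : Subgroup G) [Q.Normal] (hQ : IsPGroup p Q)
    (hC : ∀ x : G, ¬ p ∣ orderOf x → x ∈ Subgroup.centralizer (Q : Set G))
    {b : Set (IrrCharacter G)} (hPB : IsPBlock M b) {b' : Set (IrrCharacter (G ⧸ Q))}
    (hmem : ∀ ψ : IrrCharacter (G ⧸ Q), infl Q ψ ∈ b ↔ ψ ∈ b') :
    rspn p b = (rspn p b').map (L Q p) := by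
  classical
  haveI := pm_isPrime hM
  haveI : Fact p.Prime := ⟨pm_prime hM⟩
  letI := Fintype.ofFinite G
  letI : Fintype (IrrCharacter G) := Fintype.ofFinite _
  letI := Fintype.ofFinite (G ⧸ Q)
  letI : Fintype (IrrCharacter (G ⧸ Q)) := Fintype.ofFinite _
  have hU : IsUnion M b := isUnion_of_isPBlock hPB
  unfold rspn
  set W := Submodule.span ℂ ((fun χ : IrrCharacter (G ⧸ Q) => pRegularPart p (χ : G ⧸ Q → ℂ)) ''
    b') with hW
  set V := Submodule.span ℂ ((fun χ : IrrCharacter G => pRegularPart p (χ : G → ℂ)) ''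
    b) with hV
  have hLinfl : ∀ ψ : IrrCharacter (G ⧸ Q), L Q p (pRegularPart p (ψ : G ⧸ Q → ℂ)) =
      pRegularPart p (infl Q ψ : G → ℂ) := by
    intro ψ
    rw [pRegularPart_eq, pRegularPart_eq, L_reg]
    rfl
  have hVW : V = W.map (L Q p) := by
    apply le_antisymm
    · rw [hV, Submodule.span_le]
      rintro _ ⟨χ, hχ, rfl⟩
      -- the class function on the quotient
      let F : G ⧸ Q → ℂ := fun q => if h : ∃ x : G, (x : G ⧸ Q) = q ∧ ¬ p ∣ orderOf x then
        (χ : G → ℂ) h.choose else 0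
      have hF : ∀ x : G, ¬ p ∣ orderOf x → F (x : G ⧸ Q) = (χ : G → ℂ) x := by
        intro x hx
        have h : ∃ y : G, (y : G ⧸ Q) = (x : G ⧸ Q) ∧ ¬ p ∣ orderOf y := ⟨x, rfl, hx⟩
        have h1 : F (x : G ⧸ Q) = (χ : G → ℂ) h.choose := dif_pos h
        rw [h1]
        exact congrArg (χ : G → ℂ) (H20.PC.eq_of_mk_eq Q hQ hC h.choose_spec.2 hx h.choose_spec.1)
      have hF0 : ∀ q : G ⧸ Q, (¬ ∃ x : G, (x : G ⧸ Q) = q ∧ ¬ p ∣ orderOf x) → F q = 0 :=
        fun q h => dif_neg h
      have hFc : IsClassFunction (G ⧸ Q) F := by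
        intro q r
        obtain ⟨y, rfl⟩ := QuotientGroup.mk_surjective r
        by_cases h : ∃ x : G, (x : G ⧸ Q) = q ∧ ¬ p ∣ orderOf x
        · obtain ⟨x, rfl, hx⟩ := h
          have h1 : ((y : G ⧸ Q) * (x : G ⧸ Q) * (y : G ⧸ Q)⁻¹) = ((y * x * y⁻¹ : G) : G ⧸ Q) := rfl
          rw [h1, hF x hx, hF _ (by rwa [H20.Orth.orderOf_conj])]
          exact isClassFunction_of_isIrr χ.2 x y
        · rw [hF0 _ h, hF0]
          rintro ⟨x, hx1, hx2⟩
          apply h
          refine ⟨y⁻¹ * x * (y⁻¹)⁻¹, ?_, by rwa [H20.Orth.orderOf_conj]⟩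
          rw [QuotientGroup.mk_mul, QuotientGroup.mk_mul, hx1, inv_inv, QuotientGroup.mk_inv]
          group
      have h1 : reg p (χ : G → ℂ) = reg p (fun g : G => F (g : G ⧸ Q)) := by
        funext g
        by_cases h : p ∣ orderOf g
        · rw [reg_not h, reg_not h]
        · rw [reg_of h, reg_of h, hF g h]
      have hFG : IsClassFunction G (fun g : G => F (g : G ⧸ Q)) := fun g h => by
        have := hFc (g : G ⧸ Q) (h : G ⧸ Q)
        exact this
      have h2 : reg p (χ : G → ℂ) = reg p (proj b (fun g : G => F (g : G ⧸ Q))) := by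
        rw [← proj_reg hM hU hFG, ← h1, proj_reg hM hU (isClassFunction_of_isIrr χ.2),
          proj_irr _ _ hχ]
      have h3 : (fun g : G => F (g : G ⧸ Q)) = ∑ ψ : IrrCharacter (G ⧸ Q),
          classInner F (ψ : G ⧸ Q → ℂ) • (infl Q ψ : G → ℂ) := by
        funext g
        have := congrFun (mem_classFun_expand hFc) (g : G ⧸ Q)
        rw [this]
        simp only [Finset.sum_apply, Pi.smul_apply]
        rfl
      have h4 : reg p (proj b (fun g : G => F (g : G ⧸ Q))) =
          ∑ χ' : IrrCharacter G, (if χ' ∈ b then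
            classInner (fun g : G => F (g : G ⧸ Q)) (χ' : G → ℂ) else 0) • reg p (χ' : G → ℂ) := by
        funext g
        by_cases h : p ∣ orderOf g
        · rw [reg_not h, Finset.sum_apply, Finset.sum_eq_zero]
          intro χ' _
          rw [Pi.smul_apply, reg_not h, smul_zero]
        · rw [reg_of h, proj_eq_sum, Finset.sum_apply]
          refine Finset.sum_congr rfl fun χ' _ => ?_
          rw [Pi.smul_apply, reg_of h, smul_eq_mul]
          split_ifs
          · rfl
          · rw [zero_mul]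
      show pRegularPart p (χ : G → ℂ) ∈ W.map (L Q p)
      rw [pRegularPart_eq, h2, h4]
      refine Submodule.sum_mem _ fun χ' _ => ?_
      by_cases hχ' : χ' ∈ b
      · rw [if_pos hχ']
        by_cases h5 : classInner (fun g : G => F (g : G ⧸ Q)) (χ' : G → ℂ) = 0
        · rw [h5, zero_smul]; exact Submodule.zero_mem _
        · apply Submodule.smul_mem
          have h6 : ∃ ψ : IrrCharacter (G ⧸ Q), χ' = infl Q ψ := by
            by_contra hcon
            push Not at hcon
            apply h5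
            rw [h3, H18.CharOrtho.inner_sum_left]
            refine Finset.sum_eq_zero fun ψ _ => ?_
            rw [H18.CharOrtho.inner_smul_left, inner_irr_ne (infl Q ψ).2 χ'.2
              (fun h => hcon ψ (Subtype.ext h.symm)), mul_zero]
          obtain ⟨ψ, rfl⟩ := h6
          refine ⟨pRegularPart p (ψ : G ⧸ Q → ℂ), Submodule.subset_span ⟨ψ, (hmem ψ).1 hχ', rfl⟩, ?_⟩
          rw [hLinfl, pRegularPart_eq]
      · rw [if_neg hχ', zero_smul]; exact Submodule.zero_mem _
    · rw [hW, Submodule.map_span, Submodule.span_le]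
      rintro _ ⟨_, ⟨ψ, hψ, rfl⟩, rfl⟩
      rw [hLinfl]
      exact Submodule.subset_span ⟨infl Q ψ, (hmem ψ).2 hψ, rfl⟩
  exact hVW


theorem mem_iff_of_sub (hM : IsPModular p M) (Q : Subgroup G) [Q.Normal] (hQ : IsPGroup p Q)
    (hC : ∀ x : G, ¬ p ∣ orderOf x → x ∈ Subgroup.centralizer (Q : Set G))
    {b : Set (IrrCharacter G)} (hPB : IsPBlock M b) {b' : Set (IrrCharacter (G ⧸ Q))} (hPB' : IsPBlock M b')
    (hsub : ∀ χ ∈ b', infl Q χ ∈ b) (ψ : IrrCharacter (G ⧸ Q)) : infl Q ψ ∈ b ↔ ψ ∈ b' := by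
  haveI := pm_isPrime hM
  obtain ⟨χ, hχ⟩ := isPBlock_nonempty hPB'
  refine ⟨fun h => ?_, hsub ψ⟩
  rw [isPBlock_mem_iff hPB' hχ]
  exact (H20.PC.sameBlock_infl_iff (P := Q) hM hQ hC χ ψ).2 ((isPBlock_mem_iff hPB (hsub χ hχ) _).1 h)

theorem rank_le_quot (hM : IsPModular p M) (Q : Subgroup G) [Q.Normal] (hQ : IsPGroup p Q)
    (hC : ∀ x : G, ¬ p ∣ orderOf x → x ∈ Subgroup.centralizer (Q : Set G))
    {b : Set (IrrCharacter G)} (hPB : IsPBlock M b) {b' : Set (IrrCharacter (G ⧸ Q))}
    (hmem : ∀ ψ : IrrCharacter (G ⧸ Q), infl Q ψ ∈ b ↔ ψ ∈ b') :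
    blockRank p b ≤ Nat.card b' := by
  have h1 := rspn_quot hM Q hQ hC hPB hmem
  have h2 : blockRank p b = Module.finrank ℂ (rspn p b) := rfl
  rw [h2, h1]
  exact (Submodule.finrank_map_le _ _).trans (H81.RankCard.rank_le b')

end H84.RK
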