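import Mathlib
import Cfsg.Agent.Lib.H84.RK4
import Cfsg.Agent.Lib.H84.RK2
import Cfsg.Agent.Lib.H84.RK0

/-!
# Transfer of the vectors to a central extension; counting
-/

set_option autoImplicit false
set_option linter.unusedSectionVars false
set_option linter.unusedVariables false
set_option linter.style.haveILetI false

universe u v

namespace H84.RK

open Cfsg H5.PBb H18.CharOrtho H18.CharBasic H20.Loc H84.FR H78.BlkCount H78.Contr H20.Orth H79.CentQ H20.NormQ
open scoped ComplexConjugate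
attribute [local instance 2000] Fintype.ofFinite

/-- counting -/
theorem count_ge {ι : Type v} [Finite ι] (c : ι → ℂ) (hc : ∃ i, c i ≠ 0) (m : ℕ) (hm : m = 0 → Nat.card ι = 1) :
    2 * Nat.card ι ≤ Nat.card {x : (Fin 2 × ι) ⊕ (Fin m × ι × ι) //
      Sum.elim (fun y : Fin 2 × ι => c y.2) (fun y : Fin m × ι × ι => c y.2.1 - c y.2.2) x ≠ 0} := by
  classical
  set A := Finset.univ.filter (fun i => c i ≠ 0) with hA
  set A' := Finset.univ.filter (fun i => ¬ c i ≠ 0) with hA'
  have h1 : A.card + A'.card = Nat.card ι := by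
    rw [Nat.card_eq_fintype_card, ← Finset.card_univ]
    exact Finset.card_filter_add_card_filter_not _
  have hApos : 0 < A.card := by
    obtain ⟨i, hi⟩ := hc
    exact Finset.card_pos.2 ⟨i, Finset.mem_filter.2 ⟨Finset.mem_univ _, hi⟩⟩
  rw [Nat.card_eq_fintype_card (α := {x : (Fin 2 × ι) ⊕ (Fin m × ι × ι) //
      Sum.elim (fun y : Fin 2 × ι => c y.2) (fun y : Fin m × ι × ι => c y.2.1 - c y.2.2) x ≠ 0}),
    Fintype.card_subtype]
  set F := Finset.univ.filter (fun x : (Fin 2 × ι) ⊕ (Fin m × ι × ι) =>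
      Sum.elim (fun y : Fin 2 × ι => c y.2) (fun y : Fin m × ι × ι => c y.2.1 - c y.2.2) x ≠ 0) with hF
  set E : Finset ((Fin 2 × ι) ⊕ (Fin m × ι × ι)) :=
    ((Finset.univ : Finset (Fin 2)) ×ˢ A).disjSum ((Finset.univ : Finset (Fin m)) ×ˢ ((A ×ˢ A') ∪ (A' ×ˢ A))) with hE
  have h2 : E ⊆ F := by
    intro x hx
    rw [hF, Finset.mem_filter]
    refine ⟨Finset.mem_univ _, ?_⟩
    rcases Finset.mem_disjSum.1 hx with ⟨y, hy, rfl⟩ | ⟨y, hy, rfl⟩
    · exact (Finset.mem_filter.1 (Finset.mem_product.1 hy).2).2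
    · rcases Finset.mem_union.1 (Finset.mem_product.1 hy).2 with h | h
      · have h3 := (Finset.mem_filter.1 (Finset.mem_product.1 h).1).2
        have h4 := not_not.1 (Finset.mem_filter.1 (Finset.mem_product.1 h).2).2
        show c y.2.1 - c y.2.2 ≠ 0
        rw [h4, sub_zero]; exact h3
      · have h3 := (Finset.mem_filter.1 (Finset.mem_product.1 h).2).2
        have h4 := not_not.1 (Finset.mem_filter.1 (Finset.mem_product.1 h).1).2
        show c y.2.1 - c y.2.2 ≠ 0
        rw [h4, zero_sub]; exact neg_ne_zero.2 h3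
  have h3 : Disjoint (A ×ˢ A') (A' ×ˢ A) := by
    rw [Finset.disjoint_left]
    intro x hx hx'
    exact (Finset.mem_filter.1 (Finset.mem_product.1 hx').1).2 (Finset.mem_filter.1 (Finset.mem_product.1 hx).1).2
  have h2' : (Finset.univ : Finset (Fin 2)).card = 2 := by
    rw [Finset.card_univ]
    have := Nat.card_eq_fintype_card (α := Fin 2)
    rw [← this, Nat.card_eq_fintype_card, Fintype.card_fin]
  have hm' : (Finset.univ : Finset (Fin m)).card = m := by
    rw [Finset.card_univ]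
    have := Nat.card_eq_fintype_card (α := Fin m)
    rw [← this, Nat.card_eq_fintype_card, Fintype.card_fin]
  have h4 : E.card = 2 * A.card + m * (A.card * A'.card + A'.card * A.card) := by
    rw [hE, Finset.card_disjSum, Finset.card_product, Finset.card_product, Finset.card_union_of_disjoint h3,
      Finset.card_product, Finset.card_product, h2', hm']
  have h5 := Finset.card_le_card h2
  rw [h4] at h5
  refine le_trans ?_ h5
  rw [← h1]
  rcases Nat.eq_zero_or_pos m with h | h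
  · have h6 := hm h
    have h7 : A'.card = 0 := by omega
    rw [h7]; omega
  · have h6 : A'.card ≤ A.card * A'.card := Nat.le_mul_of_pos_left _ hApos
    have h7 : A.card * A'.card + A'.card * A.card ≤ m * (A.card * A'.card + A'.card * A.card) :=
      Nat.le_mul_of_pos_left _ h
    have h8 : A'.card * A.card = A.card * A'.card := mul_comm _ _
    omega

section transfer
variable {K : Type u} [Group K] [Finite K] {p : ℕ} {M : Ideal AlgInt}

/-- the lifted vectors -/
noncomputable def lv (Q : Subgroup K) [Q.Normal] (p : ℕ) (w : K ⧸ Q → ℂ) : K → ℂ := (Nat.card Q : ℂ) • L Q p w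

theorem hCent (Q : Subgroup K) (hQc : Q ≤ Subgroup.center K) (x : K) (_ : ¬ p ∣ orderOf x) :
    x ∈ Subgroup.centralizer (Q : Set K) := by
  rw [Subgroup.mem_centralizer_iff]
  intro z hz
  exact (Subgroup.mem_center_iff.1 (hQc hz) x).symm

theorem inner_LL [hp : Fact p.Prime] (Q : Subgroup K) [Q.Normal] (hQ : IsPGroup p Q)
    (hQc : Q ≤ Subgroup.center K) (f h : K ⧸ Q → ℂ) :
    (Nat.card Q : ℂ) * classInner (L Q p f) (L Q p h) = classInner (reg p f) h := by
  rw [← inner_L Q hQ (hCent Q hQc) f h]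
  congr 1
  have h1 : L Q p h = reg p (fun g : K => h (g : K ⧸ Q)) := rfl
  rw [h1, ← inner_reg_left]
  congr 1
  exact reg_reg _

variable {ι : Type v} [Finite ι] {q m : ℕ}

open Classical in
theorem lv_gram [hp : Fact p.Prime] (Q : Subgroup K) [Q.Normal] (hQ : IsPGroup p Q)
    (hQc : Q ≤ Subgroup.center K) {b' : Set (IrrCharacter (K ⧸ Q))} {w : ι → K ⧸ Q → ℂ}
    (hA : TypeA p b' q m w) (i j : ι) :
    classInner (lv Q p (w i)) (lv Q p (w j)) = (Nat.card Q : ℂ) * ((if i = j then 1 else 0) + (m : ℂ)) := by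
  rw [lv, lv, H18.CharOrtho.inner_smul_left, H18.CharOrtho.inner_smul_right, Complex.conj_natCast,
    inner_LL Q hQ hQc, reg_of_mem_rspn (hA.mem i), hA.gram]

theorem lv_mem [hp : Fact p.Prime] (hM : IsPModular p M) (Q : Subgroup K) [Q.Normal] (hQ : IsPGroup p Q)
    (hQc : Q ≤ Subgroup.center K) {b : Set (IrrCharacter K)} (hPB : IsPBlock M b)
    {b' : Set (IrrCharacter (K ⧸ Q))} (hmem : ∀ ψ : IrrCharacter (K ⧸ Q), infl Q ψ ∈ b ↔ ψ ∈ b')
    {w : ι → K ⧸ Q → ℂ} (hA : TypeA p b' q m w) (i : ι) : lv Q p (w i) ∈ rspn p b := by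
  rw [rspn_quot hM Q hQ (hCent Q hQc) hPB hmem]
  exact Submodule.smul_mem _ _ ⟨_, hA.mem i, rfl⟩

theorem lv_int [hp : Fact p.Prime] (Q : Subgroup K) [Q.Normal] (hQ : IsPGroup p Q)
    (hQc : Q ≤ Subgroup.center K) {b' : Set (IrrCharacter (K ⧸ Q))}
    {w : ι → K ⧸ Q → ℂ} (hA : TypeA p b' q m w) (i : ι) (ξ : IrrCharacter K) :
    ∃ z : ℤ, classInner (lv Q p (w i)) (ξ : K → ℂ) = z := by
  rw [lv, H18.CharOrtho.inner_smul_left]
  exact inner_int Q hQ hQc (hA.gen i) (reg_of_mem_rspn (hA.mem i)) (isCharacter_of_isIrr ξ.2)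

theorem lv_sep [hp : Fact p.Prime] (hM : IsPModular p M) (Q : Subgroup K) [Q.Normal] (hQ : IsPGroup p Q)
    (hQc : Q ≤ Subgroup.center K) {b : Set (IrrCharacter K)} (hPB : IsPBlock M b)
    {b' : Set (IrrCharacter (K ⧸ Q))} (hmem : ∀ ψ : IrrCharacter (K ⧸ Q), infl Q ψ ∈ b ↔ ψ ∈ b')
    {w : ι → K ⧸ Q → ℂ} (hA : TypeA p b' q m w) {f : K → ℂ} (hf : f ∈ rspn p b)
    (h0 : ∀ i, classInner (lv Q p (w i)) f = 0) : f = 0 := by
  rw [rspn_quot hM Q hQ (hCent Q hQc) hPB hmem] at hf
  obtain ⟨g, hg, rfl⟩ := hf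
  have h1 : g = 0 := by
    apply hA.sep g hg
    intro i
    have h2 := h0 i
    rwa [lv, H18.CharOrtho.inner_smul_left, inner_LL Q hQ hQc, reg_of_mem_rspn (hA.mem i)] at h2
  rw [h1, map_zero]

end transfer

section fam
variable {K : Type u} [Group K] [Finite K] {ι : Type v} [Finite ι] {m : ℕ}

/-- the family of vectors -/
noncomputable def fam (m : ℕ) (W : ι → K → ℂ) : (Fin 2 × ι) ⊕ (Fin m × ι × ι) → K → ℂ :=
  Sum.elim (fun y => W y.2) (fun y => W y.2.1 - W y.2.2)

theorem fam_inner (W : ι → K → ℂ) (f : K → ℂ) (x : (Fin 2 × ι) ⊕ (Fin m × ι × ι)) :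
    classInner (fam m W x) f = Sum.elim (fun y : Fin 2 × ι => classInner (W y.2) f)
      (fun y : Fin m × ι × ι => classInner (W y.2.1) f - classInner (W y.2.2) f) x := by
  rcases x with y | y
  · rfl
  · exact H18.CharOrtho.inner_sub_left _ _ _

open Classical in
theorem fam_norm {W : ι → K → ℂ} {c : ℝ} (h : ∀ i j, classInner (W i) (W j) = (c : ℂ) * ((if i = j then 1 else 0) + (m : ℂ))) :
    ∑ x, (classInner (fam m W x) (fam m W x)).re = 2 * Nat.card ι * (c * (m * Nat.card ι + 1)) := by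
  have h0 : ∀ i, (classInner (W i) (W i)).re = c * (1 + m) := by
    intro i
    rw [h, if_pos rfl]
    have : (c : ℂ) * (1 + (m : ℂ)) = ((c * (1 + m) : ℝ) : ℂ) := by push_cast; rfl
    rw [this, Complex.ofReal_re]
  have h1 : ∀ i j, (classInner (W i - W j) (W i - W j)).re = 2 * c - (if i = j then 2 * c else 0) := by
    intro i j
    rw [H18.CharOrtho.inner_sub_left, H18.CharOrtho.inner_sub_right, H18.CharOrtho.inner_sub_right, h, h, h, h,
      if_pos rfl, if_pos rfl]
    by_cases hij : i = j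
    · subst hij
      rw [if_pos rfl, if_pos rfl]; simp
    · rw [if_neg hij, if_neg (Ne.symm hij), if_neg hij]
      have : (c : ℂ) * (1 + (m : ℂ)) - c * (0 + m) - (c * (0 + m) - c * (1 + m)) = ((2 * c : ℝ) : ℂ) := by
        push_cast; ring
      rw [this, Complex.ofReal_re, sub_zero]
  exact sum_fam m _ _ c (fun y => h0 y.2) (fun y => h1 y.2.1 y.2.2)

end fam

end H84.RK
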