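import Mathlib
import Cfsg.Agent.Lib.H84.RK1
import Cfsg.Agent.Lib.H84.RK3
import Cfsg.Agent.Lib.H84.RK5
import Cfsg.Agent.Lib.H84.RK6
import Cfsg.Agent.Lib.H77.DefQuot

/-!
# Blocks with abelian defect groups with two generators
-/

set_option autoImplicit false
set_option linter.unusedSectionVars false
set_option linter.unusedVariables false
set_option linter.style.haveILetI false

universe u

namespace H84.RK

open Cfsg H18.CharOrtho H18.CharBasic H20.Loc H78.BlkCount H20.Orth H79.CentQ H20.NormQ H20.Blk H20.Defect H20.DefGrp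
open scoped ComplexConjugate
attribute [local instance 2000] Fintype.ofFinite

variable {G : Type u} [Group G] [Finite G] {p : ℕ} {M : Ideal AlgInt}
variable {B : Set (IrrCharacter G)} {D : Subgroup G} {u : G}

/-- the centralizer -/
abbrev CC (u : G) : Subgroup G := Subgroup.centralizer ({u} : Set G)

theorem self_mem (u : G) : u ∈ CC u := Subgroup.mem_centralizer_singleton_iff.2 rfl

/-- the central subgroup generated by `u` -/
def QQ (u : G) : Subgroup (CC u) := Subgroup.zpowers ⟨u, self_mem u⟩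

theorem QQ_center (u : G) : QQ u ≤ Subgroup.center (CC u) := by
  rw [QQ, Subgroup.zpowers_le, Subgroup.mem_center_iff]
  intro g
  exact Subtype.ext (Subgroup.mem_centralizer_singleton_iff.1 g.2)

instance QQ_normal (u : G) : (QQ u).Normal :=
  ⟨fun n hn g => by
    have h1 := Subgroup.mem_center_iff.1 (QQ_center u hn) g
    rw [h1, mul_inv_cancel_right]; exact hn⟩

theorem card_QQ (u : G) : Nat.card (QQ u) = orderOf u := by
  rw [QQ, Nat.card_zpowers]
  exact Subgroup.orderOf_mk u (self_mem u)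

theorem QQ_pgroup (hu : ∃ k : ℕ, orderOf u = p ^ k) : IsPGroup p (QQ u) := by
  obtain ⟨k, hk⟩ := hu
  exact IsPGroup.of_card (n := k) (by rw [card_QQ, hk])

/-- the image of the defect group -/
def DD (D : Subgroup G) (u : G) : Subgroup (CC u ⧸ QQ u) := (D.subgroupOf (CC u)).map (QuotientGroup.mk' (QQ u))

theorem card_DD' (hu : u ∈ D) (hc : ∀ d ∈ D, d * u = u * d) :
    Nat.card (DD D u) * orderOf u = Nat.card D := by
  have hDC : D ≤ CC u := fun d hd => Subgroup.mem_centralizer_singleton_iff.2 (hc d hd)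
  have h1 : QQ u ≤ D.subgroupOf (CC u) := by
    rw [QQ, Subgroup.zpowers_le, Subgroup.mem_subgroupOf]; exact hu
  have h2 : Nat.card (D.subgroupOf (CC u)) = Nat.card D :=
    Nat.card_congr (Subgroup.subgroupOfEquivOfLe hDC).toEquiv
  rw [← h2, ← card_QQ]
  have h4 : Nat.card (DD D u) = (QQ u).relIndex (D.subgroupOf (CC u)) := by
    rw [DD, ← Subgroup.relIndex_bot_left]
    have := Subgroup.relIndex_comap (⊥ : Subgroup (CC u ⧸ QQ u)) (QuotientGroup.mk' (QQ u)) (D.subgroupOf (CC u))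
    rw [← this, MonoidHom.comap_bot, QuotientGroup.ker_mk']
  rw [h4, mul_comm, ← Subgroup.relIndex_bot_left, ← Subgroup.relIndex_bot_left]
  exact Subgroup.relIndex_mul_relIndex _ _ _ bot_le h1

theorem card_DD (hu : u ∈ D) (hab : ∀ x ∈ D, ∀ y ∈ D, x * y = y * x) :
    Nat.card (DD D u) * orderOf u = Nat.card D := card_DD' hu (fun d hd => hab d hd u hu)

/-- setup -/
theorem exists_quot_block' (hM : IsPModular p M) (hB : IsPBlock M B) (hD : IsDefectGroup p M B D)
    (hc : ∀ d ∈ D, d * u = u * d) (hu : u ∈ D) :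
    ∃ (b : Set (IrrCharacter (CC u))) (b' : Set (IrrCharacter (CC u ⧸ QQ u))),
      IsInducedBlock M (CC u) b B ∧ blockDefect p b = blockDefect p B ∧ IsPBlock M b' ∧
      (∀ ψ : IrrCharacter (CC u ⧸ QQ u), infl (QQ u) ψ ∈ b ↔ ψ ∈ b') ∧ IsDefectGroup p M b' (DD D u) ∧
      ∃ k : ℕ, orderOf u = p ^ k := by
  haveI : Fact p.Prime := ⟨pm_prime hM⟩
  obtain ⟨b, hb, hdef, hbD⟩ := exists_major hM hB hD hu hc
  have hup : ∃ k : ℕ, orderOf u = p ^ k := by
    obtain ⟨k, hk⟩ := IsPGroup.iff_orderOf.1 (isPGroup_of_isDefectGroup hD) ⟨u, hu⟩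
    exact ⟨k, by rw [← hk]; exact (Subgroup.orderOf_mk u hu).symm⟩
  obtain ⟨b', hb', hsub, hdg⟩ := H77.DefQuot.exists_block (QQ u) hM (QQ_pgroup hup) hb.1
  exact ⟨b, b', hb, hdef, hb', mem_iff_of_sub hM (QQ u) (QQ_pgroup hup) (hCent (QQ u) (QQ_center u)) hb.1 hb' hsub,
    (hdg _).2 ⟨_, hbD, rfl⟩, hup⟩

theorem exists_quot_block (hM : IsPModular p M) (hB : IsPBlock M B) (hD : IsDefectGroup p M B D)
    (hab : ∀ x ∈ D, ∀ y ∈ D, x * y = y * x) (hu : u ∈ D) :
    ∃ (b : Set (IrrCharacter (CC u))) (b' : Set (IrrCharacter (CC u ⧸ QQ u))),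
      IsInducedBlock M (CC u) b B ∧ blockDefect p b = blockDefect p B ∧ IsPBlock M b' ∧
      (∀ ψ : IrrCharacter (CC u ⧸ QQ u), infl (QQ u) ψ ∈ b ↔ ψ ∈ b') ∧ IsDefectGroup p M b' (DD D u) ∧
      ∃ k : ℕ, orderOf u = p ^ k := exists_quot_block' hM hB hD (fun d hd => hab d hd u hu) hu

/-- `k(B) ≤ p ^ d k(b')` -/
theorem card_le_mul (hM : IsPModular p M) {b : Set (IrrCharacter (CC u))} {b' : Set (IrrCharacter (CC u ⧸ QQ u))}
    (hb : IsInducedBlock M (CC u) b B) (hdef : blockDefect p b = blockDefect p B)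
    (hmem : ∀ ψ : IrrCharacter (CC u ⧸ QQ u), infl (QQ u) ψ ∈ b ↔ ψ ∈ b') (hup : ∃ k : ℕ, orderOf u = p ^ k) :
    Nat.card B ≤ p ^ blockDefect p B * Nat.card b' := by
  haveI : Fact p.Prime := ⟨pm_prime hM⟩
  obtain ⟨i, ζ, e, S⟩ := H78.Contr.exists_sit (H := CC u) hM rfl hup hb
  refine (card_le S hdef).trans (Nat.mul_le_mul_left _ ?_)
  exact rank_le_quot hM (QQ u) (QQ_pgroup hup) (hCent (QQ u) (QQ_center u)) hb.1 hmem

/-- the cyclic quotient case -/
theorem card_le_of_cyclic' (hM : IsPModular p M) (hB : IsPBlock M B) (hD : IsDefectGroup p M B D)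
    (hc : ∀ d ∈ D, d * u = u * d) (hu : u ∈ D) (hcyc : IsCyclic (DD D u)) :
    Nat.card B ≤ Nat.card D := by
  classical
  haveI : Fact p.Prime := ⟨pm_prime hM⟩
  obtain ⟨b, b', hb, hdef, hb', hmem, hbD, hup⟩ := exists_quot_block' hM hB hD hc hu
  obtain ⟨m, ι, hι, w, hA⟩ := exists_typeA hM hb' hbD hcyc
  obtain ⟨i, ζ, e, S⟩ := H78.Contr.exists_sit (H := CC u) hM rfl hup hb
  have hQp := QQ_pgroup hup
  have hQc := QQ_center u
  set W : ι → CC u → ℂ := fun i => lv (QQ u) p (w i) with hW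
  have hWmem : ∀ i, W i ∈ rspn p b := fun i => lv_mem hM (QQ u) hQp hQc hb.1 hmem hA i
  have hFmem : ∀ x, fam m W x ∈ rspn p b := by
    rintro (y | y)
    · exact hWmem _
    · exact Submodule.sub_mem _ (hWmem _) (hWmem _)
  have hWint : ∀ x (ξ : IrrCharacter (CC u)), ∃ z : ℤ, classInner (fam m W x) (ξ : CC u → ℂ) = z := by
    intro x ξ
    rw [fam_inner]
    rcases x with y | y
    · exact lv_int (QQ u) hQp hQc hA y.2 ξ
    · obtain ⟨z1, h1⟩ := lv_int (QQ u) hQp hQc hA y.2.1 ξ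
      obtain ⟨z2, h2⟩ := lv_int (QQ u) hQp hQc hA y.2.2 ξ
      exact ⟨z1 - z2, by
        show classInner (W y.2.1) _ - classInner (W y.2.2) _ = _
        rw [h1, h2]; push_cast; rfl⟩
  choose z hz using hWint
  have hgram : ∀ i j, classInner (W i) (W j) = ((orderOf u : ℝ) : ℂ) * ((if i = j then 1 else 0) + (m : ℂ)) := by
    intro i j
    rw [hW, lv_gram (QQ u) hQp hQc hA, card_QQ]
    push_cast; rfl
  have hnorm := fam_norm hgram
  have hcount : ∀ f ∈ rspn p b, f ≠ 0 → 2 * Nat.card ι ≤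
      Nat.card {x : (Fin 2 × ι) ⊕ (Fin m × ι × ι) // classInner (fam m W x) f ≠ 0} := by
    intro f hf hf0
    have h1 : ∃ i, classInner (W i) f ≠ 0 := by
      by_contra hcon
      push Not at hcon
      exact hf0 (lv_sep hM (QQ u) hQp hQc hb.1 hmem hA hf hcon)
    have h2 := count_ge (fun i => classInner (W i) f) h1 m hA.zero
    refine h2.trans (le_of_eq ?_)
    refine Nat.card_congr (Equiv.subtypeEquivRight fun x => ?_)
    rw [fam_inner]
  have hmain := mul_card_le S hdef (fam m W) hFmem z hz (2 * Nat.card ι) hcount _ (le_of_eq hnorm)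
  have hcd := card_DD' hu hc
  have h1 : (orderOf u : ℝ) * (m * Nat.card ι + 1) = Nat.card D := by
    rw [← hcd, ← hA.card]; push_cast; ring
  rw [h1] at hmain
  have hpos : (0 : ℝ) < 2 * Nat.card ι := by
    have := hA.pos
    have : (0 : ℝ) < Nat.card ι := by exact_mod_cast this
    linarith
  push_cast at hmain
  have h2 := le_of_mul_le_mul_left hmain hpos
  exact_mod_cast h2

theorem card_le_of_cyclic (hM : IsPModular p M) (hB : IsPBlock M B) (hD : IsDefectGroup p M B D)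
    (hab : ∀ x ∈ D, ∀ y ∈ D, x * y = y * x) (hu : u ∈ D) (hcyc : IsCyclic (DD D u)) :
    Nat.card B ≤ Nat.card D := card_le_of_cyclic' hM hB hD (fun d hd => hab d hd u hu) hu hcyc

end H84.RK
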