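import Mathlib
import Cfsg.Agent.Lib.H84.RK7

/-!
# Blocks with abelian defect groups of rank two or three
-/

set_option autoImplicit false
set_option linter.unusedSectionVars false
set_option linter.unusedVariables false
set_option linter.style.haveILetI false

universe u v

namespace H84.RK

open Cfsg H18.CharOrtho H18.CharBasic H20.Loc H78.BlkCount H20.Orth H79.CentQ H20.NormQ H20.Blk H20.Defect H20.DefGrp
open scoped ComplexConjugate
attribute [local instance 2000] Fintype.ofFinite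

variable {G : Type u} [Group G] [Finite G] {p : ℕ} {M : Ideal AlgInt}
variable {B : Set (IrrCharacter G)} {D : Subgroup G} {u : G}

theorem mem_DD {x : CC u ⧸ QQ u} (hx : x ∈ DD D u) : ∃ (d : G) (hd : d ∈ CC u), d ∈ D ∧ x = QuotientGroup.mk ⟨d, hd⟩ := by
  obtain ⟨y, hy, rfl⟩ := hx
  exact ⟨y, y.2, Subgroup.mem_subgroupOf.1 hy, rfl⟩

theorem DD_comm (hab : ∀ x ∈ D, ∀ y ∈ D, x * y = y * x) :
    ∀ x ∈ DD D u, ∀ y ∈ DD D u, x * y = y * x := by
  intro x hx y hy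
  obtain ⟨c, hc, hcD, rfl⟩ := mem_DD hx
  obtain ⟨d, hd, hdD, rfl⟩ := mem_DD hy
  rw [← QuotientGroup.mk_mul, ← QuotientGroup.mk_mul]
  congr 1
  exact Subtype.ext (hab c hcD d hdD)

theorem mk_u : (QuotientGroup.mk (⟨u, self_mem u⟩ : CC u) : CC u ⧸ QQ u) = 1 := by
  rw [QuotientGroup.eq_one_iff]
  exact Subgroup.mem_zpowers _

/-- generators of the quotient, one generator -/
theorem DD_cyclic (hab : ∀ x ∈ D, ∀ y ∈ D, x * y = y * x) (hu : u ∈ D) {a : G} (ha : a ∈ D)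
    (hgen : ∀ x ∈ D, ∃ i j : ℤ, x = u ^ i * a ^ j) : IsCyclic (DD D u) := by
  have haC : a ∈ CC u := Subgroup.mem_centralizer_singleton_iff.2 (hab a ha u hu)
  have h1 : (QuotientGroup.mk (⟨a, haC⟩ : CC u) : CC u ⧸ QQ u) ∈ DD D u :=
    ⟨⟨a, haC⟩, Subgroup.mem_subgroupOf.2 ha, rfl⟩
  refine ⟨⟨⟨_, h1⟩, fun ⟨x, hx⟩ => ?_⟩⟩
  obtain ⟨d, hd, hdD, rfl⟩ := mem_DD hx
  obtain ⟨i, j, hij⟩ := hgen d hdD
  refine ⟨j, Subtype.ext ?_⟩
  show (QuotientGroup.mk (⟨a, haC⟩ : CC u) : CC u ⧸ QQ u) ^ j = QuotientGroup.mk ⟨d, hd⟩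
  have h2 : (⟨d, hd⟩ : CC u) = ⟨u, self_mem u⟩ ^ i * ⟨a, haC⟩ ^ j := Subtype.ext hij
  rw [h2, QuotientGroup.mk_mul, QuotientGroup.mk_zpow, QuotientGroup.mk_zpow, mk_u, one_zpow, one_mul]

/-- two generators -/
theorem card_le_two_gen (hM : IsPModular p M) (hB : IsPBlock M B) (hD : IsDefectGroup p M B D)
    (hab : ∀ x ∈ D, ∀ y ∈ D, x * y = y * x) {a b : G} (ha : a ∈ D) (hb : b ∈ D)
    (hgen : ∀ x ∈ D, ∃ i j : ℤ, x = a ^ i * b ^ j) : Nat.card B ≤ Nat.card D :=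
  card_le_of_cyclic hM hB hD hab ha (DD_cyclic hab ha hb hgen)

/-- three generators, the first of large order -/
theorem three_gen_aux (hM : IsPModular p M) (hB : IsPBlock M B) (hD : IsDefectGroup p M B D)
    (hab : ∀ x ∈ D, ∀ y ∈ D, x * y = y * x) {u a b : G} (hu : u ∈ D) (ha : a ∈ D) (hb : b ∈ D)
    (hgen : ∀ x ∈ D, ∃ i j k : ℤ, x = u ^ i * a ^ j * b ^ k) {d : ℕ} (hd : Nat.card D = p ^ d)
    (hlarge : p ^ d ≤ orderOf u ^ 3) : Nat.card B ^ 3 ≤ p ^ (5 * d) := by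
  have hp := pm_prime hM
  obtain ⟨β, β', hβ, hdef, hβ', hmem, hβD, hup⟩ := exists_quot_block hM hB hD hab hu
  have haC : a ∈ CC u := Subgroup.mem_centralizer_singleton_iff.2 (hab a ha u hu)
  have hbC : b ∈ CC u := Subgroup.mem_centralizer_singleton_iff.2 (hab b hb u hu)
  have h1 : Nat.card β' ≤ Nat.card (DD D u) := by
    refine card_le_two_gen hM hβ' hβD (DD_comm hab) (a := QuotientGroup.mk (⟨a, haC⟩ : CC u))
      (b := QuotientGroup.mk (⟨b, hbC⟩ : CC u)) ⟨⟨a, haC⟩, Subgroup.mem_subgroupOf.2 ha, rfl⟩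
      ⟨⟨b, hbC⟩, Subgroup.mem_subgroupOf.2 hb, rfl⟩ ?_
    intro x hx
    obtain ⟨d, hd, hdD, rfl⟩ := mem_DD hx
    obtain ⟨i, j, k, hijk⟩ := hgen d hdD
    refine ⟨j, k, ?_⟩
    have h2 : (⟨d, hd⟩ : CC u) = ⟨u, self_mem u⟩ ^ i * ⟨a, haC⟩ ^ j * ⟨b, hbC⟩ ^ k := Subtype.ext hijk
    rw [h2, QuotientGroup.mk_mul, QuotientGroup.mk_mul, QuotientGroup.mk_zpow, QuotientGroup.mk_zpow,
      QuotientGroup.mk_zpow, mk_u, one_zpow, one_mul]
  have h2 := card_le_mul hM hβ hdef hmem hup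
  have h3 := card_DD hu hab
  have h4 := card_defectGroup hM hB hD
  rw [← h4, hd] at h2
  rw [hd] at h3
  have h5 : Nat.card B * orderOf u ≤ p ^ (2 * d) := by
    calc Nat.card B * orderOf u ≤ (p ^ d * Nat.card (DD D u)) * orderOf u :=
          Nat.mul_le_mul_right _ (h2.trans (Nat.mul_le_mul_left _ h1))
      _ = p ^ d * p ^ d := by rw [mul_assoc, h3]
      _ = p ^ (2 * d) := by rw [two_mul, pow_add]
  have h6 : Nat.card B ^ 3 * p ^ d ≤ p ^ (5 * d) * p ^ d := by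
    calc Nat.card B ^ 3 * p ^ d ≤ Nat.card B ^ 3 * orderOf u ^ 3 := Nat.mul_le_mul_left _ hlarge
      _ = (Nat.card B * orderOf u) ^ 3 := (mul_pow _ _ _).symm
      _ ≤ (p ^ (2 * d)) ^ 3 := Nat.pow_le_pow_left h5 3
      _ = p ^ (5 * d) * p ^ d := by rw [← pow_mul, ← pow_add]; congr 1; ring
  exact Nat.le_of_mul_le_mul_right h6 (pow_pos hp.pos d)

theorem card_le_orders {D : Subgroup G} {a b c : G} (ha : a ∈ D) (hb : b ∈ D) (hc : c ∈ D)
    (hgen : ∀ x ∈ D, ∃ i j k : ℤ, x = a ^ i * b ^ j * c ^ k) :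
    Nat.card D ≤ orderOf a * orderOf b * orderOf c := by
  have h1 : Function.Surjective (fun z : (Subgroup.zpowers a × Subgroup.zpowers b) × Subgroup.zpowers c =>
      (⟨(z.1.1 : G) * z.1.2 * z.2, D.mul_mem (D.mul_mem ((Subgroup.zpowers_le.2 ha) z.1.1.2)
        ((Subgroup.zpowers_le.2 hb) z.1.2.2)) ((Subgroup.zpowers_le.2 hc) z.2.2)⟩ : D)) := by
    rintro ⟨x, hx⟩
    obtain ⟨i, j, k, h⟩ := hgen x hx
    exact ⟨((⟨a ^ i, i, rfl⟩, ⟨b ^ j, j, rfl⟩), ⟨c ^ k, k, rfl⟩), Subtype.ext h.symm⟩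
  have h2 := Nat.card_le_card_of_surjective _ h1
  rwa [Nat.card_prod, Nat.card_prod, Nat.card_zpowers, Nat.card_zpowers, Nat.card_zpowers] at h2

theorem three_gen (hM : IsPModular p M) (hB : IsPBlock M B) (hD : IsDefectGroup p M B D)
    (hab : ∀ x ∈ D, ∀ y ∈ D, x * y = y * x) {a b c : G} (ha : a ∈ D) (hb : b ∈ D) (hc : c ∈ D)
    (hgen : ∀ x ∈ D, ∃ i j k : ℤ, x = a ^ i * b ^ j * c ^ k) {d : ℕ} (hd : Nat.card D = p ^ d) :
    Nat.card B ^ 3 ≤ p ^ (5 * d) := by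
  have h0 := card_le_orders ha hb hc hgen
  rw [hd] at h0
  have hz : ∀ {x y : G} (_ : x ∈ D) (_ : y ∈ D) (i j : ℤ), x ^ i * y ^ j = y ^ j * x ^ i :=
    fun hx hy i j => hab _ (D.zpow_mem hx i) _ (D.zpow_mem hy j)
  by_cases h1 : orderOf b ≤ orderOf a
  · by_cases h2 : orderOf c ≤ orderOf a
    · refine three_gen_aux hM hB hD hab ha hb hc hgen hd (h0.trans ?_)
      calc orderOf a * orderOf b * orderOf c ≤ orderOf a * orderOf a * orderOf a :=
            Nat.mul_le_mul (Nat.mul_le_mul_left _ h1) h2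
        _ = orderOf a ^ 3 := by ring
    · refine three_gen_aux hM hB hD hab hc ha hb (fun x hx => ?_) hd (h0.trans ?_)
      · obtain ⟨i, j, k, h⟩ := hgen x hx
        refine ⟨k, i, j, ?_⟩
        rw [h, mul_assoc, hz hb hc, ← mul_assoc, hz ha hc]
      · push Not at h2
        calc orderOf a * orderOf b * orderOf c ≤ orderOf c * orderOf c * orderOf c :=
            Nat.mul_le_mul_right _ (Nat.mul_le_mul h2.le (h1.trans h2.le))
        _ = orderOf c ^ 3 := by ring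
  · push Not at h1
    by_cases h2 : orderOf c ≤ orderOf b
    · refine three_gen_aux hM hB hD hab hb ha hc (fun x hx => ?_) hd (h0.trans ?_)
      · obtain ⟨i, j, k, h⟩ := hgen x hx
        exact ⟨j, i, k, by rw [h, hz ha hb]⟩
      · calc orderOf a * orderOf b * orderOf c ≤ orderOf b * orderOf b * orderOf b :=
            Nat.mul_le_mul (Nat.mul_le_mul_right _ h1.le) h2
        _ = orderOf b ^ 3 := by ring
    · push Not at h2
      refine three_gen_aux hM hB hD hab hc ha hb (fun x hx => ?_) hd (h0.trans ?_)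
      · obtain ⟨i, j, k, h⟩ := hgen x hx
        refine ⟨k, i, j, ?_⟩
        rw [h, mul_assoc, hz hb hc, ← mul_assoc, hz ha hc]
      · calc orderOf a * orderOf b * orderOf c ≤ orderOf c * orderOf c * orderOf c :=
            Nat.mul_le_mul_right _ (Nat.mul_le_mul (h1.le.trans h2.le) h2.le)
        _ = orderOf c ^ 3 := by ring

theorem main (hM : IsPModular p M) (hB : IsPBlock M B) (hD : IsDefectGroup p M B D)
    (hab : IsMulCommutative D) {d : ℕ} (hd : Nat.card D = p ^ d) :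
    (Group.rank D = 2 → Nat.card B ≤ p ^ d) ∧ (Group.rank D = 3 → Nat.card B ^ 3 ≤ p ^ (5 * d)) := by
  classical
  have hcomm : ∀ a b : D, a * b = b * a := isMulCommutative_iff.1 hab
  have hab' : ∀ x ∈ D, ∀ y ∈ D, x * y = y * x := fun x hx y hy =>
    congrArg Subtype.val (hcomm ⟨x, hx⟩ ⟨y, hy⟩)
  letI : CommGroup D := { (inferInstance : Group D) with mul_comm := hcomm }
  obtain ⟨S, hS1, hS2⟩ := Group.rank_spec D
  constructor
  · intro hr
    rw [hr] at hS1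
    obtain ⟨a, b, hne, rfl⟩ := Finset.card_eq_two.1 hS1
    rw [← hd]
    refine card_le_two_gen hM hB hD hab' a.2 b.2 (fun x hx => ?_)
    have h1 : (⟨x, hx⟩ : D) ∈ Subgroup.closure ({a, b} : Set D) := by
      have h2 : ((({a, b} : Finset D) : Set D)) = {a, b} := by simp
      rw [h2] at hS2
      rw [hS2]; exact Subgroup.mem_top _
    obtain ⟨i, j, h⟩ := Subgroup.mem_closure_pair.1 h1
    exact ⟨i, j, (congrArg Subtype.val h).symm⟩
  · intro hr
    rw [hr] at hS1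
    obtain ⟨a, b, c, h1, h2, h3, rfl⟩ := Finset.card_eq_three.1 hS1
    refine three_gen hM hB hD hab' a.2 b.2 c.2 (fun x hx => ?_) hd
    have h1 : (⟨x, hx⟩ : D) ∈ Subgroup.closure ({a, b, c} : Set D) := by
      have h2 : ((({a, b, c} : Finset D) : Set D)) = {a, b, c} := by simp
      rw [h2] at hS2
      rw [hS2]; exact Subgroup.mem_top _
    have h2 : ({a, b, c} : Set D) = {a} ∪ {b, c} := by
      rw [Set.singleton_union]
    rw [h2, Subgroup.closure_union, Subgroup.mem_sup] at h1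
    obtain ⟨y, hy, z, hz, hyz⟩ := h1
    obtain ⟨i, hi⟩ := Subgroup.mem_closure_singleton.1 hy
    obtain ⟨j, k, hjk⟩ := Subgroup.mem_closure_pair.1 hz
    refine ⟨i, j, k, ?_⟩
    have h3 : (⟨x, hx⟩ : D) = a ^ i * b ^ j * c ^ k := by
      rw [← hyz, ← hi, ← hjk, mul_assoc]
    exact congrArg Subtype.val h3

end H84.RK
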