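import Mathlib
import Cfsg.Agent.Lib.H84.RK1

/-! Two inequalities for the numbers of characters of height zero and positive height. -/

set_option autoImplicit false
set_option linter.unusedSectionVars false
set_option linter.unusedVariables false
set_option linter.style.haveILetI false
open Cfsg H20.Loc H20.GA H20.Blk H20.Orth H20.Defect H20.Height H78.BlkCount H78.Sect
open Polynomial H78.Cyc2 H78.Contr
open scoped ComplexConjugate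

namespace H84.RK

universe u v

variable {G : Type u} [Group G] [Fintype G] {M : Ideal AlgInt} {p : ℕ}
variable {H : Subgroup G} [Fintype H] {u : G} {n : ℕ} {ζ : ℂ} {e : IrrCharacter H → ℕ}
  {b : Set (IrrCharacter H)} {B : Set (IrrCharacter G)} [Fintype (IrrCharacter H)]
  [Fintype (IrrCharacter G)]

/-- the averaged lower bound for the contributions -/
theorem avg_ge (S : Sit M p H u n ζ e b B) (hq : blockDefect p b = blockDefect p B)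
    {χ ψ : IrrCharacter G} (hχ : χ ∈ B) (hψ : ψ ∈ B) (hχ0 : blockHeight p B (χ : G → ℂ) = 0) :
    ((primitiveRoots n ℂ).card : ℝ) * ((p : ℝ) ^ blockHeight p B (ψ : G → ℂ)) ^ 2 ≤
      ∑ μ ∈ primitiveRoots n ℂ, ‖S.A μ χ ψ‖ ^ 2 := by
  have hζR : ζ ∈ primitiveRoots n ℂ := (mem_primitiveRoots (Nat.pos_of_ne_zero S.n_ne)).2 S.hζ
  have h1 := norm_ineq S.hM S.n_ne (f := Pol H p b n e ψ χ) (k := blockHeight p B (ψ : G → ℂ))
    (fun μ hμ => (S.major hq hψ hχ hμ).1) S.hζ (S.major_ne_zero hq hψ hχ hχ0 hζR)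
  refine h1.trans (le_of_eq ?_)
  refine Finset.sum_congr rfl fun μ hμ => ?_
  have h2 := S.conj_A hμ χ ψ
  show ‖S.A μ ψ χ‖ ^ 2 = _
  rw [← h2, Complex.norm_conj]

/-- height zero characters -/
noncomputable def T0 (p : ℕ) (B : Set (IrrCharacter G)) : Finset (IrrCharacter G) :=
  @Finset.filter _ (fun ψ : IrrCharacter G => ψ ∈ B ∧ blockHeight p B (ψ : G → ℂ) = 0)
    (Classical.decPred _) Finset.univ

/-- characters of positive height -/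
noncomputable def T1 (p : ℕ) (B : Set (IrrCharacter G)) : Finset (IrrCharacter G) :=
  @Finset.filter _ (fun ψ : IrrCharacter G => ψ ∈ B ∧ blockHeight p B (ψ : G → ℂ) ≠ 0)
    (Classical.decPred _) Finset.univ

theorem mem_T0 {χ : IrrCharacter G} : χ ∈ T0 p B ↔ χ ∈ B ∧ blockHeight p B (χ : G → ℂ) = 0 := by
  exact (@Finset.mem_filter _ _ (Classical.decPred _) _ _).trans (by simp)

theorem mem_T1 {χ : IrrCharacter G} : χ ∈ T1 p B ↔ χ ∈ B ∧ blockHeight p B (χ : G → ℂ) ≠ 0 := by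
  exact (@Finset.mem_filter _ _ (Classical.decPred _) _ _).trans (by simp)

theorem disj_T : Disjoint (T0 p B) (T1 p B) := by
  rw [Finset.disjoint_left]
  intro x h h'
  exact (mem_T1.1 h').2 (mem_T0.1 h).2

theorem card_T : (T0 p B).card + (T1 p B).card = Nat.card B := by
  classical
  have h1 : Nat.card B = Nat.card {ψ : IrrCharacter G // ψ ∈ B} := rfl
  rw [h1, Nat.card_eq_fintype_card, Fintype.card_subtype, ← Finset.card_union_of_disjoint disj_T]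
  congr 1
  ext χ
  rw [Finset.mem_union, mem_T0, mem_T1, Finset.mem_filter]
  constructor
  · rintro (h | h)
    · exact ⟨Finset.mem_univ _, h.1⟩
    · exact ⟨Finset.mem_univ _, h.1⟩
  · rintro ⟨-, h⟩
    by_cases h0 : blockHeight p B (χ : G → ℂ) = 0
    · exact Or.inl ⟨h, h0⟩
    · exact Or.inr ⟨h, h0⟩

/-- sums over pairs of averaged squares are bounded below -/
theorem sum_ge (S : Sit M p H u n ζ e b B) (hq : blockDefect p b = blockDefect p B)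
    {χ : IrrCharacter G} (hχ : χ ∈ T0 p B) (s : Finset (IrrCharacter G)) (hs0 : s ⊆ T0 p B) :
    ((primitiveRoots n ℂ).card : ℝ) * (s.card + (p : ℝ) ^ 2 * (T1 p B).card) ≤
      ∑ ψ ∈ s ∪ T1 p B, ∑ μ ∈ primitiveRoots n ℂ, ‖S.A μ χ ψ‖ ^ 2 := by
  classical
  have hp := pm_prime S.hM
  obtain ⟨hχB, hχ0⟩ := mem_T0.1 hχ
  have hR0 : (0 : ℝ) ≤ (primitiveRoots n ℂ).card := Nat.cast_nonneg _
  have hd : Disjoint s (T1 p B) := Finset.disjoint_of_subset_left hs0 disj_T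
  rw [Finset.sum_union hd]
  have h1 : (s.card : ℝ) * (primitiveRoots n ℂ).card ≤ ∑ ψ ∈ s, ∑ μ ∈ primitiveRoots n ℂ, ‖S.A μ χ ψ‖ ^ 2 := by
    rw [← nsmul_eq_mul, ← Finset.sum_const]
    refine Finset.sum_le_sum fun ψ hψ => ?_
    obtain ⟨hψB, hψ0⟩ := mem_T0.1 (hs0 hψ)
    have h2 := avg_ge S hq hχB hψB hχ0
    rw [hψ0, pow_zero, one_pow, mul_one] at h2
    exact h2
  have h2 : ((T1 p B).card : ℝ) * ((primitiveRoots n ℂ).card * (p : ℝ) ^ 2) ≤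
      ∑ ψ ∈ T1 p B, ∑ μ ∈ primitiveRoots n ℂ, ‖S.A μ χ ψ‖ ^ 2 := by
    rw [← nsmul_eq_mul, ← Finset.sum_const]
    refine Finset.sum_le_sum fun ψ hψ => ?_
    obtain ⟨hψB, hψ0⟩ := mem_T1.1 hψ
    refine le_trans ?_ (avg_ge S hq hχB hψB hχ0)
    apply mul_le_mul_of_nonneg_left _ hR0
    have h3 : (1 : ℝ) ≤ p := by exact_mod_cast hp.one_lt.le
    have h4 : (p : ℝ) ≤ (p : ℝ) ^ blockHeight p B (ψ : G → ℂ) := by
      conv_lhs => rw [← pow_one (p : ℝ)]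
      exact pow_le_pow_right₀ h3 (Nat.one_le_iff_ne_zero.2 hψ0)
    exact pow_le_pow_left₀ (by linarith) h4 2
  linarith

/-- symmetric sums -/
theorem a_symm (S : Sit M p H u n ζ e b B) (χ ψ : IrrCharacter G) :
    ∑ μ ∈ primitiveRoots n ℂ, ‖S.A μ χ ψ‖ ^ 2 = ∑ μ ∈ primitiveRoots n ℂ, ‖S.A μ ψ χ‖ ^ 2 := by
  refine Finset.sum_congr rfl fun μ hμ => ?_
  rw [← S.conj_A hμ χ ψ, Complex.norm_conj]

/-- the first inequality -/
theorem ineqA (S : Sit M p H u n ζ e b B) (hq : blockDefect p b = blockDefect p B) :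
    ((T0 p B).card : ℝ) ^ 2 + 2 * (p : ℝ) ^ 2 * (T0 p B).card * (T1 p B).card ≤
      ((p : ℝ) ^ blockDefect p B) ^ 2 * blockRank p b := by
  classical
  have hp := pm_prime S.hM
  set R := primitiveRoots n ℂ with hR
  have hζR : ζ ∈ R := (mem_primitiveRoots (Nat.pos_of_ne_zero S.n_ne)).2 S.hζ
  have hRpos : (0 : ℝ) < R.card := by exact_mod_cast Finset.card_pos.2 ⟨ζ, hζR⟩
  have hnn : ∀ χ ψ : IrrCharacter G, 0 ≤ ∑ μ ∈ R, ‖S.A μ χ ψ‖ ^ 2 := fun χ ψ =>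
    Finset.sum_nonneg fun _ _ => by positivity
  -- total
  have htot : ∀ μ ∈ R, ∑ χ : IrrCharacter G, ∑ ψ : IrrCharacter G, ‖S.A μ χ ψ‖ ^ 2 =
      ((p : ℝ) ^ blockDefect p B) ^ 2 * blockRank p b := by
    intro μ hμ
    rw [Finset.sum_congr rfl fun χ _ => S.sum_norm hμ χ, ← Finset.mul_sum, S.sum_diag_re hμ, hq]
    ring
  have h0 : ∑ χ : IrrCharacter G, ∑ ψ : IrrCharacter G, ∑ μ ∈ R, ‖S.A μ χ ψ‖ ^ 2 =
      R.card * (((p : ℝ) ^ blockDefect p B) ^ 2 * blockRank p b) := by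
    have h1 : ∑ μ ∈ R, ∑ χ : IrrCharacter G, ∑ ψ : IrrCharacter G, ‖S.A μ χ ψ‖ ^ 2 =
        R.card * (((p : ℝ) ^ blockDefect p B) ^ 2 * blockRank p b) := by
      rw [Finset.sum_congr rfl htot, Finset.sum_const, nsmul_eq_mul]
    rw [← h1]
    calc ∑ χ : IrrCharacter G, ∑ ψ : IrrCharacter G, ∑ μ ∈ R, ‖S.A μ χ ψ‖ ^ 2
        = ∑ χ : IrrCharacter G, ∑ μ ∈ R, ∑ ψ : IrrCharacter G, ‖S.A μ χ ψ‖ ^ 2 :=
          Finset.sum_congr rfl fun χ _ => Finset.sum_comm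
      _ = _ := Finset.sum_comm
  have h1 : ((T0 p B).card : ℝ) * ((R.card : ℝ) * ((T0 p B).card + (p : ℝ) ^ 2 * (T1 p B).card)) ≤
      ∑ χ ∈ T0 p B, ∑ ψ : IrrCharacter G, ∑ μ ∈ R, ‖S.A μ χ ψ‖ ^ 2 := by
    rw [← nsmul_eq_mul, ← Finset.sum_const]
    refine Finset.sum_le_sum fun χ hχ => ?_
    refine (sum_ge S hq hχ (T0 p B) subset_rfl).trans ?_
    exact Finset.sum_le_sum_of_subset_of_nonneg (Finset.subset_univ _) fun _ _ _ => hnn _ _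
  have h2 : ((T0 p B).card : ℝ) * ((R.card : ℝ) * ((p : ℝ) ^ 2 * (T1 p B).card)) ≤
      ∑ χ ∈ T1 p B, ∑ ψ : IrrCharacter G, ∑ μ ∈ R, ‖S.A μ χ ψ‖ ^ 2 := by
    have h3 : ((T0 p B).card : ℝ) * ((R.card : ℝ) * ((p : ℝ) ^ 2 * (T1 p B).card)) ≤
        ∑ χ ∈ T0 p B, ∑ ψ ∈ T1 p B, ∑ μ ∈ R, ‖S.A μ χ ψ‖ ^ 2 := by
      rw [← nsmul_eq_mul, ← Finset.sum_const]
      refine Finset.sum_le_sum fun χ hχ => ?_
      have h4 := sum_ge S hq hχ ∅ (Finset.empty_subset _)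
      rw [Finset.card_empty, Nat.cast_zero, zero_add, Finset.empty_union] at h4
      exact h4
    refine h3.trans ?_
    rw [Finset.sum_comm]
    refine Finset.sum_le_sum fun χ hχ => ?_
    rw [Finset.sum_congr rfl fun ψ _ => a_symm S ψ χ]
    exact Finset.sum_le_sum_of_subset_of_nonneg (Finset.subset_univ _) fun _ _ _ => hnn _ _
  have h3 : ∑ χ ∈ T0 p B, ∑ ψ : IrrCharacter G, ∑ μ ∈ R, ‖S.A μ χ ψ‖ ^ 2 +
      ∑ χ ∈ T1 p B, ∑ ψ : IrrCharacter G, ∑ μ ∈ R, ‖S.A μ χ ψ‖ ^ 2 ≤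
      ∑ χ : IrrCharacter G, ∑ ψ : IrrCharacter G, ∑ μ ∈ R, ‖S.A μ χ ψ‖ ^ 2 := by
    rw [← Finset.sum_union disj_T]
    exact Finset.sum_le_sum_of_subset_of_nonneg (Finset.subset_univ _) fun _ _ _ =>
      Finset.sum_nonneg fun _ _ => hnn _ _
  rw [h0] at h3
  have h4 : (R.card : ℝ) * (((T0 p B).card : ℝ) ^ 2 + 2 * (p : ℝ) ^ 2 * (T0 p B).card * (T1 p B).card) ≤
      R.card * (((p : ℝ) ^ blockDefect p B) ^ 2 * blockRank p b) := by
    linarith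
  exact le_of_mul_le_mul_left h4 hRpos

/-- the second inequality -/
theorem ineqB (S : Sit M p H u n ζ e b B) (hq : blockDefect p b = blockDefect p B) :
    4 * (((T0 p B).card : ℝ) - 1 + (p : ℝ) ^ 2 * (T1 p B).card) ≤ ((p : ℝ) ^ blockDefect p B) ^ 2 := by
  classical
  have hp := pm_prime S.hM
  set R := primitiveRoots n ℂ with hR
  have hζR : ζ ∈ R := (mem_primitiveRoots (Nat.pos_of_ne_zero S.n_ne)).2 S.hζ
  have hRpos : (0 : ℝ) < R.card := by exact_mod_cast Finset.card_pos.2 ⟨ζ, hζR⟩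
  have hnn : ∀ χ ψ : IrrCharacter G, 0 ≤ ∑ μ ∈ R, ‖S.A μ χ ψ‖ ^ 2 := fun χ ψ =>
    Finset.sum_nonneg fun _ _ => by positivity
  haveI := pm_isPrime S.hM
  obtain ⟨χ, hχB, hχ0⟩ := exists_height_zero S.hM S.hb.2.1
  have hχ : χ ∈ T0 p B := mem_T0.2 ⟨hχB, hχ0⟩
  have h1 := sum_ge S hq hχ ((T0 p B).erase χ) (Finset.erase_subset _ _)
  have h2 : (((T0 p B).erase χ).card : ℝ) = (T0 p B).card - 1 := by
    rw [Finset.card_erase_of_mem hχ, Nat.cast_sub (Finset.card_pos.2 ⟨χ, hχ⟩), Nat.cast_one]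
  rw [h2] at h1
  have h3 : ∑ ψ ∈ (T0 p B).erase χ ∪ T1 p B, ∑ μ ∈ R, ‖S.A μ χ ψ‖ ^ 2 ≤
      ∑ ψ ∈ Finset.univ.erase χ, ∑ μ ∈ R, ‖S.A μ χ ψ‖ ^ 2 := by
    refine Finset.sum_le_sum_of_subset_of_nonneg (fun ψ hψ => ?_) fun _ _ _ => hnn _ _
    refine Finset.mem_erase.2 ⟨?_, Finset.mem_univ _⟩
    rintro rfl
    rcases Finset.mem_union.1 hψ with h | h
    · exact (Finset.mem_erase.1 h).1 rfl
    · exact (mem_T1.1 h).2 hχ0
  have h4 : ∀ μ ∈ R, ∑ ψ ∈ Finset.univ.erase χ, ‖S.A μ χ ψ‖ ^ 2 ≤ ((p : ℝ) ^ blockDefect p B) ^ 2 / 4 := by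
    intro μ hμ
    have h5 := S.sum_norm hμ χ
    rw [← Finset.add_sum_erase _ _ (Finset.mem_univ χ), hq] at h5
    have h6 : ‖S.A μ χ χ‖ ^ 2 = (S.A μ χ χ).re ^ 2 := by
      conv_lhs => rw [← S.diag_im hμ χ]
      rw [Complex.norm_real, Real.norm_eq_abs, sq_abs]
    rw [h6] at h5
    nlinarith [sq_nonneg ((S.A μ χ χ).re - (p : ℝ) ^ blockDefect p B / 2)]
  have h5 : ∑ ψ ∈ Finset.univ.erase χ, ∑ μ ∈ R, ‖S.A μ χ ψ‖ ^ 2 ≤
      R.card * (((p : ℝ) ^ blockDefect p B) ^ 2 / 4) := by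
    rw [Finset.sum_comm, ← nsmul_eq_mul, ← Finset.sum_const]
    exact Finset.sum_le_sum h4
  have h6 := h1.trans (h3.trans h5)
  have h7 := le_of_mul_le_mul_left h6 hRpos
  linarith

/-- arithmetic -/
theorem arith {q k0 k1 l N : ℝ} (hq : 2 ≤ q) (h0 : 1 ≤ k0) (h1 : 0 ≤ k1) (hN : 0 ≤ N)
    (hl : l * q ^ 4 ≤ N ^ 2)
    (hA : k0 ^ 2 + 2 * q ^ 2 * k0 * k1 ≤ N ^ 2 * l)
    (hB : 4 * (k0 - 1 + q ^ 2 * k1) ≤ N ^ 2) : (k0 + k1) * q ^ 2 ≤ N ^ 2 := by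
  have hq2 : 4 ≤ q ^ 2 := by nlinarith
  by_cases hc : k1 ≤ 2 * (q ^ 2 - 1) * k0
  · -- `(k0 + k1) ^ 2 ≤ N ^ 2 * l`
    have h2 : (k0 + k1) ^ 2 ≤ N ^ 2 * l := by
      refine le_trans ?_ hA
      nlinarith [mul_le_mul_of_nonneg_left hc h1]
    have h3 : ((k0 + k1) * q ^ 2) ^ 2 ≤ (N ^ 2) ^ 2 := by
      calc ((k0 + k1) * q ^ 2) ^ 2 = (k0 + k1) ^ 2 * q ^ 4 := by ring
        _ ≤ N ^ 2 * l * q ^ 4 := mul_le_mul_of_nonneg_right h2 (by positivity)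
        _ = N ^ 2 * (l * q ^ 4) := by ring
        _ ≤ N ^ 2 * N ^ 2 := mul_le_mul_of_nonneg_left hl (by positivity)
        _ = _ := by ring
    exact (abs_le_abs (a := (k0 + k1) * q ^ 2) (b := N ^ 2) |> fun _ =>
      (pow_le_pow_iff_left₀ (by positivity) (by positivity) two_ne_zero).1 h3)
  · push Not at hc
    have h2 : 6 * k0 ≤ k1 := by nlinarith
    nlinarith

end H84.RK
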