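import Mathlib
import Cfsg.Agent.Lib.H84.RK8
import Cfsg.Agent.Lib.H84.RK9

/-!
# The number of irreducible characters in a block of defect `d`
-/

set_option autoImplicit false
set_option linter.unusedSectionVars false
set_option linter.unusedVariables false
set_option linter.style.haveILetI false

universe u v

namespace H84.RK

open Cfsg H18.CharOrtho H18.CharBasic H20.Loc H78.BlkCount H20.Orth H79.CentQ H20.NormQ H20.Blk H20.Defect H20.DefGrp
open scoped ComplexConjugate
attribute [local instance 2000] Fintype.ofFinite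

theorem exists_central {G : Type u} [Group G] [Finite G] {p : ℕ} (hp : p.Prime) {D : Subgroup G} (hD : IsPGroup p D)
    (hD1 : D ≠ ⊥) : ∃ z ∈ D, orderOf z = p ∧ ∀ d ∈ D, d * z = z * d := by
  haveI := Fact.mk hp
  haveI : Nontrivial D := (Subgroup.nontrivial_iff_ne_bot D).2 hD1
  haveI := hD.center_nontrivial
  have h1 : IsPGroup p (Subgroup.center D) := hD.to_subgroup _
  have h2 : p ∣ Nat.card (Subgroup.center D) := by
    obtain ⟨k, hk⟩ := IsPGroup.iff_card.1 h1
    rcases Nat.eq_zero_or_pos k with h | h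
    · exfalso
      rw [h, pow_zero] at hk
      have := Finite.one_lt_card (α := Subgroup.center D)
      omega
    · rw [hk]; exact dvd_pow_self p h.ne'
  obtain ⟨z, hz⟩ := exists_prime_orderOf_dvd_card' p h2
  refine ⟨((z : D) : G), (z : D).2, ?_, ?_⟩
  · rw [Subgroup.orderOf_coe, Subgroup.orderOf_coe, hz]
  · intro d hd
    exact congrArg Subtype.val (Subgroup.mem_center_iff.1 z.2 ⟨d, hd⟩)

variable {p : ℕ} {M : Ideal AlgInt}

theorem card_le_small {G : Type u} [Group G] [Finite G] (hM : IsPModular p M) {B : Set (IrrCharacter G)}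
    (hB : IsPBlock M B) (hd : blockDefect p B ≤ 2) : Nat.card B ≤ p ^ blockDefect p B := by
  have hp := pm_prime hM
  haveI := Fact.mk hp
  obtain ⟨D, hD⟩ := exists_isDefectGroup hM hB
  have hcard := card_defectGroup hM hB hD
  rw [← hcard]
  by_cases hD1 : D = ⊥
  · have h1 : (1 : G) ∈ D := D.one_mem
    have hc : ∀ d ∈ D, d * (1 : G) = 1 * d := fun d _ => by simp
    refine card_le_of_cyclic' hM hB hD hc h1 ?_
    have h2 := card_DD' h1 hc
    have h3 : Nat.card D = 1 := by rw [hD1]; exact Subgroup.card_bot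
    rw [h3, orderOf_one, mul_one] at h2
    haveI := (Nat.card_eq_one_iff_unique.1 h2).1
    exact isCyclic_of_subsingleton
  · obtain ⟨z, hz, hzo, hc⟩ := exists_central hp (isPGroup_of_isDefectGroup hD) hD1
    refine card_le_of_cyclic' hM hB hD hc hz ?_
    have h2 := card_DD' hz hc
    rw [hcard, hzo] at h2
    have hd0 : blockDefect p B ≠ 0 := by
      intro h
      rw [h, pow_zero] at hcard
      exact hD1 (Subgroup.card_eq_one.1 hcard)
    have h3 : Nat.card (DD D z) = p ^ (blockDefect p B - 1) := by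
      apply Nat.eq_of_mul_eq_mul_right hp.pos
      rw [h2, ← pow_succ]
      congr 1; omega
    rcases (by omega : blockDefect p B = 1 ∨ blockDefect p B = 2) with h | h
    · rw [h, Nat.sub_self, pow_zero] at h3
      haveI := (Nat.card_eq_one_iff_unique.1 h3).1
      exact isCyclic_of_subsingleton
    · rw [h] at h3
      exact isCyclic_of_prime_card (p := p) (by rw [h3]; norm_num)

theorem kB_le (hM : IsPModular p M) (d : ℕ) : ∀ {G : Type u} [Group G] [Finite G] {B : Set (IrrCharacter G)}
    (_ : IsPBlock M B) (_ : blockDefect p B = d), (d ≤ 2 → Nat.card B ≤ p ^ d) ∧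
      (3 ≤ d → Nat.card B ≤ p ^ (2 * d - 2)) := by
  have hp := pm_prime hM
  haveI := Fact.mk hp
  induction d with
  | zero =>
    intro G _ _ B hB hd
    exact ⟨fun h => by rw [← hd]; exact card_le_small hM hB (by omega), fun h => by omega⟩
  | succ d ih =>
    intro G _ _ B hB hd
    refine ⟨fun h => by rw [← hd]; exact card_le_small hM hB (by omega), fun h => ?_⟩
    obtain ⟨D, hD⟩ := exists_isDefectGroup hM hB
    have hcard := card_defectGroup hM hB hD
    have hD1 : D ≠ ⊥ := by
      rintro rfl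
      rw [Subgroup.card_bot, hd] at hcard
      exact absurd hcard.symm (Nat.one_lt_pow (by omega) hp.one_lt).ne'
    obtain ⟨z, hz, hzo, hc⟩ := exists_central hp (isPGroup_of_isDefectGroup hD) hD1
    obtain ⟨b, b', hb, hdef, hb', hmem, hbD, hup⟩ := exists_quot_block' hM hB hD hc hz
    have h2 := card_DD' hz hc
    have hcard' := card_defectGroup hM hb' hbD
    rw [hcard, hzo, hcard', ← pow_succ, hd] at h2
    have hd' : blockDefect p b' = d := by
      have := Nat.pow_right_injective hp.two_le h2
      omega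
    obtain ⟨i1, i2⟩ := ih hb' hd'
    have hk' : Nat.card b' ≤ p ^ (2 * (d + 1) - 4) := by
      by_cases h3 : d ≤ 2
      · have h4 : d = 2 := by omega
        subst h4
        exact i1 le_rfl
      · have := i2 (by omega)
        have h5 : 2 * (d + 1) - 4 = 2 * d - 2 := by omega
        rw [h5]; exact this
    have hl : blockRank p b ≤ p ^ (2 * (d + 1) - 4) :=
      (rank_le_quot hM (QQ z) (QQ_pgroup hup) (hCent (QQ z) (QQ_center z)) hb.1 hmem).trans hk'
    obtain ⟨i, ζ, e, S⟩ := H78.Contr.exists_sit (H := CC z) hM rfl hup hb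
    have hA := ineqA S hdef
    have hB' := ineqB S hdef
    obtain ⟨χ, hχ, hχ0⟩ := H20.Defect.exists_height_zero hM hB
    have hk0 : (1 : ℝ) ≤ (T0 p B).card := by
      have : 0 < (T0 p B).card := Finset.card_pos.2 ⟨χ, mem_T0.2 ⟨hχ, hχ0⟩⟩
      exact_mod_cast this
    have hpr : (2 : ℝ) ≤ p := by exact_mod_cast hp.two_le
    have hl' : (blockRank p b : ℝ) * (p : ℝ) ^ 4 ≤ ((p : ℝ) ^ blockDefect p B) ^ 2 := by
      have h3 : blockRank p b * p ^ 4 ≤ (p ^ blockDefect p B) ^ 2 := by
        calc blockRank p b * p ^ 4 ≤ p ^ (2 * (d + 1) - 4) * p ^ 4 := Nat.mul_le_mul_right _ hl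
          _ = (p ^ blockDefect p B) ^ 2 := by
            rw [hd, ← pow_add, ← pow_mul]; congr 1; omega
      exact_mod_cast h3
    have hfin := arith hpr hk0 (Nat.cast_nonneg _) (by positivity) hl' hA hB'
    have h3 : Nat.card B * p ^ 2 ≤ p ^ (2 * (d + 1) - 2) * p ^ 2 := by
      have h4 : ((Nat.card B : ℕ) : ℝ) * (p : ℝ) ^ 2 ≤ ((p : ℝ) ^ blockDefect p B) ^ 2 := by
        rw [← card_T (p := p) (B := B)]
        push_cast
        exact hfin
      have h5 : Nat.card B * p ^ 2 ≤ (p ^ blockDefect p B) ^ 2 := by exact_mod_cast h4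
      refine h5.trans (le_of_eq ?_)
      rw [hd, ← pow_add, ← pow_mul]; congr 1; omega
    exact Nat.le_of_mul_le_mul_right h3 (pow_pos hp.pos 2)

end H84.RK
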