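import Mathlib

/-!
# `p`-groups acting on finite sets: invariant idempotent kernels in characteristic `p`
-/

set_option autoImplicit false
set_option linter.style.haveILetI false

namespace H84.SQ

universe u v w

variable {k : Type w} [Field k] {p : ℕ}

/-- an invariant function with non-zero sum is non-zero at a fixed point -/
theorem exists_fixed {R : Type u} [Group R] [Finite R] {Ω : Type v} [Fintype Ω] [MulAction R Ω]
    [Fact p.Prime] [CharP k p] (hR : IsPGroup p R) (f : Ω → k) (hf : ∀ (r : R) (x : Ω), f (r • x) = f x)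
    (hs : ∑ x, f x ≠ 0) : ∃ x, (∀ r : R, r • x = x) ∧ f x ≠ 0 := by
  classical
  by_contra! hcon
  apply hs
  letI := MulAction.orbitRel R Ω
  rw [← Finset.sum_fiberwise (s := Finset.univ) (g := fun x : Ω => (Quotient.mk'' x : MulAction.orbitRel.Quotient R Ω))]
  refine Finset.sum_eq_zero fun q _ => ?_
  obtain ⟨x, rfl⟩ := Quotient.exists_rep q
  have h1 : ∀ y ∈ Finset.univ.filter (fun y : Ω => (Quotient.mk'' y : MulAction.orbitRel.Quotient R Ω) = ⟦x⟧),
      f y = f x := by
    intro y hy
    have h2 := (Finset.mem_filter.1 hy).2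
    obtain ⟨r, hr⟩ := MulAction.orbitRel_apply.1 (Quotient.exact h2)
    rw [← hr]; exact hf r x
  rw [Finset.sum_congr rfl h1, Finset.sum_const, nsmul_eq_mul]
  have h3 : (Finset.univ.filter (fun y : Ω => (Quotient.mk'' y : MulAction.orbitRel.Quotient R Ω) = ⟦x⟧)).card =
      Nat.card (MulAction.orbit R x) := by
    rw [Nat.card_eq_fintype_card, ← Set.toFinset_card]
    congr 1
    ext y
    rw [Finset.mem_filter, Set.mem_toFinset]
    constructor
    · rintro ⟨-, h⟩
      exact MulAction.orbitRel_apply.1 (Quotient.exact h)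
    · intro h
      exact ⟨Finset.mem_univ _, Quotient.sound (MulAction.orbitRel_apply.2 h)⟩
  rw [h3]
  obtain ⟨n, hn⟩ := hR.card_orbit x
  rcases Nat.eq_zero_or_pos n with h | h
  · rw [h, pow_zero] at hn
    have h4 : ∀ r : R, r • x = x := by
      intro r
      have h5 := (Nat.card_eq_one_iff_unique.1 hn).1
      exact congrArg Subtype.val (h5.elim (⟨r • x, MulAction.mem_orbit x r⟩ : MulAction.orbit R x)
        ⟨x, MulAction.mem_orbit_self x⟩)
    rw [hcon x h4, mul_zero]
  · rw [hn]
    have : ((p ^ n : ℕ) : k) = 0 := by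
      rw [Nat.cast_pow, CharP.cast_eq_zero, zero_pow h.ne']
    rw [this, zero_mul]

/-- a nonzero invariant subspace contains a nonzero invariant function -/
theorem exists_inv {H : Type u} [Group H] [Finite H] {Ω : Type v} [Fintype Ω] [MulAction H Ω]
    [Fact p.Prime] [CharP k p] (hH : IsPGroup p H) (U : Submodule k (Ω → k))
    (hU : ∀ u ∈ U, ∀ h : H, (fun x => u (h • x)) ∈ U) (hne : U ≠ ⊥) :
    ∃ u ∈ U, u ≠ 0 ∧ ∀ (h : H) (x : Ω), u (h • x) = u x := by
  classical
  obtain ⟨u0, hu0, hu00⟩ := Submodule.exists_mem_ne_zero_of_ne_bot hne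
  letI : Algebra (ZMod p) k := ZMod.algebra k p
  let gn : H → (Ω → k) := fun h x => u0 (h • x)
  let W : Submodule (ZMod p) (Ω → k) := Submodule.span (ZMod p) (Set.range gn)
  haveI : Module.Finite (ZMod p) W := Module.Finite.span_of_finite (ZMod p) (Set.finite_range gn)
  haveI : Finite W := Module.finite_of_finite (ZMod p)
  have hWU : ∀ w ∈ W, w ∈ U := by
    intro w hw
    have : W ≤ U.restrictScalars (ZMod p) := by
      rw [Submodule.span_le]
      rintro _ ⟨h, rfl⟩
      exact hU u0 hu0 h
    exact this hw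
  let T : H → (Ω → k) →ₗ[ZMod p] (Ω → k) := fun h =>
    { toFun := fun f x => f (h⁻¹ • x)
      map_add' := fun f g => rfl
      map_smul' := fun c f => rfl }
  have hWT : ∀ (h : H) (w : Ω → k), w ∈ W → T h w ∈ W := by
    intro h w hw
    have : W ≤ W.comap (T h) := by
      rw [Submodule.span_le]
      rintro _ ⟨g, rfl⟩
      refine Submodule.subset_span ⟨g * h⁻¹, ?_⟩
      funext x
      show u0 ((g * h⁻¹) • x) = u0 (g • h⁻¹ • x)
      rw [mul_smul]
    exact this hw
  let act : MulAction H W :=
    { smul := fun h w => ⟨T h w, hWT h w w.2⟩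
      one_smul := fun w => by
        apply Subtype.ext
        funext x
        show (w : Ω → k) ((1 : H)⁻¹ • x) = (w : Ω → k) x
        rw [inv_one, one_smul]
      mul_smul := fun g h w => by
        apply Subtype.ext
        funext x
        show (w : Ω → k) ((g * h)⁻¹ • x) = (w : Ω → k) (h⁻¹ • g⁻¹ • x)
        rw [mul_inv_rev, mul_smul] }
  have hu0W : u0 ∈ W := Submodule.subset_span ⟨1, by funext x; show u0 ((1 : H) • x) = u0 x; rw [one_smul]⟩
  have hdvd : p ∣ Nat.card W := by
    have h1 : addOrderOf (⟨u0, hu0W⟩ : W) = p := by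
      apply addOrderOf_eq_prime
      · apply Subtype.ext
        funext x
        show (p • u0) x = 0
        rw [Pi.smul_apply, nsmul_eq_mul, CharP.cast_eq_zero, zero_mul]
      · intro h
        exact hu00 (congrArg Subtype.val h)
    have h2 := addOrderOf_dvd_natCard (⟨u0, hu0W⟩ : W)
    rwa [h1] at h2
  have h0 : (0 : W) ∈ MulAction.fixedPoints H W := by
    intro g
    apply Subtype.ext
    rfl
  obtain ⟨b, hb, hb0⟩ := hH.exists_fixed_point_of_prime_dvd_card_of_fixed_point W hdvd h0
  refine ⟨b, hWU b b.2, fun h => hb0 (Subtype.ext h.symm), fun g x => ?_⟩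
  have h1 := congrArg Subtype.val (hb g⁻¹)
  have h2 := congrFun h1 x
  have h3 : ((g⁻¹ • b : W) : Ω → k) x = (b : Ω → k) ((g⁻¹)⁻¹ • x) := rfl
  rw [h3, inv_inv] at h2
  exact h2

end H84.SQ
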