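import Mathlib
import Cfsg.Agent.Lib.H84.SQ1

/-!
# Invariant idempotent kernels of small rank
-/

set_option autoImplicit false
set_option linter.style.haveILetI false

namespace H84.SQ

universe u v w

variable {k : Type w} [Field k] {p : ℕ} [Fact p.Prime] [CharP k p]
variable {H : Type u} [Group H] [Finite H] {Ω : Type v} [Fintype Ω] [MulAction H Ω]

/-- the operator of a kernel -/
def TT (E : Ω → Ω → k) : (Ω → k) →ₗ[k] (Ω → k) where
  toFun w := fun z => ∑ x, w x * E x z
  map_add' w w' := by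
    funext z
    show ∑ x, (w x + w' x) * E x z = ∑ x, w x * E x z + ∑ x, w' x * E x z
    rw [← Finset.sum_add_distrib]
    exact Finset.sum_congr rfl fun x _ => add_mul _ _ _
  map_smul' c w := by
    funext z
    show ∑ x, (c * w x) * E x z = c * ∑ x, w x * E x z
    rw [Finset.mul_sum]
    exact Finset.sum_congr rfl fun x _ => mul_assoc _ _ _

theorem TT_apply (E : Ω → Ω → k) (w : Ω → k) (z : Ω) : TT E w z = ∑ x, w x * E x z := rfl

/-- the operator restricted to an orbit -/
noncomputable def io (H : Type u) [Group H] [Finite H] [MulAction H Ω] (E : Ω → Ω → k) (x₀ : Ω) :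
    (MulAction.orbit H x₀ → k) →ₗ[k] (Ω → k) := by
  classical
  exact
  { toFun := fun w z => ∑ x : MulAction.orbit H x₀, w x * E x z
    map_add' := fun w w' => by
      funext z
      show ∑ x : MulAction.orbit H x₀, (w x + w' x) * E x z =
        ∑ x : MulAction.orbit H x₀, w x * E x z + ∑ x : MulAction.orbit H x₀, w' x * E x z
      rw [← Finset.sum_add_distrib]
      exact Finset.sum_congr rfl fun x _ => add_mul _ _ _
    map_smul' := fun c w => by
      funext z
      show ∑ x : MulAction.orbit H x₀, (c * w x) * E x z = c * ∑ x : MulAction.orbit H x₀, w x * E x z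
      rw [Finset.mul_sum]
      exact Finset.sum_congr rfl fun x _ => mul_assoc _ _ _ }

theorem io_apply (E : Ω → Ω → k) (x₀ : Ω) [Fintype (MulAction.orbit H x₀)] (w : MulAction.orbit H x₀ → k) (z : Ω) :
    io H E x₀ w z = ∑ x : MulAction.orbit H x₀, w x * E x z := by
  unfold io
  show @Finset.sum _ _ _ _ _ = _
  congr!

variable {E : Ω → Ω → k}

theorem TT_inv (hE : ∀ (h : H) (x y : Ω), E (h • x) (h • y) = E x y) (w : Ω → k) (h : H) (z : Ω) :
    TT E w (h • z) = TT E (fun x => w (h • x)) z := by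
  rw [TT_apply, TT_apply]
  rw [← Equiv.sum_comp (MulAction.toPerm h)]
  exact Finset.sum_congr rfl fun x _ => by rw [MulAction.toPerm_apply, hE]

theorem TT_TT (hEE : ∀ x z, ∑ y, E x y * E y z = E x z) (w : Ω → k) : TT E (TT E w) = TT E w := by
  funext z
  rw [TT_apply, TT_apply]
  simp_rw [TT_apply, Finset.sum_mul]
  rw [Finset.sum_comm]
  refine Finset.sum_congr rfl fun x _ => ?_
  rw [← hEE x z, Finset.mul_sum]
  exact Finset.sum_congr rfl fun y _ => mul_assoc _ _ _

theorem mem_range_iff (hEE : ∀ x z, ∑ y, E x y * E y z = E x z) (v : Ω → k) :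
    v ∈ LinearMap.range (TT E) ↔ TT E v = v :=
  ⟨by rintro ⟨w, rfl⟩; exact TT_TT hEE w, fun h => ⟨v, h⟩⟩

theorem io_inv (hE : ∀ (h : H) (x y : Ω), E (h • x) (h • y) = E x y) (x₀ : Ω) (w : MulAction.orbit H x₀ → k)
    (h : H) (z : Ω) : io H E x₀ w (h • z) = io H E x₀ (fun x => w (h • x)) z := by
  classical
  rw [io_apply, io_apply]
  rw [← Equiv.sum_comp (MulAction.toPerm h : Equiv.Perm (MulAction.orbit H x₀))]
  exact Finset.sum_congr rfl fun x _ => by
    rw [MulAction.toPerm_apply, MulAction.orbit.coe_smul, hE]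

theorem io_range (hEE : ∀ x z, ∑ y, E x y * E y z = E x z) (x₀ : Ω) :
    LinearMap.range (io H E x₀) ≤ LinearMap.range (TT E) := by
  classical
  rintro _ ⟨w, rfl⟩
  rw [mem_range_iff hEE]
  funext z
  rw [TT_apply, io_apply]
  simp_rw [io_apply, Finset.sum_mul]
  rw [Finset.sum_comm]
  refine Finset.sum_congr rfl fun x _ => ?_
  rw [← hEE x z, Finset.mul_sum]
  exact Finset.sum_congr rfl fun y _ => mul_assoc _ _ _

/-- the orbit -/
theorem exists_good (hH : IsPGroup p H) (hE : ∀ (h : H) (x y : Ω), E (h • x) (h • y) = E x y)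
    (hEE : ∀ x z, ∑ y, E x y * E y z = E x z) (hE0 : ∃ x y, E x y ≠ 0) :
    ∃ x₀ y : Ω, MulAction.stabilizer H x₀ = MulAction.stabilizer H y ∧ E x₀ y ≠ 0 ∧
      Function.Injective (io H E x₀) := by
  classical
  -- an invariant vector
  have hne : LinearMap.range (TT E) ≠ ⊥ := by
    intro h0
    obtain ⟨x, y, hxy⟩ := hE0
    apply hxy
    have h1 : TT E (Pi.single x 1) = 0 := by
      rw [← Submodule.mem_bot k, ← h0]; exact ⟨_, rfl⟩
    have h2 := congrFun h1 y
    rw [TT_apply, Finset.sum_eq_single x] at h2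
    · simpa using h2
    · intro z _ hz; rw [Pi.single_eq_of_ne hz, zero_mul]
    · intro h; exact absurd (Finset.mem_univ _) h
  obtain ⟨v, hvV, hv0, hvi⟩ := exists_inv hH (LinearMap.range (TT E)) (by
    rintro _ ⟨w, rfl⟩ h
    exact ⟨fun x => w (h • x), by funext z; exact (TT_inv hE w h z).symm⟩) hne
  rw [mem_range_iff hEE] at hvV
  obtain ⟨y1, hy1⟩ := Function.ne_iff.1 hv0
  obtain ⟨y, hyF, hymax⟩ := Finset.exists_max_image (Finset.univ.filter (fun y : Ω => v y ≠ 0))
    (fun y => Nat.card (MulAction.stabilizer H y)) ⟨y1, Finset.mem_filter.2 ⟨Finset.mem_univ _, hy1⟩⟩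
  have hy := (Finset.mem_filter.1 hyF).2
  have hmax : ∀ x, v x ≠ 0 → Nat.card (MulAction.stabilizer H x) ≤ Nat.card (MulAction.stabilizer H y) :=
    fun x hx => hymax x (Finset.mem_filter.2 ⟨Finset.mem_univ _, hx⟩)
  -- an orbit with nonzero contribution
  have h1 : ∑ x, v x * E x y ≠ 0 := by
    rw [← TT_apply, hvV]; exact hy
  letI := MulAction.orbitRel H Ω
  rw [← Finset.sum_fiberwise (s := Finset.univ) (g := fun x : Ω => (Quotient.mk'' x : MulAction.orbitRel.Quotient H Ω))] at h1
  obtain ⟨q, -, hq⟩ := Finset.exists_ne_zero_of_sum_ne_zero h1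
  obtain ⟨x1, rfl⟩ := Quotient.exists_rep q
  have h2 : ∑ x, (if x ∈ MulAction.orbit H x1 then E x y else 0) ≠ 0 ∧ v x1 ≠ 0 := by
    have h3 : ∑ i ∈ Finset.univ.filter (fun x : Ω => (Quotient.mk'' x : MulAction.orbitRel.Quotient H Ω) = ⟦x1⟧),
        v i * E i y = v x1 * ∑ x, (if x ∈ MulAction.orbit H x1 then E x y else 0) := by
      rw [Finset.mul_sum, Finset.sum_filter]
      refine Finset.sum_congr rfl fun x _ => ?_
      have h4 : ((Quotient.mk'' x : MulAction.orbitRel.Quotient H Ω) = ⟦x1⟧) ↔ x ∈ MulAction.orbit H x1 :=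
        ⟨fun h => MulAction.orbitRel_apply.1 (Quotient.exact h), fun h => Quotient.sound (MulAction.orbitRel_apply.2 h)⟩
      by_cases h5 : x ∈ MulAction.orbit H x1
      · rw [if_pos (h4.2 h5), if_pos h5]
        obtain ⟨g, rfl⟩ := h5
        show v (g • x1) * _ = _
        rw [hvi]
      · rw [if_neg (fun h => h5 (h4.1 h)), if_neg h5, mul_zero]
    rw [h3] at hq
    exact ⟨right_ne_zero_of_mul hq, left_ne_zero_of_mul hq⟩
  obtain ⟨h2, hvx1⟩ := h2
  have hstab : ∀ x ∈ MulAction.orbit H x1, v x ≠ 0 := by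
    rintro _ ⟨g, rfl⟩
    show v (g • x1) ≠ 0
    rw [hvi]; exact hvx1
  obtain ⟨x0, hx0, hx0'⟩ := exists_fixed (R := MulAction.stabilizer H y) (hH.to_subgroup _)
    (fun x => if x ∈ MulAction.orbit H x1 then E x y else 0) (by
      rintro ⟨r, hr⟩ x
      have h3 : (⟨r, hr⟩ : MulAction.stabilizer H y) • x = r • x := rfl
      rw [h3]
      have h4 : r • x ∈ MulAction.orbit H x1 ↔ x ∈ MulAction.orbit H x1 := by
        rw [← MulAction.orbit_eq_iff, ← MulAction.orbit_eq_iff, MulAction.orbit_smul]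
      by_cases h5 : x ∈ MulAction.orbit H x1
      · rw [if_pos (h4.2 h5), if_pos h5]
        have h6 := hE r x y
        rw [MulAction.mem_stabilizer_iff.1 hr] at h6
        exact h6
      · rw [if_neg (fun h => h5 (h4.1 h)), if_neg h5]) h2
  have hx0o : x0 ∈ MulAction.orbit H x1 := by
    by_contra h
    rw [if_neg h] at hx0'
    exact hx0' rfl
  rw [if_pos hx0o] at hx0'
  have hle : MulAction.stabilizer H y ≤ MulAction.stabilizer H x0 := fun r hr =>
    MulAction.mem_stabilizer_iff.2 (hx0 ⟨r, hr⟩)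
  have heq : MulAction.stabilizer H y = MulAction.stabilizer H x0 :=
    Subgroup.eq_of_le_of_card_ge hle (hmax x0 (hstab x0 hx0o))
  refine ⟨x0, y, heq.symm, hx0', ?_⟩
  rw [← LinearMap.ker_eq_bot]
  by_contra hker
  have horb : MulAction.orbit H x0 = MulAction.orbit H x1 := MulAction.orbit_eq_iff.2 hx0o
  obtain ⟨u, huK, hu0, hui⟩ := exists_inv (Ω := MulAction.orbit H x0) hH (LinearMap.ker (io H E x0)) (by
    intro w hw h
    rw [LinearMap.mem_ker] at hw ⊢
    funext z
    have h3 := io_inv hE x0 w h z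
    rw [← h3, hw]; rfl) hker
  rw [LinearMap.mem_ker] at huK
  have hconst : ∀ x : MulAction.orbit H x0, u x = u ⟨x0, MulAction.mem_orbit_self x0⟩ := by
    rintro ⟨_, ⟨g, rfl⟩⟩
    exact hui g ⟨x0, MulAction.mem_orbit_self x0⟩
  have hc : u ⟨x0, MulAction.mem_orbit_self x0⟩ ≠ 0 := by
    intro h
    apply hu0
    funext x
    rw [hconst x, h]; rfl
  have h3 := congrFun huK y
  rw [io_apply, Finset.sum_congr rfl (fun x _ => by rw [hconst x]), ← Finset.mul_sum] at h3
  have h4 := (mul_eq_zero.1 h3).resolve_left hc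
  apply h2
  rw [← horb, ← Finset.sum_filter]
  rw [← h4]
  rw [Finset.sum_subtype (p := fun x => x ∈ MulAction.orbit H x0)
    (Finset.univ.filter (fun x : Ω => x ∈ MulAction.orbit H x0)) (by simp) (fun x => E x y)]

/-- dimension -/
theorem card_le (hEE : ∀ x z, ∑ y, E x y * E y z = E x z) {x₀ : Ω} (hinj : Function.Injective (io H E x₀)) :
    Nat.card (MulAction.orbit H x₀) ≤ Module.finrank k (LinearMap.range (TT E)) := by
  classical
  have h1 := LinearMap.finrank_range_of_inj hinj
  rw [Module.finrank_fintype_fun_eq_card] at h1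
  rw [Nat.card_eq_fintype_card, ← h1]
  exact Submodule.finrank_mono (io_range hEE x₀)

theorem range_eq (hEE : ∀ x z, ∑ y, E x y * E y z = E x z) {x₀ : Ω} (hinj : Function.Injective (io H E x₀))
    (hle : Module.finrank k (LinearMap.range (TT E)) ≤ Nat.card (MulAction.orbit H x₀)) :
    LinearMap.range (io H E x₀) = LinearMap.range (TT E) := by
  classical
  have h1 := LinearMap.finrank_range_of_inj hinj
  rw [Module.finrank_fintype_fun_eq_card, ← Nat.card_eq_fintype_card] at h1
  exact Submodule.eq_of_le_of_finrank_le (io_range hEE x₀) (by rw [h1]; exact hle)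

/-- fixed points in the orbit -/
theorem exists_fixed_orbit (hH : IsPGroup p H) (hE : ∀ (h : H) (x y : Ω), E (h • x) (h • y) = E x y)
    {x₀ : Ω} (hinj : Function.Injective (io H E x₀))
    (hr : LinearMap.range (io H E x₀) = LinearMap.range (TT E)) (R : Subgroup H) {v : Ω → k}
    (hv : v ∈ LinearMap.range (TT E)) (hvR : ∀ r ∈ R, ∀ x, v (r • x) = v x) {z : Ω}
    (hz : ∀ r ∈ R, r • z = z) (hvz : v z ≠ 0) :
    ∃ x ∈ MulAction.orbit H x₀, ∀ r ∈ R, r • x = x := by
  classical
  rw [← hr] at hv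
  obtain ⟨w, rfl⟩ := hv
  have hw : ∀ r ∈ R, ∀ x : MulAction.orbit H x₀, w (r • x) = w x := by
    intro r hrR
    have h1 : (fun x => w (r • x)) = w := by
      apply hinj
      funext y
      rw [← io_inv hE, hvR r hrR]
    intro x
    exact congrFun h1 x
  rw [io_apply] at hvz
  obtain ⟨x, hx, -⟩ := exists_fixed (R := R) (Ω := MulAction.orbit H x₀) (hH.to_subgroup _)
    (fun x => w x * E x z) (by
      rintro ⟨r, hrR⟩ x
      have h3 : (⟨r, hrR⟩ : R) • x = r • x := rfl
      rw [h3, hw r hrR, MulAction.orbit.coe_smul]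
      have h4 := hE r x z
      rw [hz r hrR] at h4
      rw [h4]) hvz
  exact ⟨x, x.2, fun r hr => congrArg Subtype.val (hx ⟨r, hr⟩)⟩

end H84.SQ
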