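import Mathlib
import Cfsg.Agent.Lib.H84.SQ2

/-!
# Central idempotents of small dimension in group algebras: fusion
-/

set_option autoImplicit false
set_option linter.style.haveILetI false

namespace H84.SQ

universe u w

variable {k : Type w} [Field k] {p : ℕ} [Fact p.Prime] [CharP k p]
variable {G : Type u} [Group G] [Fintype G]

/-- the two-sided action -/
@[reducible] def act2 (P : Subgroup G) : MulAction (P × P) G where
  smul h x := (h.1 : G) * x * (h.2 : G)⁻¹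
  one_smul x := by
    show ((1 : P) : G) * x * ((1 : P) : G)⁻¹ = x
    simp
  mul_smul g h x := by
    show (((g.1 * h.1 : P) : G)) * x * ((g.2 * h.2 : P) : G)⁻¹ =
      (g.1 : G) * ((h.1 : G) * x * (h.2 : G)⁻¹) * (g.2 : G)⁻¹
    push_cast
    group

/-- the kernel -/
def EE (ε : G → k) : G → G → k := fun x y => ε (x⁻¹ * y)

theorem EE_conv {ε : G → k} (hconv : ∀ z, ∑ y, ε y * ε (y⁻¹ * z) = ε z) (x z : G) :
    ∑ y, EE ε x y * EE ε y z = EE ε x z := by
  show ∑ y, ε (x⁻¹ * y) * ε (y⁻¹ * z) = ε (x⁻¹ * z)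
  rw [← hconv (x⁻¹ * z), ← Equiv.sum_comp (Equiv.mulLeft x⁻¹) (fun y => ε y * ε (y⁻¹ * (x⁻¹ * z)))]
  refine Finset.sum_congr rfl fun y _ => ?_
  show _ = ε (x⁻¹ * y) * ε ((x⁻¹ * y)⁻¹ * (x⁻¹ * z))
  congr 2
  group

theorem main {ε : G → k} (hcl : ∀ g x, ε (g * x * g⁻¹) = ε x) (hconv : ∀ z, ∑ y, ε y * ε (y⁻¹ * z) = ε z)
    (P : Subgroup G) {a d : ℕ} (hP : Nat.card P = p ^ a) (hda : d ≤ a)
    (hd : ∀ Q : Subgroup G, IsPGroup p Q → ∀ c, Q ≤ Subgroup.centralizer {c} → ε c ≠ 0 → Nat.card Q ≤ p ^ d)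
    (hdim : Module.finrank k (LinearMap.range (TT (EE ε))) ≤ p ^ (2 * a - d)) {D : Subgroup G} (hDP : D ≤ P)
    (hDc : Nat.card D = p ^ d) {z : G} (hzD : D ≤ Subgroup.centralizer {z}) (hz : ε z ≠ 0) {Q : Subgroup G}
    (hQP : Q ≤ P) {c : G} (hc : Q ≤ Subgroup.centralizer {c}) (hc0 : ε c ≠ 0) {n : G}
    (hn : n ∈ Subgroup.normalizer (Q : Set G)) :
    ∃ h ∈ P, ∃ c' ∈ Subgroup.centralizer (Q : Set G), n = c' * h := by
  classical
  have hp : p.Prime := Fact.out
  letI := act2 P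
  have hsm : ∀ (h : P × P) (x : G), h • x = (h.1 : G) * x * (h.2 : G)⁻¹ := fun _ _ => rfl
  have hHc : Nat.card (P × P) = p ^ (2 * a) := by rw [Nat.card_prod, hP, two_mul, pow_add]
  have hH : IsPGroup p (P × P) := IsPGroup.of_card hHc
  have hE : ∀ (h : P × P) (x y : G), EE ε (h • x) (h • y) = EE ε x y := by
    intro h x y
    show ε ((h • x)⁻¹ * (h • y)) = ε (x⁻¹ * y)
    rw [hsm, hsm, ← hcl (h.2 : G) (x⁻¹ * y)]
    congr 1
    group
  have hEE := EE_conv hconv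
  have hE0 : ∃ x y, EE ε x y ≠ 0 := ⟨1, z, by show ε (1⁻¹ * z) ≠ 0; rw [inv_one, one_mul]; exact hz⟩
  obtain ⟨x0, y, hst, hxy, hinj⟩ := exists_good hH hE hEE hE0
  -- sizes
  have hos : ∀ x : G, Nat.card (MulAction.stabilizer (P × P) x) * Nat.card (MulAction.orbit (P × P) x) = p ^ (2 * a) := by
    intro x
    rw [← hHc, ← Subgroup.card_mul_index (MulAction.stabilizer (P × P) x), MulAction.index_stabilizer]
    rfl
  have hS : Nat.card (MulAction.stabilizer (P × P) x0) ≤ p ^ d := by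
    set S := MulAction.stabilizer (P × P) x0 with hSdef
    let φ : S →* G := P.subtype.comp ((MonoidHom.snd P P).comp S.subtype)
    have hφ : Function.Injective φ := by
      rintro ⟨r, hr⟩ ⟨s, hs⟩ h
      have h1 : (r.2 : G) = (s.2 : G) := h
      have h2 : (r.1 : G) * x0 * (r.2 : G)⁻¹ = x0 := MulAction.mem_stabilizer_iff.1 hr
      have h3 : (s.1 : G) * x0 * (s.2 : G)⁻¹ = x0 := MulAction.mem_stabilizer_iff.1 hs
      rw [h1] at h2
      have h4 : (r.1 : G) = s.1 := by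
        have h5 := h2.trans h3.symm
        exact mul_right_cancel (mul_right_cancel h5)
      exact Subtype.ext (Prod.ext (Subtype.ext h4) (Subtype.ext h1))
    have h1 : Nat.card φ.range = Nat.card S := (Nat.card_congr (MonoidHom.ofInjective hφ).toEquiv).symm
    rw [← h1]
    apply hd φ.range
    · exact (hH.to_subgroup S).of_surjective φ.rangeRestrict φ.rangeRestrict_surjective
    · rintro _ ⟨⟨r, hr⟩, rfl⟩
      have h2 : (r.1 : G) * x0 * (r.2 : G)⁻¹ = x0 := MulAction.mem_stabilizer_iff.1 hr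
      have hr' := hr
      rw [hst] at hr'
      have h3 : (r.1 : G) * y * (r.2 : G)⁻¹ = y := MulAction.mem_stabilizer_iff.1 hr'
      rw [Subgroup.mem_centralizer_singleton_iff]
      show (r.2 : G) * (x0⁻¹ * y) = x0⁻¹ * y * (r.2 : G)
      rw [mul_inv_eq_iff_eq_mul] at h2 h3
      have h4 : (r.1 : G) = x0 * (r.2 : G) * x0⁻¹ := by rw [eq_mul_inv_iff_mul_eq]; exact h2
      rw [h4] at h3
      rw [mul_assoc x0⁻¹ y, ← h3]
      group
    · exact hxy
  have hX := card_le hEE hinj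
  have hos0 := hos x0
  have hppos : 0 < p ^ (2 * a - d) := pow_pos hp.pos _
  have hpd : 0 < p ^ d := pow_pos hp.pos _
  have hpp : p ^ d * p ^ (2 * a - d) = p ^ (2 * a) := by rw [← pow_add]; congr 1; omega
  have hXle := hX.trans hdim
  have hXeq : Nat.card (MulAction.orbit (P × P) x0) = p ^ (2 * a - d) := by
    apply le_antisymm hXle
    have h1 : p ^ d * p ^ (2 * a - d) ≤ p ^ d * Nat.card (MulAction.orbit (P × P) x0) := by
      rw [hpp, ← hos0]
      exact Nat.mul_le_mul_right _ hS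
    exact Nat.le_of_mul_le_mul_left h1 hpd
  have hr := range_eq hEE hinj (by rw [hXeq]; exact hdim)
  have hsto : ∀ x ∈ MulAction.orbit (P × P) x0, Nat.card (MulAction.stabilizer (P × P) x) = p ^ d := by
    intro x hx
    have h1 := hos x
    rw [MulAction.orbit_eq_iff.2 hx, hXeq, ← hpp] at h1
    exact Nat.eq_of_mul_eq_mul_right hppos h1
  -- the diagonal of `D`
  let δ : P →* P × P := (MonoidHom.id P).prod (MonoidHom.id P)
  have hδ : ∀ x, δ x = (x, x) := fun x => rfl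
  have hδinj : Function.Injective δ := fun x y h => congrArg Prod.fst h
  set R1 : Subgroup (P × P) := (D.subgroupOf P).map δ with hR1
  have hεmem : ∀ n : G, (fun g => ε (g * n⁻¹)) ∈ LinearMap.range (TT (EE ε)) := by
    intro n
    rw [mem_range_iff hEE]
    funext w
    rw [TT_apply]
    show ∑ x, ε (x * n⁻¹) * ε (x⁻¹ * w) = ε (w * n⁻¹)
    rw [← hconv (w * n⁻¹), ← Equiv.sum_comp (Equiv.mulRight n⁻¹) (fun y => ε y * ε (y⁻¹ * (w * n⁻¹)))]
    refine Finset.sum_congr rfl fun x _ => ?_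
    show _ = ε (x * n⁻¹) * ε ((x * n⁻¹)⁻¹ * (w * n⁻¹))
    congr 1
    rw [← hcl n (x⁻¹ * w)]
    congr 1
    group
  obtain ⟨x1, hx1, hx1f⟩ := exists_fixed_orbit hH hE hinj hr R1 (v := fun g => ε (g * (1 : G)⁻¹)) (hεmem 1) (by
      rintro _ ⟨x, hx, rfl⟩ g
      show ε ((δ x • g) * (1 : G)⁻¹) = ε (g * (1 : G)⁻¹)
      rw [hsm, hδ, inv_one, mul_one, mul_one]
      exact hcl _ _) (z := z) (by
      rintro _ ⟨x, hx, rfl⟩
      rw [hsm, hδ]
      have h1 := Subgroup.mem_centralizer_singleton_iff.1 (hzD (Subgroup.mem_subgroupOf.1 hx))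
      show (x : G) * z * (x : G)⁻¹ = z
      rw [h1, mul_inv_cancel_right]) (by
      show ε (z * (1 : G)⁻¹) ≠ 0
      rw [inv_one, mul_one]; exact hz)
  have hR1card : Nat.card R1 = p ^ d := by
    rw [hR1, Subgroup.card_map_of_injective hδinj, ← hDc]
    exact Nat.card_congr (Subgroup.subgroupOfEquivOfLe hDP).toEquiv
  have hst1 : R1 = MulAction.stabilizer (P × P) x1 := by
    apply Subgroup.eq_of_le_of_card_ge (fun r hr' => MulAction.mem_stabilizer_iff.2 (hx1f r hr'))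
    rw [hsto x1 hx1, hR1card]
  -- the twisted diagonal of `Q`
  have hnQ : ∀ q ∈ Q, n⁻¹ * q * n ∈ P := by
    intro q hq
    exact hQP ((Subgroup.mem_normalizer_iff''.1 hn q).1 hq)
  let φ : Q →* P × P :=
    { toFun := fun q => (⟨q, hQP q.2⟩, ⟨n⁻¹ * q * n, hnQ q q.2⟩)
      map_one' := by
        apply Prod.ext
        · rfl
        · apply Subtype.ext
          show n⁻¹ * ((1 : Q) : G) * n = 1
          simp
      map_mul' := fun q r => by
        apply Prod.ext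
        · rfl
        · apply Subtype.ext
          show n⁻¹ * ((q * r : Q) : G) * n = n⁻¹ * (q : G) * n * (n⁻¹ * (r : G) * n)
          push_cast
          group }
  obtain ⟨x2, hx2, hx2f⟩ := exists_fixed_orbit hH hE hinj hr φ.range (v := fun g => ε (g * n⁻¹)) (hεmem n) (by
      rintro _ ⟨q, rfl⟩ g
      show ε ((φ q • g) * n⁻¹) = ε (g * n⁻¹)
      rw [hsm]
      show ε ((q : G) * g * (n⁻¹ * (q : G) * n)⁻¹ * n⁻¹) = ε (g * n⁻¹)
      rw [← hcl (q : G) (g * n⁻¹)]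
      congr 1
      group) (z := c * n) (by
      rintro _ ⟨q, rfl⟩
      rw [hsm]
      show (q : G) * (c * n) * (n⁻¹ * (q : G) * n)⁻¹ = c * n
      have h1 := Subgroup.mem_centralizer_singleton_iff.1 (hc q.2)
      have h2 : (q : G) * (c * n) * (n⁻¹ * (q : G) * n)⁻¹ = ((q : G) * c) * (q : G)⁻¹ * n := by group
      rw [h2, h1, mul_inv_cancel_right]) (by
      show ε (c * n * n⁻¹) ≠ 0
      rw [mul_inv_cancel_right]; exact hc0)
  rw [← MulAction.orbit_eq_iff.2 hx1] at hx2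
  obtain ⟨⟨s, t⟩, hst2⟩ := hx2
  have hst2' : (s, t) • x1 = x2 := hst2
  refine ⟨(s : G) * (t : G)⁻¹, P.mul_mem s.2 (P.inv_mem t.2), n * (t : G) * (s : G)⁻¹, ?_, by group⟩
  rw [Subgroup.mem_centralizer_iff]
  intro q hq
  have h1 := hx2f (φ ⟨q, hq⟩) ⟨⟨q, hq⟩, rfl⟩
  rw [← hst2'] at h1
  have h2 : ((s, t) : P × P)⁻¹ * φ ⟨q, hq⟩ * (s, t) ∈ R1 := by
    rw [hst1, MulAction.mem_stabilizer_iff, mul_smul, mul_smul, h1, inv_smul_smul]
  obtain ⟨x, -, hx⟩ := h2
  rw [hδ] at hx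
  have h3 : (x : G) = (s : G)⁻¹ * q * (s : G) := congrArg (fun r : P × P => (r.1 : G)) hx
  have h4 : (x : G) = (t : G)⁻¹ * (n⁻¹ * q * n) * (t : G) := congrArg (fun r : P × P => (r.2 : G)) hx
  rw [h3] at h4
  have h5 : q = (s : G) * ((t : G)⁻¹ * (n⁻¹ * q * n) * (t : G)) * (s : G)⁻¹ := by rw [← h4]; group
  have h6 : n * (t : G) * (s : G)⁻¹ * q = n * (t : G) * (s : G)⁻¹ *
      ((s : G) * ((t : G)⁻¹ * (n⁻¹ * q * n) * (t : G)) * (s : G)⁻¹) := by rw [← h5]
  rw [h6]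
  group

/-- `p'`-elements -/
theorem regular_mem {Q : Subgroup G} {P : Subgroup G} (hP : IsPGroup p P) {n h c : G}
    (hn : n ∈ Subgroup.normalizer (Q : Set G)) (hh : h ∈ P) (hc : c ∈ Subgroup.centralizer (Q : Set G))
    (hnc : n = c * h) (hnp : ¬ p ∣ orderOf n) : n ∈ Subgroup.centralizer (Q : Set G) := by
  have hp : p.Prime := Fact.out
  have hcn : c ∈ Subgroup.normalizer (Q : Set G) := Subgroup.centralizer_le_normalizer _ hc
  have hhn : h ∈ Subgroup.normalizer (Q : Set G) := by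
    have : h = c⁻¹ * n := by rw [hnc]; group
    rw [this]
    exact mul_mem (inv_mem hcn) hn
  have hconj : ∀ x ∈ Subgroup.centralizer (Q : Set G), h * x * h⁻¹ ∈ Subgroup.centralizer (Q : Set G) := by
    intro x hx
    rw [Subgroup.mem_centralizer_iff] at hx ⊢
    intro q hq
    have h1 : h⁻¹ * q * h ∈ Q := (Subgroup.mem_normalizer_iff''.1 hhn q).1 hq
    have h2 := hx _ h1
    have h3 : q * (h * x * h⁻¹) = h * (h⁻¹ * q * h * x) * h⁻¹ := by group
    rw [h3, h2]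
    group
  have key : ∀ i : ℕ, n ^ i * (h ^ i)⁻¹ ∈ Subgroup.centralizer (Q : Set G) := by
    intro i
    induction i with
    | zero => simp [one_mem]
    | succ i ih =>
      have h1 : n ^ (i + 1) * (h ^ (i + 1))⁻¹ = c * (h * (n ^ i * (h ^ i)⁻¹) * h⁻¹) := by
        have h2 : n ^ (i + 1) = c * h * n ^ i := by rw [pow_succ', ← hnc]
        rw [h2, pow_succ' h i, mul_inv_rev]
        group
      rw [h1]
      exact mul_mem hc (hconj _ ih)
  obtain ⟨j, hj⟩ := IsPGroup.iff_orderOf.1 hP ⟨h, hh⟩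
  rw [Subgroup.orderOf_mk] at hj
  have hcop : (p ^ j).Coprime (orderOf n) := Nat.Coprime.pow_left _ ((Nat.Prime.coprime_iff_not_dvd hp).2 hnp)
  obtain ⟨E, h1, h2⟩ := Nat.chineseRemainder hcop 0 1
  have h3 := key E
  have h4 : n ^ E = n := by
    rw [pow_eq_pow_iff_modEq.2 h2, pow_one]
  have h5 : h ^ E = 1 := by
    rw [← orderOf_dvd_iff_pow_eq_one, hj]
    exact Nat.modEq_zero_iff_dvd.1 h1
  rwa [h4, h5, inv_one, mul_one] at h3

end H84.SQ
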