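import Mathlib
import Cfsg.Agent.Lib.H84.SQ3
import Cfsg.Agent.Lib.H80.ML14
import Cfsg.Agent.Lib.H80.BR3
import Cfsg.Agent.Lib.H81.BrIdem

/-!
# Blocks of minimal dimension are nilpotent
-/

set_option autoImplicit false
set_option linter.unusedSectionVars false
set_option linter.unusedVariables false
set_option linter.style.haveILetI false

namespace H84.SQ

open Cfsg H20.Loc H20.GA H20.Blk H80.GA H80.GB H80.GE H80.BR1 H84.RG H84.Star H18.CharBasic H18.CharOrtho
open H20.BrT H20.Defect H20.DefGrp H80.ML14 H80.BR3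
open scoped ComplexConjugate

universe u

variable {M : Ideal AlgInt} [M.IsMaximal] {G : Type u} [Group G] [Finite G] {p : ℕ}

/-- the dimension of the block algebra is at most the sum of the squares of the degrees -/
theorem finrank_ebar (hM : IsPModular p M) {B : Set (IrrCharacter G)} (hB : IsPBlock M B) :
    Module.finrank (ResF M) (LinearMap.range (LinearMap.mulLeft (ResF M) (ebar M B))) ≤
      ∑ᶠ χ ∈ B, charDegree (χ : G → ℂ) ^ 2 := by
  classical
  haveI : M.IsPrime := inferInstance
  letI := Fintype.ofFinite (IrrCharacter G)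
  rw [← iK_zR_eB hB]
  refine (H80.ML14.finrank_le _).trans ?_
  have h0 : ∑ᶠ χ ∈ B, charDegree (χ : G → ℂ) ^ 2 =
      ∑ χ ∈ Finset.univ.filter (fun χ : IrrCharacter G => χ ∈ B), charDegree (χ : G → ℂ) ^ 2 := by
    rw [finsum_mem_eq_finite_toFinset_sum _ (Set.toFinite B)]
    apply Finset.sum_congr _ (fun _ _ => rfl)
    ext χ
    simp
  have h1 : (Module.finrank ℂ (LinearMap.range (LinearMap.mulLeft ℂ
      (iC M G (zR (M := M) (eB B))))) : ℂ) = ((∑ᶠ χ ∈ B, charDegree (χ : G → ℂ) ^ 2 : ℕ) : ℂ) := by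
    rw [finrank_mul _ (by rw [← map_mul, (zR_eB_idem hB).eq]), iC_zR (eB_mem hB)]
    show (Nat.card G : ℂ) * zc (eB B) 1 = _
    rw [zc_eB, blockCoeff_eq_sum, ← mul_assoc, mul_inv_cancel₀ (by
      exact_mod_cast Nat.card_pos.ne'), one_mul, ← Finset.sum_filter, h0, Nat.cast_sum]
    refine Finset.sum_congr rfl fun χ hχ => ?_
    rw [← charDegree_irr, Complex.conj_natCast]
    push_cast
    ring
  exact (Nat.cast_injective h1).le

theorem coeff_sum_single [Fintype G] (w : G → ResF M) (z : G) :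
    (∑ x, MonoidAlgebra.single x (w x) : MonoidAlgebra (ResF M) G).coeff z = w z := by
  classical
  rw [coeff_sum', Finset.sum_eq_single z]
  · rw [MonoidAlgebra.coeff_single, Finsupp.single_eq_same]
  · intro x _ hx
    rw [MonoidAlgebra.coeff_single, Finsupp.single_eq_of_ne hx.symm]
  · intro h; exact absurd (Finset.mem_univ _) h

theorem ebar_class {B : Set (IrrCharacter G)} (g x : G) :
    (ebar M B).coeff (g * x * g⁻¹) = (ebar M B).coeff x := by
  rw [coeff_ebar, coeff_ebar, blockCoeff_class B x g]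

theorem ebar_class' {B : Set (IrrCharacter G)} (x y : G) :
    (ebar M B).coeff (x * y) = (ebar M B).coeff (y * x) := by
  rw [← ebar_class (B := B) y (x * y)]
  congr 1
  group

theorem range_TT_le [Fintype G] (B : Set (IrrCharacter G)) :
    Module.finrank (ResF M) (LinearMap.range (TT (EE (fun g => (ebar M B).coeff g)))) ≤
      Module.finrank (ResF M) (LinearMap.range (LinearMap.mulLeft (ResF M) (ebar M B))) := by
  classical
  let C : MonoidAlgebra (ResF M) G →ₗ[ResF M] (G → ResF M) :=
    { toFun := fun a g => a.coeff g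
      map_add' := fun a b => rfl
      map_smul' := fun c a => rfl }
  have hle : LinearMap.range (TT (EE (fun g => (ebar M B).coeff g))) ≤
      (LinearMap.range (LinearMap.mulLeft (ResF M) (ebar M B))).map C := by
    rintro _ ⟨w, rfl⟩
    refine ⟨_, ⟨∑ x, MonoidAlgebra.single x (w x), rfl⟩, ?_⟩
    funext z
    show (ebar M B * ∑ x, MonoidAlgebra.single x (w x)).coeff z = _
    rw [coeff_mul'', TT_apply]
    refine Finset.sum_congr rfl fun x _ => ?_
    rw [coeff_sum_single, mul_comm]
    show w x * (ebar M B).coeff (z * x⁻¹) = w x * (ebar M B).coeff (x⁻¹ * z)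
    rw [ebar_class']
  exact (Submodule.finrank_mono hle).trans (Submodule.finrank_map_le _ _)

theorem ebar_conv [Fintype G] {B : Set (IrrCharacter G)} (hB : IsPBlock M B) (z : G) :
    ∑ y, (ebar M B).coeff y * (ebar M B).coeff (y⁻¹ * z) = (ebar M B).coeff z := by
  have h1 := congrArg (fun a => a.coeff z) (ebar_idem (M := M) hB)
  have h2 : (ebar M B * ebar M B).coeff z = (ebar M B).coeff z := h1
  rw [coeff_mul''] at h2
  rw [← h2]
  refine Finset.sum_congr rfl fun y _ => ?_
  rw [mul_comm, ebar_class']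

theorem exists_conj_le_sylow [Fact p.Prime] {D : Subgroup G} (hD : IsPGroup p D) (P : Sylow p G) :
    ∃ g : G, D.map (MulAut.conj g).toMonoidHom ≤ P := by
  obtain ⟨P', hP'⟩ := hD.exists_le_sylow
  obtain ⟨g, hg⟩ := MulAction.exists_smul_eq G P' P
  refine ⟨g, ?_⟩
  rw [← hg]
  rintro _ ⟨x, hx, rfl⟩
  exact ⟨x, hP' hx, rfl⟩

theorem nilpotent (hM : IsPModular p M) [Fact p.Prime] [CharP (ResF M) p] {B : Set (IrrCharacter G)} (hB : IsPBlock M B)
    {D : Subgroup G} (hD : IsDefectGroup p M B D) {a d : ℕ} (ha : (Nat.card G).factorization p = a)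
    (hd : Nat.card D = p ^ d) (hmin : ∑ᶠ χ ∈ B, charDegree (χ : G → ℂ) ^ 2 = p ^ (2 * a - d)) :
    IsNilpotentBlock p M B := by
  classical
  haveI : M.IsPrime := inferInstance
  letI := Fintype.ofFinite G
  refine ⟨hB, ?_⟩
  intro Q e hQe n hn hstab hreg
  obtain ⟨-, he, hpair⟩ := brauerPairOf_iff.1 hQe
  have hQp := hpair.pair.pgr
  -- nonzero coefficient
  have hex : ∃ c ∈ Subgroup.centralizer (Q : Set G), (ebar M B).coeff c ≠ 0 := by
    by_contra! hcon
    have h0 : br (ResF M) Q (ebar M B) = 0 := by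
      apply ext'
      intro x
      by_cases hx : x ∈ Subgroup.centralizer (Q : Set G)
      · rw [coeff_br_of_mem hx, hcon x hx]; rfl
      · rw [coeff_br_of_not_mem hx]; rfl
    have h1 := hpair.br
    rw [h0, zero_mul] at h1
    exact hpair.pair.blk.ne h1.symm
  obtain ⟨c, hcQ, hc0⟩ := hex
  obtain ⟨P, hQP⟩ := hQp.exists_le_sylow
  obtain ⟨g, hg⟩ := exists_conj_le_sylow (isPGroup_of_isDefectGroup hD) P
  have hD' := isDefectGroup_map_conj hD g
  set D' := D.map (MulAut.conj g).toMonoidHom with hD'def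
  have hD'c : Nat.card D' = p ^ d := by
    rw [hD'def, Subgroup.card_map_of_injective (MulAut.conj g).injective, hd]
  have hcardP : Nat.card (P : Subgroup G) = p ^ a := by rw [← ha]; exact P.card_eq_multiplicity
  have hda : d ≤ a := by
    have h1 := Subgroup.card_le_of_le hg
    rw [hD'c, hcardP] at h1
    exact (Nat.pow_le_pow_iff_right (pm_prime hM).one_lt).1 h1
  have hdef : blockDefect p B = d := by
    have h1 := card_defectGroup hM hB hD
    rw [hd] at h1
    exact (Nat.pow_right_injective (pm_prime hM).two_le h1).symm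
  have hunit : ∀ x : G, (ebar M B).coeff x ≠ 0 ↔ ¬ MemLocalIdeal M (blockCoeff B x) := by
    intro x
    rw [coeff_ebar, Ne, redFun_eq_zero_iff (blockCoeff_memR hB x)]
  have hz : ∃ z : G, D' ≤ Subgroup.centralizer ({z} : Set G) ∧ (ebar M B).coeff z ≠ 0 := by
    obtain ⟨z, hz, S, hS⟩ := hD'
    refine ⟨z, ?_, (hunit z).2 hz.2.1⟩
    rw [hS]; exact sylC_le z S
  obtain ⟨z, hzD, hz0⟩ := hz
  have hQc : Q ≤ Subgroup.centralizer ({c} : Set G) := by
    intro q hq
    rw [Subgroup.mem_centralizer_singleton_iff]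
    exact Subgroup.mem_centralizer_iff.1 hcQ q hq
  obtain ⟨h, hh, c', hc', hnc⟩ := main (p := p) (ε := fun g => (ebar M B).coeff g) (fun g x => ebar_class g x)
    (fun z => ebar_conv hB z) (P : Subgroup G) hcardP hda (by
      intro R hR x hRx hx0
      obtain ⟨r, hr⟩ := IsPGroup.iff_card.1 hR
      have h1 := H81.BrIdem.le_blockDefect hM hB ((hunit x).1 hx0) hR hRx hr
      rw [hdef] at h1
      rw [hr]
      exact Nat.pow_le_pow_right (pm_prime hM).pos h1) (by
      rw [← hmin]
      exact (range_TT_le B).trans (finrank_ebar hM hB)) hg hD'c hzD hz0 hQP hQc hc0 hn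
  exact regular_mem (p := p) P.2 hn hh hc' hnc hreg

end H84.SQ
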