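import Cfsg.Agent.Lib.H84.CyclicNorm
import Cfsg.Agent.Lib.H84.CharMisc

/-!
Combinations of characters with coefficients in `ℤ[ζ]`, and the averaging lemma.
-/

set_option autoImplicit false

namespace H84.WL1

open Cfsg Polynomial H18.CharBasic H18.CharOrtho
open scoped ComplexConjugate

universe u

/-- The ring `ℤ[ζ]`. -/
noncomputable def RZ (ζ : ℂ) : Subring ℂ := (Polynomial.eval₂RingHom (Int.castRingHom ℂ) ζ).range

theorem mem_RZ {ζ x : ℂ} : x ∈ RZ ζ ↔ ∃ P : ℤ[X], (P.map (Int.castRingHom ℂ)).eval ζ = x := by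
  unfold RZ
  rw [RingHom.mem_range]
  simp only [Polynomial.coe_eval₂RingHom, eval₂_eq_eval_map]

theorem zeta_mem (ζ : ℂ) : ζ ∈ RZ ζ := mem_RZ.2 ⟨X, by simp⟩

theorem root_mem {ζ : ℂ} {N : ℕ} (hN : 0 < N) (hζ : IsPrimitiveRoot ζ N) {x : ℂ} {n : ℕ} (hn : n ∣ N)
    (hx : x ^ n = 1) : x ∈ RZ ζ := by
  have : NeZero N := ⟨hN.ne'⟩
  obtain ⟨k, rfl⟩ := hn
  have h2 : x ^ (n * k) = 1 := by rw [pow_mul, hx, one_pow]
  obtain ⟨i, -, hi⟩ := hζ.eq_pow_of_pow_eq_one h2
  rw [← hi]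
  exact pow_mem (zeta_mem ζ) i

theorem conj_mem {ζ : ℂ} {N : ℕ} (hN : 0 < N) (hζ : IsPrimitiveRoot ζ N) {x : ℂ} (hx : x ∈ RZ ζ) :
    conj x ∈ RZ ζ := by
  obtain ⟨P, rfl⟩ := mem_RZ.1 hx
  have h1 : conj ((P.map (Int.castRingHom ℂ)).eval ζ) = (P.map (Int.castRingHom ℂ)).eval (conj ζ) := by
    rw [Polynomial.eval_map, Polynomial.eval_map, Polynomial.hom_eval₂]
    congr 1
    ext n
    simp
  rw [h1]
  have h2 : conj ζ = ζ ^ (N - 1) := by
    have h3 : ζ ^ (N - 1) * ζ = 1 := by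
      rw [← pow_succ, Nat.sub_add_cancel hN, hζ.pow_eq_one]
    have h4 : ζ * conj ζ = 1 := by
      rw [Complex.mul_conj, Complex.normSq_eq_norm_sq, hζ.norm'_eq_one hN.ne']
      norm_num
    have h5 : ζ ≠ 0 := hζ.ne_zero hN.ne'
    apply mul_left_cancel₀ h5
    rw [h4, mul_comm, h3]
  have h3 : ζ ^ (N - 1) = ((X : ℂ[X]) ^ (N - 1)).eval ζ := by simp
  rw [h2, h3, ← Polynomial.eval_comp]
  refine mem_RZ.2 ⟨P.comp (X ^ (N - 1)), ?_⟩
  rw [Polynomial.map_comp]
  simp

theorem int_mem (ζ : ℂ) (n : ℤ) : (n : ℂ) ∈ RZ ζ := intCast_mem _ n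

theorem nat_mem (ζ : ℂ) (n : ℕ) : (n : ℂ) ∈ RZ ζ := natCast_mem _ n

theorem integral_of_mem {ζ : ℂ} {N : ℕ} (hN : 0 < N) (hζ : IsPrimitiveRoot ζ N) {x : ℂ} (hx : x ∈ RZ ζ) :
    IsIntegral ℤ x := by
  obtain ⟨P, rfl⟩ := mem_RZ.1 hx
  have h1 : IsIntegral ℤ ζ := hζ.isIntegral hN
  rw [Polynomial.eval_eq_sum_range]
  refine IsIntegral.sum _ fun i _ => ?_
  rw [Polynomial.coeff_map]
  refine IsIntegral.mul ?_ (h1.pow i)
  exact isIntegral_algebraMap (R := ℤ) (A := ℂ) (x := P.coeff i)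

section avg

/-- The averaging lemma. -/
theorem card_le {ι : Type*} [Fintype ι] {ζ : ℂ} {N : ℕ} (hN : 0 < N) (hζ : IsPrimitiveRoot ζ N)
    (a : ι → ℂ) (ha : ∀ i, a i ∈ RZ ζ) (h0 : ∀ i, a i ≠ 0) (S : ℝ) (D : ℕ) (hD : 0 < D) (m : ℤ)
    (hS : (D : ℝ) * S = m) (hsum : ∑ i, ‖a i‖ ^ 2 = S) : (Fintype.card ι : ℝ) ≤ S := by
  classical
  have hNZ : NeZero N := ⟨hN.ne'⟩
  choose P hP using fun i => mem_RZ.1 (ha i)
  have hconj : ∀ μ : ℂ, IsPrimitiveRoot μ N → conj μ = μ ^ (N - 1) := by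
    intro μ hμ
    have h3 : μ ^ (N - 1) * μ = 1 := by
      rw [← pow_succ, Nat.sub_add_cancel hN, hμ.pow_eq_one]
    have h4 : μ * conj μ = 1 := by
      rw [Complex.mul_conj, Complex.normSq_eq_norm_sq, hμ.norm'_eq_one hN.ne']
      norm_num
    have h5 : μ ≠ 0 := hμ.ne_zero hN.ne'
    apply mul_left_cancel₀ h5
    rw [h4, mul_comm, h3]
  let Q : ℤ[X] := C (D : ℤ) * ∑ i, P i * (P i).comp (X ^ (N - 1)) - C m
  have hQ : ∀ μ : ℂ, IsPrimitiveRoot μ N → (Q.map (Int.castRingHom ℂ)).eval μ =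
      (((D : ℝ) * ∑ i, ‖((P i).map (Int.castRingHom ℂ)).eval μ‖ ^ 2 - m : ℝ) : ℂ) := by
    intro μ hμ
    have h1 : ∀ i, (((P i) * (P i).comp (X ^ (N - 1))).map (Int.castRingHom ℂ)).eval μ =
        ((‖((P i).map (Int.castRingHom ℂ)).eval μ‖ ^ 2 : ℝ) : ℂ) := by
      intro i
      rw [Polynomial.map_mul, Polynomial.eval_mul, Polynomial.map_comp, Polynomial.eval_comp]
      have h2 : ((X ^ (N - 1) : ℤ[X]).map (Int.castRingHom ℂ)).eval μ = conj μ := by
        rw [hconj μ hμ]; simp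
      rw [h2]
      have h3 : conj (((P i).map (Int.castRingHom ℂ)).eval μ) = ((P i).map (Int.castRingHom ℂ)).eval (conj μ) := by
        rw [Polynomial.eval_map, Polynomial.eval_map, Polynomial.hom_eval₂]
        congr 1
        ext n
        simp
      rw [← h3, Complex.mul_conj, Complex.normSq_eq_norm_sq]
    simp only [Q, Polynomial.map_sub, Polynomial.map_mul, Polynomial.map_sum, Polynomial.map_C, Polynomial.eval_sub,
      Polynomial.eval_mul, Polynomial.eval_finsetSum, Polynomial.eval_C] at h1 ⊢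
    rw [Finset.sum_congr rfl (fun i _ => h1 i)]
    push_cast
    simp
  have h1 : (Q.map (Int.castRingHom ℂ)).eval ζ = 0 := by
    rw [hQ ζ hζ]
    have : ∑ i, ‖((P i).map (Int.castRingHom ℂ)).eval ζ‖ ^ 2 = S := by
      rw [← hsum]
      exact Finset.sum_congr rfl fun i _ => by rw [hP i]
    rw [this, hS, sub_self]; simp
  have h2 : ∀ μ : ℂ, IsPrimitiveRoot μ N → ∑ i, ‖((P i).map (Int.castRingHom ℂ)).eval μ‖ ^ 2 = S := by
    intro μ hμ
    have h3 : (Q.map (Int.castRingHom ℂ)).eval μ = 0 := by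
      by_contra h
      exact H84.CyclicNorm.eval_ne_zero hN Q hμ hζ h h1
    rw [hQ μ hμ] at h3
    have h4 : (D : ℝ) * ∑ i, ‖((P i).map (Int.castRingHom ℂ)).eval μ‖ ^ 2 - m = 0 := by exact_mod_cast h3
    have h5 : (D : ℝ) ≠ 0 := by exact_mod_cast hD.ne'
    rw [← hS] at h4
    have h6 : (D : ℝ) * ∑ i, ‖((P i).map (Int.castRingHom ℂ)).eval μ‖ ^ 2 = (D : ℝ) * S := by linarith
    exact mul_left_cancel₀ h5 h6
  have h3 : ∀ i, (N.totient : ℝ) ≤ ∑ μ ∈ primitiveRoots N ℂ, ‖((P i).map (Int.castRingHom ℂ)).eval μ‖ ^ 2 := fun i =>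
    H84.CyclicNorm.card_le_sum_norm_sq hN (P i) hζ (by rw [hP i]; exact h0 i)
  have h4 : (Fintype.card ι : ℝ) * (N.totient : ℝ) ≤ (N.totient : ℝ) * S := by
    calc (Fintype.card ι : ℝ) * (N.totient : ℝ) = ∑ _i : ι, (N.totient : ℝ) := by
          rw [Finset.sum_const, Finset.card_univ, nsmul_eq_mul]
      _ ≤ ∑ i, ∑ μ ∈ primitiveRoots N ℂ, ‖((P i).map (Int.castRingHom ℂ)).eval μ‖ ^ 2 :=
          Finset.sum_le_sum fun i _ => h3 i
      _ = ∑ μ ∈ primitiveRoots N ℂ, ∑ i, ‖((P i).map (Int.castRingHom ℂ)).eval μ‖ ^ 2 := Finset.sum_comm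
      _ = ∑ _μ ∈ primitiveRoots N ℂ, S := Finset.sum_congr rfl fun μ hμ =>
          h2 μ ((mem_primitiveRoots hN).1 hμ)
      _ = (N.totient : ℝ) * S := by rw [Finset.sum_const, hζ.card_primitiveRoots, nsmul_eq_mul]
  have h5 : (0 : ℝ) < N.totient := by exact_mod_cast Nat.totient_pos.2 hN
  rw [mul_comm] at h4
  exact le_of_mul_le_mul_left h4 h5

end avg

section comb

variable {G : Type u} [Group G] (R : Subring ℂ)

variable (G) in
/-- Combinations of characters with coefficients in `R`. -/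
def VC : Submodule R (G → ℂ) := Submodule.span R {φ : G → ℂ | IsCharacter G φ}

variable {R}

theorem char_mem {φ : G → ℂ} (h : IsCharacter G φ) : φ ∈ VC G R := Submodule.subset_span h

theorem smul_mem {r : ℂ} (hr : r ∈ R) {f : G → ℂ} (hf : f ∈ VC G R) : r • f ∈ VC G R := by
  have := (VC G R).smul_mem ⟨r, hr⟩ hf
  exact this

theorem smul_mem' {r : ℂ} (hr : r ∈ R) {f : G → ℂ} (hf : f ∈ VC G R) : (fun g => r * f g) ∈ VC G R :=
  smul_mem hr hf

theorem const_mem {r : ℂ} (hr : r ∈ R) : (fun _ => r : G → ℂ) ∈ VC G R := by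
  have h := smul_mem (R := R) hr (char_mem (R := R) (isCharacter_one (G := G)))
  have e : (r • (fun _ => 1 : G → ℂ)) = fun _ => r := by ext; simp
  rwa [e] at h

theorem mul_mem {f g : G → ℂ} (hf : f ∈ VC G R) (hg : g ∈ VC G R) : f * g ∈ VC G R := by
  unfold VC at hf
  induction hf using Submodule.span_induction with
  | mem φ hφ =>
    unfold VC at hg
    induction hg using Submodule.span_induction with
    | mem ψ hψ => exact char_mem (isCharacter_mul hφ hψ)
    | zero => rw [mul_zero]; exact zero_mem _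
    | add x y _ _ hx hy => rw [mul_add]; exact add_mem hx hy
    | smul r x _ hx => rw [mul_smul_comm]; exact (VC G R).smul_mem r hx
  | zero => rw [zero_mul]; exact zero_mem _
  | add x y _ _ hx hy => rw [add_mul]; exact add_mem hx hy
  | smul r x _ hx => rw [smul_mul_assoc]; exact (VC G R).smul_mem r hx

theorem mul_mem' {f g : G → ℂ} (hf : f ∈ VC G R) (hg : g ∈ VC G R) : (fun x => f x * g x) ∈ VC G R :=
  mul_mem hf hg

theorem prod_mem {ι : Type*} (s : Finset ι) (f : ι → G → ℂ) (hf : ∀ i ∈ s, f i ∈ VC G R) :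
    (fun g => ∏ i ∈ s, f i g) ∈ VC G R := by
  classical
  induction s using Finset.induction_on with
  | empty =>
    have := const_mem (G := G) (R := R) (one_mem R)
    simpa using this
  | insert i s hi ih =>
    have h1 := mul_mem' (hf i (Finset.mem_insert_self i s))
      (ih fun j hj => hf j (Finset.mem_insert_of_mem hj))
    simpa [Finset.prod_insert hi] using h1

theorem sum_mem' {ι : Type*} (s : Finset ι) (f : ι → G → ℂ) (hf : ∀ i ∈ s, f i ∈ VC G R) :
    (fun g => ∑ i ∈ s, f i g) ∈ VC G R := by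
  have := Submodule.sum_mem (VC G R) hf
  have e : (∑ i ∈ s, f i) = fun g => ∑ i ∈ s, f i g := by
    ext g; rw [Finset.sum_apply]
  rwa [e] at this

theorem isClass {f : G → ℂ} (hf : f ∈ VC G R) : IsClassFunction G f := by
  unfold VC at hf
  induction hf using Submodule.span_induction with
  | mem φ hφ => exact isClassFunction_of_isCharacter hφ
  | zero => exact isClassFunction_zero
  | add x y _ _ hx hy => exact isClassFunction_add hx hy
  | smul r x _ hx => exact isClassFunction_smul (r : ℂ) hx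

theorem inner_mem_char [Fintype G] {f ψ : G → ℂ} (hf : f ∈ VC G R) (hψ : IsCharacter G ψ) :
    classInner f ψ ∈ R := by
  unfold VC at hf
  induction hf using Submodule.span_induction with
  | mem φ hφ =>
    obtain ⟨n, hn⟩ := inner_char_natCast hφ hψ
    rw [hn]; exact natCast_mem _ n
  | zero =>
    have : classInner (0 : G → ℂ) ψ = 0 := by unfold classInner; simp
    rw [this]; exact zero_mem _
  | add x y _ _ hx hy => rw [H18.CharOrtho.inner_add_left]; exact add_mem hx hy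
  | smul r x _ hx =>
    have : (r • x : G → ℂ) = (r : ℂ) • x := rfl
    rw [this, H18.CharOrtho.inner_smul_left]
    exact R.mul_mem r.2 hx

theorem inner_mem [Fintype G] (hR : ∀ r ∈ R, conj r ∈ R) {f g : G → ℂ} (hf : f ∈ VC G R) (hg : g ∈ VC G R) :
    classInner f g ∈ R := by
  unfold VC at hg
  induction hg using Submodule.span_induction with
  | mem ψ hψ => exact inner_mem_char hf hψ
  | zero =>
    have : classInner f (0 : G → ℂ) = 0 := by unfold classInner; simp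
    rw [this]; exact zero_mem _
  | add x y _ _ hx hy => rw [H18.CharOrtho.inner_add_right]; exact add_mem hx hy
  | smul r x _ hx =>
    have : (r • x : G → ℂ) = (r : ℂ) • x := rfl
    rw [this, H18.CharOrtho.inner_smul_right]
    exact R.mul_mem (hR _ r.2) hx

theorem of_inner [Fintype G] {f : G → ℂ} (hf : IsClassFunction G f)
    (h : ∀ ψ : G → ℂ, IsIrrCharacter G ψ → classInner f ψ ∈ R) : f ∈ VC G R := by
  have := Fintype.ofFinite (IrrCharacter G)
  rw [mem_classFun_expand hf]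
  exact Submodule.sum_mem _ fun χ _ => smul_mem (h χ χ.2) (char_mem (isCharacter_of_isIrr χ.2))

end comb

/-- Values of characters. -/
theorem char_val_mem {G : Type u} [Group G] [Finite G] {χ : G → ℂ} (hχ : IsCharacter G χ) {ζ : ℂ} {N : ℕ} (hN : 0 < N)
    (hζ : IsPrimitiveRoot ζ N) (hG : Nat.card G ∣ N) (g : G) : χ g ∈ RZ ζ := by
  obtain ⟨s, hs⟩ := exists_eigen hχ g
  have h1 := hs ⟨g, Subgroup.mem_zpowers g⟩
  rw [show χ g = (s.map fun f => (f ⟨g, Subgroup.mem_zpowers g⟩ : ℂ)).sum from h1]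
  apply Subring.multiset_sum_mem
  intro x hx
  obtain ⟨f, -, rfl⟩ := Multiset.mem_map.1 hx
  refine root_mem hN hζ (n := Nat.card G) hG ?_
  rw [← Units.val_pow_eq_pow_val, ← map_pow]
  have : (⟨g, Subgroup.mem_zpowers g⟩ : Subgroup.zpowers g) ^ Nat.card G = 1 := by
    apply Subtype.ext
    simp
  rw [this, map_one, Units.val_one]

end H84.WL1
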