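import Cfsg.Agent.Lib.H84.WL1
import Cfsg.Agent.Lib.H64.Monomial
import Cfsg.Agent.Lib.H18.CharQuot
import Mathlib.FieldTheory.Finite.Basic
import Mathlib.LinearAlgebra.Eigenspace.Basic

/-!
The Brauer lift of a representation of a group `H` over a finite field with `q` elements,
`|H|` dividing `q - 1`, is a combination of characters with coefficients in the values.
-/

set_option autoImplicit false

namespace H84.WL2

open Cfsg H18.CharBasic H18.CharOrtho H18.CharQuot H84.WL1 H84.CharMisc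
open scoped ComplexConjugate

universe u v w

variable {H : Type u} [Group H] {F : Type v} [Field F] [Fintype F] [DecidableEq F]
  {W : Type w} [AddCommGroup W] [Module F W]

/-- multiplicity of an eigenvalue -/
noncomputable def mu (ρ : Representation F H W) (y : H) (c : F) : ℕ :=
  Module.finrank F (Module.End.eigenspace (ρ y) c)

theorem card_fix [Finite W] (ρ : Representation F H W) (y : H) (c : F) :
    Nat.card {w : W // ρ y w = c • w} = Fintype.card F ^ mu ρ y c := by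
  have := Fintype.ofFinite W
  have h1 : Nat.card {w : W // ρ y w = c • w} = Nat.card (Module.End.eigenspace (ρ y) c) :=
    Nat.card_congr (Equiv.subtypeEquivRight fun w => Module.End.mem_eigenspace_iff.symm)
  have := Fintype.ofFinite (Module.End.eigenspace (ρ y) c)
  rw [h1, Nat.card_eq_fintype_card, Module.card_eq_pow_finrank (K := F)]
  rfl

theorem fix_char [Finite W] (ρ : Representation F H W) :
    IsCharacter (H × Fˣ) (fun x => ((Fintype.card F ^ mu ρ x.1 (x.2 : F) : ℕ) : ℂ)) := by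
  classical
  have := Fintype.ofFinite W
  have h := H64.Monomial.isCharacter_perm (M := H × Fˣ) (X := W) (fun x w => (x.2⁻¹ : Fˣ) • ρ x.1 w)
    (fun w => by simp) (fun m n w => by
      simp only [Prod.fst_mul, Prod.snd_mul, mul_inv, map_mul, Module.End.mul_apply]
      rw [Units.smul_def, Units.smul_def, Units.smul_def, map_smul, smul_smul, Units.val_mul])
  convert h using 1
  funext x
  rw [← card_fix, Nat.card_eq_fintype_card, Fintype.card_subtype]
  push_cast
  rw [Finset.sum_boole]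
  congr 2
  ext w
  simp only [Finset.mem_filter, Finset.mem_univ, true_and]
  rw [inv_smul_eq_iff, Units.smul_def]

theorem mu_conj [Finite W] (ρ : Representation F H W) (y h : H) (c : Fˣ) :
    mu ρ (h * y * h⁻¹) c = mu ρ y c := by
  have h1 := isClassFunction_of_isCharacter (fix_char ρ) (y, c) (h, 1)
  simp only [Prod.mk_mul_mk, Prod.inv_mk, inv_one, mul_one, one_mul] at h1
  have h2 : Fintype.card F ^ mu ρ (h * y * h⁻¹) (c : F) = Fintype.card F ^ mu ρ y (c : F) := by
    exact_mod_cast h1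
  exact Nat.pow_right_injective (Fintype.one_lt_card (α := F)) h2

/-- the Brauer lift -/
noncomputable def bl (θ : Fˣ →* ℂˣ) (ρ : Representation F H W) (y : H) : ℂ :=
  ∑ c : Fˣ, (θ c : ℂ) * (mu ρ y c : ℂ)

theorem bl_class [Finite W] (θ : Fˣ →* ℂˣ) (ρ : Representation F H W) : IsClassFunction H (bl θ ρ) := by
  intro y h
  unfold bl
  exact Finset.sum_congr rfl fun c _ => by rw [mu_conj]

theorem geom (q m : ℕ) (hq : 1 ≤ q) : ∃ G : ℕ, q ^ m = 1 + (q - 1) * (m + (q - 1) * G) := by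
  induction m with
  | zero => exact ⟨0, by simp⟩
  | succ m ih =>
    obtain ⟨G, hG⟩ := ih
    obtain ⟨r, rfl⟩ := Nat.exists_eq_add_of_le' hq
    simp only [Nat.add_sub_cancel] at hG ⊢
    refine ⟨m + r * G + G, ?_⟩
    rw [pow_succ, hG]; ring

theorem sum_theta (θ : Fˣ →* ℂˣ) (hθ : θ ≠ 1) : ∑ c : Fˣ, (θ c : ℂ) = 0 := by
  classical
  let φ : Fˣ →* ℂ := (Units.coeHom ℂ).comp θ
  have h := sum_hom_units φ
  have hφ : φ ≠ 1 := by
    intro h1
    apply hθ
    ext c
    exact DFunLike.congr_fun h1 c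
  rw [if_neg hφ] at h
  exact_mod_cast h

theorem bl_mem [Finite W] [Fintype H] (θ : Fˣ →* ℂˣ) (hθ : θ ≠ 1) (ρ : Representation F H W)
    (hq : Nat.card H ∣ Fintype.card F - 1) {R : Subring ℂ} (hR : ∀ c, (θ c : ℂ) ∈ R)
    (hR2 : ∀ φ : H → ℂ, IsCharacter H φ → ∀ y, φ y ∈ R) (hR3 : ∀ r ∈ R, conj r ∈ R) :
    bl θ ρ ∈ VC H R := by
  classical
  set q := Fintype.card F with hqdef
  have hq1 : 1 < q := Fintype.one_lt_card
  refine of_inner (bl_class θ ρ) fun φ hφ => ?_
  choose G hG using fun (y : H) (c : Fˣ) => geom q (mu ρ y (c : F)) hq1.le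
  obtain ⟨k, hk⟩ := hq
  have hHne : (Nat.card H : ℂ) ≠ 0 := card_ne_zero'
  have hq0 : ((q - 1 : ℕ) : ℂ) ≠ 0 := by
    have : 0 < q - 1 := by omega
    exact_mod_cast this.ne'
  -- the character of H × Fˣ
  have hξ : IsCharacter (H × Fˣ) (fun x => ((θ⁻¹).comp (MonoidHom.snd H Fˣ) x : ℂ) * φ x.1) :=
    isCharacter_hom_mul _ (isCharacter_comp (MonoidHom.fst H Fˣ) (isCharacter_of_isIrr hφ))
  obtain ⟨n, hn⟩ := inner_char_natCast (fix_char ρ) hξ
  have h1 : classInner (bl θ ρ) φ = n - (k : ℂ) * ∑ y : H, (∑ c : Fˣ, (θ c : ℂ) * (G y c : ℂ)) * conj (φ y) := by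
    rw [← hn]
    unfold classInner
    have e1 : (Nat.card (H × Fˣ) : ℂ) = (Nat.card H : ℂ) * ((q - 1 : ℕ) : ℂ) := by
      rw [Nat.card_prod, Nat.card_eq_fintype_card (α := Fˣ), Fintype.card_units]
      push_cast; rfl
    rw [e1, Fintype.sum_prod_type]
    have e2 : ∀ y : H, ∑ c : Fˣ, ((q ^ mu ρ (y, c).1 ((y, c).2 : F) : ℕ) : ℂ) *
        conj (((θ⁻¹).comp (MonoidHom.snd H Fˣ) (y, c) : ℂ) * φ (y, c).1) =
        ((q - 1 : ℕ) : ℂ) * (bl θ ρ y * conj (φ y)) +
        ((q - 1 : ℕ) : ℂ) * (((q - 1 : ℕ) : ℂ) * ((∑ c : Fˣ, (θ c : ℂ) * (G y c : ℂ)) * conj (φ y))) := by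
      intro y
      have e3 : ∀ c : Fˣ, conj (((θ⁻¹).comp (MonoidHom.snd H Fˣ) (y, c) : ℂˣ) : ℂ) = (θ c : ℂ) := by
        intro c
        have := hom_inv_eq_conj θ c⁻¹
        rw [inv_inv] at this
        rw [this]
        simp only [MonoidHom.comp_apply, MonoidHom.coe_snd, map_inv]
        rfl
      have e4 : ∀ c : Fˣ, ((q ^ mu ρ (y, c).1 ((y, c).2 : F) : ℕ) : ℂ) *
        conj (((θ⁻¹).comp (MonoidHom.snd H Fˣ) (y, c) : ℂ) * φ (y, c).1) =
        (θ c : ℂ) * conj (φ y) + ((q - 1 : ℕ) : ℂ) * ((θ c : ℂ) * (mu ρ y c : ℂ)) * conj (φ y) +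
        ((q - 1 : ℕ) : ℂ) * ((q - 1 : ℕ) : ℂ) * ((θ c : ℂ) * (G y c : ℂ)) * conj (φ y) := by
        intro c
        rw [map_mul, e3]
        simp only
        rw [hG y c]
        push_cast
        ring
      rw [Finset.sum_congr rfl (fun c _ => e4 c), Finset.sum_add_distrib, Finset.sum_add_distrib,
        ← Finset.sum_mul, sum_theta θ hθ, zero_mul, zero_add, ← Finset.sum_mul, ← Finset.mul_sum,
        ← Finset.sum_mul, ← Finset.mul_sum]
      unfold bl
      ring
    rw [Finset.sum_congr rfl (fun y _ => e2 y), Finset.sum_add_distrib, ← Finset.mul_sum, ← Finset.mul_sum,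
      ← Finset.mul_sum]
    have hk' : ((q - 1 : ℕ) : ℂ) = (Nat.card H : ℂ) * (k : ℂ) := by rw [hk]; push_cast; rfl
    have hk0 : (k : ℂ) ≠ 0 := by
      intro h0
      rw [h0, mul_zero] at hk'
      exact hq0 hk'
    rw [hk']
    field_simp
    ring
  rw [h1]
  refine sub_mem (natCast_mem _ n) (R.mul_mem (natCast_mem _ k) (sum_mem fun y _ => R.mul_mem
    (sum_mem fun c _ => R.mul_mem (hR c) (natCast_mem _ _)) (hR3 _ (hR2 φ (isCharacter_of_isIrr hφ) y))))

end H84.WL2
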