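import Cfsg.Agent.Lib.H84.WL2
import Mathlib.LinearAlgebra.ExteriorPower.Basis
import Mathlib.Algebra.DirectSum.Module

/-!
Eigenbases and exterior powers: the function `y ↦ ∏ (1 - s λ_i(y))` of the lifted eigenvalues is a
combination of characters.
-/

set_option autoImplicit false

namespace H84.WL3

open Cfsg H18.CharBasic H18.CharOrtho H18.CharQuot H84.WL1 H84.WL2
open scoped ComplexConjugate

universe u v w x

section eigen

variable {F : Type v} [Field F] [Fintype F] [DecidableEq F] {W : Type w} [AddCommGroup W] [Module F W]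

/-- Operators with `T ^ (q - 1) = 1` have an eigenbasis. -/
theorem exists_eigenbasis [Module.Finite F W] (T : Module.End F W) (hT : T ^ (Fintype.card F - 1) = 1) :
    ∃ (d : ℕ) (b : Module.Basis (Fin d) F W) (c : Fin d → Fˣ), ∀ i, T (b i) = (c i : F) • b i := by
  classical
  set q := Fintype.card F with hq
  have hq1 : 1 < q := Fintype.one_lt_card
  let e : Fˣ → W → W := fun c w => -∑ j ∈ Finset.range (q - 1), ((c⁻¹ : Fˣ) : F) ^ j • (T ^ j) w
  have he1 : ∀ (c : Fˣ) (w : W), e c w ∈ Module.End.eigenspace T (c : F) := by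
    intro c w
    rw [Module.End.mem_eigenspace_iff]
    simp only [e, map_neg, map_sum, map_smul, smul_neg, Finset.smul_sum, neg_inj]
    have h1 : ∀ j, ((c⁻¹ : Fˣ) : F) ^ j • T ((T ^ j) w) = (c : F) • (((c⁻¹ : Fˣ) : F) ^ (j + 1) • (T ^ (j + 1)) w) := by
      intro j
      rw [smul_smul, pow_succ' ((c⁻¹ : Fˣ) : F), ← mul_assoc, Units.mul_inv, one_mul, pow_succ' T]
      rfl
    rw [Finset.sum_congr rfl (fun j _ => h1 j), ← Finset.smul_sum, ← Finset.smul_sum]
    congr 1
    have h2 : ∑ j ∈ Finset.range (q - 1), ((c⁻¹ : Fˣ) : F) ^ (j + 1) • (T ^ (j + 1)) w +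
        ((c⁻¹ : Fˣ) : F) ^ 0 • (T ^ 0) w =
        ∑ j ∈ Finset.range (q - 1), ((c⁻¹ : Fˣ) : F) ^ j • (T ^ j) w + ((c⁻¹ : Fˣ) : F) ^ (q - 1) • (T ^ (q - 1)) w := by
      rw [← Finset.sum_range_succ (fun j => ((c⁻¹ : Fˣ) : F) ^ j • (T ^ j) w),
        Finset.sum_range_succ' (fun j => ((c⁻¹ : Fˣ) : F) ^ j • (T ^ j) w)]
    have h3 : ((c⁻¹ : Fˣ) : F) ^ (q - 1) • (T ^ (q - 1)) w = ((c⁻¹ : Fˣ) : F) ^ 0 • (T ^ 0) w := by
      rw [hT, FiniteField.pow_card_sub_one_eq_one _ (Units.ne_zero _)]
      simp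
    rw [h3] at h2
    exact add_right_cancel h2
  have he2 : ∀ w, ∑ c : Fˣ, e c w = w := by
    intro w
    simp only [e, Finset.sum_neg_distrib]
    rw [Finset.sum_comm]
    have h1 : ∀ j ∈ Finset.range (q - 1), ∑ c : Fˣ, ((c⁻¹ : Fˣ) : F) ^ j • (T ^ j) w =
        (if j = 0 then (-1 : F) else 0) • (T ^ j) w := by
      intro j hj
      rw [← Finset.sum_smul]
      congr 1
      rw [Fintype.sum_equiv (Equiv.inv Fˣ) (fun c : Fˣ => ((c⁻¹ : Fˣ) : F) ^ j) (fun c : Fˣ => ((c : F)) ^ j)
        (fun c => rfl), FiniteField.sum_pow_units]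
      have hj' := Finset.mem_range.1 hj
      by_cases h0 : j = 0
      · subst h0; simp
      · rw [if_neg h0, if_neg]
        intro h
        exact absurd (Nat.le_of_dvd (Nat.pos_of_ne_zero h0) h) (by omega)
    rw [Finset.sum_congr rfl h1, Finset.sum_eq_single 0]
    · simp
    · intro j _ hj
      rw [if_neg hj, zero_smul]
    · intro h
      exact absurd (Finset.mem_range.2 (by omega)) h
  have hind : iSupIndep (fun c : Fˣ => Module.End.eigenspace T (c : F)) :=
    (Module.End.eigenspaces_iSupIndep T).comp Units.val_injective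
  have htop : ⨆ c : Fˣ, Module.End.eigenspace T (c : F) = ⊤ := by
    rw [eq_top_iff]
    intro w _
    rw [← he2 w]
    exact Submodule.sum_mem _ fun c _ => Submodule.mem_iSup_of_mem c (he1 c w)
  have hint := DirectSum.isInternal_submodule_of_iSupIndep_of_iSup_eq_top hind htop
  let b0 := hint.collectedBasis (fun c => Module.finBasis F (Module.End.eigenspace T ((c : Fˣ) : F)))
  have : Finite (Σ c : Fˣ, Fin (Module.finrank F (Module.End.eigenspace T (c : F)))) := inferInstance
  obtain ⟨d, ⟨eq⟩⟩ := Finite.exists_equiv_fin (Σ c : Fˣ, Fin (Module.finrank F (Module.End.eigenspace T (c : F))))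
  refine ⟨d, b0.reindex eq, fun i => (eq.symm i).1, fun i => ?_⟩
  rw [Module.Basis.reindex_apply]
  have h1 := hint.collectedBasis_mem (fun c => Module.finBasis F (Module.End.eigenspace T ((c : Fˣ) : F))) (eq.symm i)
  exact Module.End.mem_eigenspace_iff.1 h1

theorem finrank_eigen {ι : Type x} [Fintype ι] (b : Module.Basis ι F W) (T : Module.End F W) (c : ι → F)
    (h : ∀ i, T (b i) = c i • b i) (a : F) :
    Module.finrank F (Module.End.eigenspace T a) = Nat.card {i // c i = a} := by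
  classical
  have h1 : Module.End.eigenspace T a = Submodule.span F (Set.range fun i : {i // c i = a} => b i) := by
    have e1 : (Set.range fun i : {i // c i = a} => b i) = b '' {i | c i = a} := by
      ext w
      simp only [Set.mem_range, Set.mem_image, Set.mem_ofPred_eq, Subtype.exists, exists_prop]
    rw [e1]
    ext w
    rw [Module.End.mem_eigenspace_iff, Module.Basis.mem_span_image]
    have h2 : ∀ i, b.repr (T w) i = c i * b.repr w i := by
      intro i
      conv_lhs => rw [← b.sum_repr w, map_sum, map_sum]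
      rw [Finsupp.finsetSum_apply, Finset.sum_eq_single i]
      · rw [map_smul, map_smul, h, map_smul, b.repr_self]
        simp [mul_comm]
      · intro j _ hj
        rw [map_smul, map_smul, h, map_smul, b.repr_self]
        simp [hj]
      · intro hi; exact absurd (Finset.mem_univ _) hi
    constructor
    · intro hw i hi
      have h3 := h2 i
      rw [hw, map_smul, Finsupp.smul_apply, smul_eq_mul] at h3
      have h4 : b.repr w i ≠ 0 := Finsupp.mem_support_iff.1 hi
      exact (mul_right_cancel₀ h4 h3).symm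
    · intro hs
      apply b.repr.injective
      ext i
      rw [h2, map_smul, Finsupp.smul_apply, smul_eq_mul]
      by_cases hi : b.repr w i = 0
      · rw [hi]; simp
      · have : c i = a := hs (Finset.mem_coe.2 (Finsupp.mem_support_iff.2 hi))
        rw [this]
  rw [h1]
  have h2 : LinearIndependent F (fun i : {i // c i = a} => b i) :=
    b.linearIndependent.comp _ Subtype.val_injective
  rw [finrank_span_eq_card h2, Nat.card_eq_fintype_card]

variable {H : Type u} [Group H]

theorem bl_eq {ι : Type x} [Fintype ι] (θ : Fˣ →* ℂˣ) (ρ : Representation F H W) (y : H) (b : Module.Basis ι F W)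
    (c : ι → Fˣ) (h : ∀ i, ρ y (b i) = (c i : F) • b i) : bl θ ρ y = ∑ i, (θ (c i) : ℂ) := by
  classical
  unfold bl
  have h1 : ∀ a : Fˣ, (mu ρ y (a : F) : ℂ) = ∑ i : ι, if c i = a then (1 : ℂ) else 0 := by
    intro a
    unfold mu
    rw [finrank_eigen b (ρ y) (fun i => (c i : F)) h (a : F), Finset.sum_boole, Nat.card_eq_fintype_card,
      Fintype.card_subtype]
    congr 2
    ext i
    simp [Units.ext_iff]
  simp only [h1, Finset.mul_sum]
  rw [Finset.sum_comm]
  refine Finset.sum_congr rfl fun i _ => ?_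
  rw [Finset.sum_eq_single (c i)]
  · simp
  · intro a _ ha
    rw [if_neg (Ne.symm ha), mul_zero]
  · intro ha; exact absurd (Finset.mem_univ _) ha

/-- exterior powers -/
noncomputable def ext (k : ℕ) (ρ : Representation F H W) : Representation F H (⋀[F]^k W) where
  toFun y := exteriorPower.map k (ρ y)
  map_one' := by
    rw [map_one]
    exact exteriorPower.map_id
  map_mul' y z := by
    rw [map_mul]
    rw [Module.End.mul_eq_comp, Module.End.mul_eq_comp]
    exact exteriorPower.map_comp (n := k) (ρ z) (ρ y)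

theorem ext_eigen (k : ℕ) (ρ : Representation F H W) (y : H) {d : ℕ} (b : Module.Basis (Fin d) F W) (c : Fin d → Fˣ)
    (h : ∀ i, ρ y (b i) = (c i : F) • b i) (s : Set.powersetCard (Fin d) k) :
    ext k ρ y (b.exteriorPower k s) = ((∏ i ∈ s.1, c i : Fˣ) : F) • b.exteriorPower k s := by
  have h1 : (b.exteriorPower k s) = exteriorPower.ιMulti F k (b ∘ (Set.powersetCard.ofFinEmbEquiv.symm s)) := by
    rw [exteriorPower.coe_basis]; rfl
  rw [h1]
  change exteriorPower.map k (ρ y) _ = _
  rw [exteriorPower.map_apply_ιMulti]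
  have h2 : ((ρ y) ∘ (b ∘ (Set.powersetCard.ofFinEmbEquiv.symm s))) = fun j =>
      ((c (Set.powersetCard.ofFinEmbEquiv.symm s j) : Fˣ) : F) • (b ∘ (Set.powersetCard.ofFinEmbEquiv.symm s)) j := by
    funext j
    exact h _
  rw [h2]
  have h3 := MultilinearMap.map_smul_univ (exteriorPower.ιMulti F (M := W) k).toMultilinearMap
    (fun j => ((c (Set.powersetCard.ofFinEmbEquiv.symm s j) : Fˣ) : F)) (b ∘ (Set.powersetCard.ofFinEmbEquiv.symm s))
  refine Eq.trans h3 ?_
  congr 1
  rw [Units.coe_prod]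
  have h4 : s.1 = Finset.univ.map (Set.powersetCard.ofFinEmbEquiv.symm s).toEmbedding := by
    ext i
    rw [Finset.mem_map]
    have := Set.powersetCard.mem_range_ofFinEmbEquiv_symm_iff_mem s i
    constructor
    · intro hi
      obtain ⟨j, hj⟩ := this.2 hi
      exact ⟨j, Finset.mem_univ _, hj⟩
    · rintro ⟨j, -, hj⟩
      exact this.1 ⟨j, hj⟩
  rw [h4, Finset.prod_map]
  rfl

theorem bl_ext (θ : Fˣ →* ℂˣ) (k : ℕ) (ρ : Representation F H W) (y : H) {d : ℕ} (b : Module.Basis (Fin d) F W)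
    (c : Fin d → Fˣ) (h : ∀ i, ρ y (b i) = (c i : F) • b i) :
    bl θ (ext k ρ) y = ∑ s ∈ Finset.powersetCard k (Finset.univ : Finset (Fin d)), ∏ i ∈ s, (θ (c i) : ℂ) := by
  classical
  have : Fintype (Set.powersetCard (Fin d) k) := Fintype.ofFinite _
  rw [bl_eq θ (ext k ρ) y (b.exteriorPower k) (fun s => ∏ i ∈ s.1, c i) (ext_eigen k ρ y b c h)]
  have h1 : ∀ s : Set.powersetCard (Fin d) k, (θ (∏ i ∈ s.1, c i) : ℂ) = ∏ i ∈ s.1, (θ (c i) : ℂ) := by
    intro s
    rw [map_prod, Units.coe_prod]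
  rw [Finset.sum_congr rfl (fun s _ => h1 s)]
  refine Finset.sum_bij (fun s _ => s.1) ?_ ?_ ?_ (fun _ _ => rfl)
  · intro s _
    rw [Finset.mem_powersetCard]
    exact ⟨Finset.subset_univ _, s.2⟩
  · intro s _ t _ hst
    exact Subtype.ext hst
  · intro t ht
    rw [Finset.mem_powersetCard] at ht
    exact ⟨⟨t, ht.2⟩, Finset.mem_univ _, rfl⟩

/-- the function `∏ (1 - s λ_i(y))` -/
noncomputable def PP (θ : Fˣ →* ℂˣ) (ρ : Representation F H W) (s : ℂ) (y : H) : ℂ :=
  ∑ k ∈ Finset.range (Module.finrank F W + 1), (-s) ^ k * bl θ (ext k ρ) y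

theorem PP_eq (θ : Fˣ →* ℂˣ) (ρ : Representation F H W) (s : ℂ) (y : H) {d : ℕ} (b : Module.Basis (Fin d) F W)
    (c : Fin d → Fˣ) (h : ∀ i, ρ y (b i) = (c i : F) • b i) :
    PP θ ρ s y = ∏ i, (1 - s * (θ (c i) : ℂ)) := by
  classical
  have hd : Module.finrank F W = d := by
    rw [Module.finrank_eq_card_basis b, Fintype.card_fin]
  unfold PP
  rw [hd]
  have h1 : ∀ i, (1 - s * (θ (c i) : ℂ)) = 1 + (-s) * (θ (c i) : ℂ) := fun i => by ring
  simp only [h1]
  rw [Finset.prod_one_add, Finset.sum_powerset]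
  simp only [Finset.card_univ, Fintype.card_fin]
  refine Finset.sum_congr rfl fun k _ => ?_
  rw [bl_ext θ k ρ y b c h, Finset.mul_sum]
  refine Finset.sum_congr rfl fun t ht => ?_
  rw [Finset.prod_mul_distrib, Finset.prod_const, (Finset.mem_powersetCard.1 ht).2]

theorem PP_mem [Finite W] [Fintype H] (θ : Fˣ →* ℂˣ) (hθ : θ ≠ 1) (ρ : Representation F H W)
    (hq : Nat.card H ∣ Fintype.card F - 1) {R : Subring ℂ} (hR : ∀ c, (θ c : ℂ) ∈ R)
    (hR2 : ∀ φ : H → ℂ, IsCharacter H φ → ∀ y, φ y ∈ R) (hR3 : ∀ r ∈ R, conj r ∈ R) {s : ℂ} (hs : s ∈ R) :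
    PP θ ρ s ∈ VC H R := by
  have : Module.Finite F W := Module.Finite.of_finite
  refine sum_mem' _ _ fun k _ => smul_mem' (pow_mem (neg_mem hs) k) ?_
  have : Finite (⋀[F]^k W) := Module.finite_of_finite F
  exact bl_mem θ hθ (ext k ρ) hq hR hR2 hR3

end eigen

end H84.WL3
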