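import Cfsg.Agent.Lib.H84.WL1
import Mathlib.RingTheory.Polynomial.Cyclotomic.Eval

/-!
Half systems of the primitive `p ^ 2`-th roots of unity.
-/

set_option autoImplicit false

namespace H84.WL4

open Cfsg Polynomial H84.WL1
open scoped ComplexConjugate

variable (p : ℕ) [hp : Fact p.Prime]

noncomputable def JJ : Finset ℂ := (primitiveRoots (p ^ 2) ℂ).filter (fun μ => 0 < μ.im)
noncomputable def JJ' : Finset ℂ := (primitiveRoots (p ^ 2) ℂ).filter (fun μ => ¬ 0 < μ.im)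

noncomputable def AA (l : ℂ) : ℂ := ∏ μ ∈ JJ p, (1 - μ * l)
noncomputable def AA' (l : ℂ) : ℂ := ∏ μ ∈ JJ' p, (1 - μ * l)

theorem p2_pos : 0 < p ^ 2 := pow_pos hp.out.pos 2

theorem mem_JJ {μ : ℂ} : μ ∈ JJ p ↔ IsPrimitiveRoot μ (p ^ 2) ∧ 0 < μ.im := by
  unfold JJ
  rw [Finset.mem_filter, mem_primitiveRoots (p2_pos p)]

theorem mem_JJ' {μ : ℂ} : μ ∈ JJ' p ↔ IsPrimitiveRoot μ (p ^ 2) ∧ ¬ 0 < μ.im := by
  unfold JJ'
  rw [Finset.mem_filter, mem_primitiveRoots (p2_pos p)]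

theorem im_ne_zero {μ : ℂ} (h : IsPrimitiveRoot μ (p ^ 2)) : μ.im ≠ 0 := by
  intro h0
  have h1 : ‖μ‖ = 1 := h.norm'_eq_one (p2_pos p).ne'
  have h2 : μ ^ 2 = 1 := by
    have h3 : (μ.re : ℂ) = μ := by
      apply Complex.ext <;> simp [h0]
    have h4 : μ.re ^ 2 = 1 := by
      have h5 : ‖μ‖ ^ 2 = 1 := by rw [h1]; norm_num
      rw [← Complex.normSq_eq_norm_sq, Complex.normSq_apply, h0] at h5
      nlinarith
    rw [← h3, ← Complex.ofReal_pow, h4]
    simp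
  have h3 := h.dvd_of_pow_eq_one 2 h2
  have h4 : p ^ 2 ≤ 2 := Nat.le_of_dvd (by norm_num) h3
  have h5 := hp.out.two_le
  nlinarith

theorem prod_all (l : ℂ) : AA p l * AA' p l = ∏ μ ∈ primitiveRoots (p ^ 2) ℂ, (1 - μ * l) := by
  unfold AA AA' JJ JJ'
  exact Finset.prod_filter_mul_prod_filter_not _ _ _

theorem geom_all {l : ℂ} (hl : l ≠ 0) : AA p l * AA' p l = ∑ i ∈ Finset.range p, (l ^ p) ^ i := by
  rw [prod_all]
  have hζ := Complex.isPrimitiveRoot_exp (p ^ 2) (p2_pos p).ne'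
  have h1 := cyclotomic_eq_prod_X_sub_primitiveRoots hζ
  have h2 : (cyclotomic (p ^ 2) ℂ).eval l⁻¹ = ∏ μ ∈ primitiveRoots (p ^ 2) ℂ, (l⁻¹ - μ) := by
    rw [h1, eval_prod]
    simp
  have h3 : (cyclotomic (p ^ 2) ℂ).eval l⁻¹ = ∑ i ∈ Finset.range p, (l⁻¹ ^ p) ^ i := by
    have := cyclotomic_prime_pow_eq_geom_sum (R := ℂ) (p := p) (n := 1) hp.out
    rw [show p ^ (1 + 1) = p ^ 2 from rfl] at this
    rw [this, pow_one]
    simp [eval_finsetSum]
  have h4 : (primitiveRoots (p ^ 2) ℂ).card = p * (p - 1) := by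
    rw [hζ.card_primitiveRoots, Nat.totient_prime_pow hp.out (by norm_num)]
    simp
  have h5 : ∏ μ ∈ primitiveRoots (p ^ 2) ℂ, (1 - μ * l) = l ^ (p * (p - 1)) * ∏ μ ∈ primitiveRoots (p ^ 2) ℂ, (l⁻¹ - μ) := by
    rw [← h4, ← Finset.prod_const, ← Finset.prod_mul_distrib]
    refine Finset.prod_congr rfl fun μ _ => ?_
    rw [mul_sub, mul_inv_cancel₀ hl, mul_comm l μ]
  rw [h5, ← h2, h3, Finset.mul_sum, ← Finset.sum_range_reflect]
  refine Finset.sum_congr rfl fun i hi => ?_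
  have hi' := Finset.mem_range.1 hi
  rw [← pow_mul, ← pow_mul, inv_pow]
  have h6 : l ^ (p * (p - 1)) = l ^ (p * i) * l ^ (p * (p - 1 - i)) := by
    rw [← pow_add, ← mul_add]
    congr 2
    omega
  rw [h6]
  have h7 : l ^ (p * (p - 1 - i)) ≠ 0 := pow_ne_zero _ hl
  field_simp

theorem all_one : AA p 1 * AA' p 1 = p := by
  rw [geom_all p one_ne_zero]; simp

theorem geom_mul {l : ℂ} (hl : l ≠ 0) : (AA p l * AA' p l) * (1 - l ^ p) = 1 - l ^ (p ^ 2) := by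
  rw [geom_all p hl]
  have := mul_neg_geom_sum (l ^ p) p
  rw [mul_comm, this, ← pow_mul]
  congr 2
  ring

theorem conj_AA (l : ℂ) : conj (AA p l) = AA' p (conj l) := by
  unfold AA AA'
  rw [map_prod]
  refine Finset.prod_bij (fun μ _ => conj μ) ?_ ?_ ?_ ?_
  · intro μ hμ
    rw [mem_JJ] at hμ
    rw [mem_JJ']
    refine ⟨?_, ?_⟩
    · exact hμ.1.map_of_injective (f := (starRingEnd ℂ : ℂ →+* ℂ)) (starRingEnd ℂ).injective
    · rw [Complex.conj_im]; linarith [hμ.2]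
  · intro a _ b _ h
    exact (starRingEnd ℂ).injective h
  · intro μ hμ
    rw [mem_JJ'] at hμ
    refine ⟨conj μ, ?_, Complex.conj_conj μ⟩
    rw [mem_JJ]
    refine ⟨hμ.1.map_of_injective (f := (starRingEnd ℂ : ℂ →+* ℂ)) (starRingEnd ℂ).injective, ?_⟩
    rw [Complex.conj_im]
    have := im_ne_zero p hμ.1
    rcases lt_trichotomy μ.im 0 with h | h | h
    · linarith
    · exact absurd h this
    · exact absurd h hμ.2
  · intro μ _
    rw [map_sub, map_one, map_mul]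

theorem AA_ne_zero {l : ℂ} {n : ℕ} (hn : n.Coprime p) (hl : l ^ n = 1) : AA p l ≠ 0 := by
  unfold AA
  rw [Finset.prod_ne_zero_iff]
  intro μ hμ h0
  rw [mem_JJ] at hμ
  have h1 : μ * l = 1 := (sub_eq_zero.1 h0).symm
  have h2 : μ ^ n = 1 := by
    have : (μ * l) ^ n = 1 := by rw [h1, one_pow]
    rw [mul_pow, hl, mul_one] at this
    exact this
  have h3 := hμ.1.dvd_of_pow_eq_one n h2
  have h4 : p ∣ n := (dvd_pow_self p two_ne_zero).trans h3
  have h5 : p ∣ 1 := by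
    have := Nat.dvd_gcd h4 (dvd_refl p)
    rwa [hn] at this
  exact hp.out.one_lt.ne' (Nat.dvd_one.1 h5)

/-- `p ∣ A(1)` locally. -/
theorem AA_one_mem {M : Ideal AlgInt} (hM : IsPModular p M) : MemLocalIdeal M (AA p 1) := by
  have hMm : M.IsMaximal := hM.2.1
  have hMp : M.IsPrime := H20.Loc.pm_isPrime hM
  -- an element of `JJ`
  have hne : (JJ p).Nonempty := by
    by_contra hcon
    rw [Finset.not_nonempty_iff_eq_empty] at hcon
    have h1 : AA p 1 = 1 := by unfold AA; rw [hcon]; simp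
    have h2 : conj (AA p 1) = AA' p 1 := by rw [conj_AA]; simp
    have h3 := all_one p
    rw [← h2, h1] at h3
    have h4 : (1 : ℂ) = p := by simpa using h3
    have h5 : 1 = p := by exact_mod_cast h4
    exact hp.out.one_lt.ne h5
  obtain ⟨μ, hμ⟩ := hne
  unfold AA
  rw [← Finset.mul_prod_erase _ _ hμ]
  refine H20.Loc.locI_mul_right ?_ ?_
  · rw [mul_one]
    have h1 := H20.Loc.locI_root_of_unity_sub_one hM (z := μ) (k := 2) ((mem_JJ p).1 hμ).1.pow_eq_one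
    have := H20.Loc.locI_neg h1
    rwa [neg_sub] at this
  · refine H20.Loc.locR_prod fun ν hν => ?_
    have h2 : IsPrimitiveRoot ν (p ^ 2) := ((mem_JJ p).1 (Finset.mem_of_mem_erase hν)).1
    rw [mul_one]
    exact H20.Loc.locR_sub H20.Loc.locR_one (H20.Loc.isIntegral_mem (h2.isIntegral (p2_pos p)))

section R

variable {ζ : ℂ} {N : ℕ} (hN : 0 < N) (hζ : IsPrimitiveRoot ζ N) (hp2 : p ^ 2 ∣ N)

include hN hζ hp2

theorem prim_mem {μ : ℂ} (h : IsPrimitiveRoot μ (p ^ 2)) : μ ∈ RZ ζ :=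
  root_mem hN hζ hp2 h.pow_eq_one

theorem AA_mem {l : ℂ} (hl : l ∈ RZ ζ) : AA p l ∈ RZ ζ := by
  unfold AA
  refine prod_mem fun μ hμ => ?_
  exact sub_mem (one_mem _) ((RZ ζ).mul_mem (prim_mem p hN hζ hp2 ((mem_JJ p).1 hμ).1) hl)

theorem AA'_mem {l : ℂ} (hl : l ∈ RZ ζ) : AA' p l ∈ RZ ζ := by
  unfold AA'
  refine prod_mem fun μ hμ => ?_
  exact sub_mem (one_mem _) ((RZ ζ).mul_mem (prim_mem p hN hζ hp2 ((mem_JJ' p).1 hμ).1) hl)

/-- `A(1) / A(λ) ∈ A(1) R` for `λ ≠ 1`. -/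
theorem inv_mem {l : ℂ} {n : ℕ} (hn0 : 0 < n) (hn : n.Coprime p) (hnN : n ∣ N) (hl : l ^ n = 1) (hl1 : l ≠ 1) :
    (AA p l)⁻¹ ∈ RZ ζ := by
  have hlR : l ∈ RZ ζ := root_mem hN hζ hnN hl
  have hl0 : l ≠ 0 := by
    rintro rfl
    rw [zero_pow hn0.ne'] at hl
    exact zero_ne_one hl
  have hA := AA_ne_zero p hn hl
  have htot : 0 < n.totient := Nat.totient_pos.2 hn0
  have hm : l ^ (p ^ n.totient) = l := by
    have h1 := Nat.ModEq.pow_totient hn.symm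
    have h2 : l ^ (p ^ n.totient) = l ^ 1 := pow_eq_pow_of_modEq h1 hl
    rwa [pow_one] at h2
  set m := p ^ (n.totient - 1) with hmdef
  have hpm : p * m = p ^ n.totient := by
    rw [hmdef, ← pow_succ']
    congr 1
    omega
  have hx : (l ^ (p ^ 2)) ^ m = l ^ p := by
    rw [← pow_mul, show p ^ 2 * m = (p * m) * p by ring, pow_mul, hpm, hm]
  have hlp : l ^ p ≠ 1 := by
    intro h
    have h1 := Nat.gcd_eq_gcd_ab n p
    have h3 : orderOf l ∣ n := orderOf_dvd_of_pow_eq_one hl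
    have h4 : orderOf l ∣ p := orderOf_dvd_of_pow_eq_one h
    have h5 := Nat.dvd_gcd h3 h4
    rw [hn] at h5
    exact hl1 (orderOf_eq_one_iff.1 (Nat.dvd_one.1 h5))
  have hlx : l ^ (p ^ 2) ≠ 1 := by
    intro h
    rw [h, one_pow] at hx
    exact hlp hx.symm
  have hg := mul_neg_geom_sum (l ^ (p ^ 2)) m
  rw [hx] at hg
  have h1 := geom_mul p hl0
  rw [← hg] at h1
  have h2 : AA p l * (AA' p l * ∑ i ∈ Finset.range m, (l ^ p ^ 2) ^ i) = 1 := by
    have h3 : (1 - l ^ p ^ 2) ≠ 0 := sub_ne_zero.2 (Ne.symm hlx)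
    apply mul_left_cancel₀ h3
    rw [mul_one]
    calc _ = _ := by ring
      _ = _ := h1
  rw [← eq_inv_of_mul_eq_one_right h2]
  exact (RZ ζ).mul_mem (AA'_mem p hN hζ hp2 hlR) (sum_mem fun i _ => pow_mem (pow_mem hlR _) _)

end R

end H84.WL4
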