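import Cfsg.Agent.Lib.H84.WL3
import Cfsg.Agent.Lib.H84.WL4

/-!
The function `ψ` attached to a self-dual representation realisable over the prime field.
-/

set_option autoImplicit false

namespace H84.WL5

open Cfsg Polynomial H18.CharBasic H18.CharOrtho H84.WL1 H84.WL2 H84.WL3 H84.WL4
open scoped ComplexConjugate

universe u v w x

theorem prod_nthRoots {n : ℕ} (hn : 0 < n) (x : ℂ) :
    ∏ ξ ∈ nthRootsFinset n (1 : ℂ), (1 - ξ * x) = 1 - x ^ n := by
  have h1 := (Complex.isPrimitiveRoot_exp n hn.ne').pow_sub_pow_eq_prod_sub_mul (1 : ℂ) x hn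
  rw [one_pow] at h1
  exact h1.symm

section psi

variable {F : Type v} [Field F] [Fintype F] [DecidableEq F] {W : Type w} [AddCommGroup W] [Module F W]
  {H : Type u} [Group H] [Fintype H]

theorem rho_pow [Finite W] (ρ : Representation F H W) (hq : Nat.card H ∣ Fintype.card F - 1) (y : H) :
    (ρ y) ^ (Fintype.card F - 1) = 1 := by
  obtain ⟨k, hk⟩ := hq
  rw [hk, pow_mul, ← map_pow, pow_card_eq_one', map_one, one_pow]

theorem prod_eq_prod_units [Finite W] (ρ : Representation F H W) (y : H) {d : ℕ} (b : Module.Basis (Fin d) F W)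
    (c : Fin d → Fˣ) (h : ∀ i, ρ y (b i) = (c i : F) • b i) (f : Fˣ → ℂ) :
    ∏ i, f (c i) = ∏ a : Fˣ, f a ^ mu ρ y (a : F) := by
  classical
  have h1 : ∀ a : Fˣ, mu ρ y (a : F) = (Finset.univ.filter fun i => c i = a).card := by
    intro a
    unfold mu
    rw [finrank_eigen b (ρ y) (fun i => (c i : F)) h (a : F), Nat.card_eq_fintype_card, Fintype.card_subtype]
    congr 1
    ext i
    simp [Units.ext_iff]
  have h2 : ∀ a : Fˣ, f a ^ mu ρ y (a : F) = ∏ i ∈ Finset.univ.filter (fun i => c i = a), f (c i) := by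
    intro a
    rw [h1 a, ← Finset.prod_const]
    refine Finset.prod_congr rfl fun i hi => ?_
    rw [(Finset.mem_filter.1 hi).2]
  rw [Finset.prod_congr rfl (fun a _ => h2 a), Finset.prod_fiberwise]

theorem sum_mu [Finite W] (ρ : Representation F H W) (y : H) {d : ℕ} (b : Module.Basis (Fin d) F W)
    (c : Fin d → Fˣ) (h : ∀ i, ρ y (b i) = (c i : F) • b i) :
    ∑ a : Fˣ, mu ρ y (a : F) = d := by
  classical
  have h1 : ∀ a : Fˣ, mu ρ y (a : F) = (Finset.univ.filter fun i => c i = a).card := by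
    intro a
    unfold mu
    rw [finrank_eigen b (ρ y) (fun i => (c i : F)) h (a : F), Nat.card_eq_fintype_card, Fintype.card_subtype]
    congr 1
    ext i
    simp [Units.ext_iff]
  rw [Finset.sum_congr rfl (fun a _ => h1 a)]
  have := Finset.card_eq_sum_card_fiberwise (s := (Finset.univ : Finset (Fin d))) (t := (Finset.univ : Finset Fˣ))
    (f := c) (fun i _ => Finset.mem_coe.2 (Finset.mem_univ _))
  rw [Finset.card_univ, Fintype.card_fin] at this
  exact this.symm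

theorem exists_psi (p : ℕ) [hp : Fact p.Prime] [Finite W] (θ : Fˣ →* ℂˣ) (hθi : Function.Injective θ) (hθ : θ ≠ 1)
    (ρ : Representation F H W) (hq : Nat.card H ∣ Fintype.card F - 1) (hFp : (Fintype.card F - 1).Coprime p)
    (hinv : ∀ (y : H) (c : Fˣ), mu ρ y ((c⁻¹ : Fˣ) : F) = mu ρ y (c : F))
    (hfrob : ∀ (y : H) (c : Fˣ), mu ρ y ((c ^ p : Fˣ) : F) = mu ρ y (c : F))
    (hfaith : ∀ y, ρ y = 1 → y = 1)
    {ζ : ℂ} {N : ℕ} (hN : 0 < N) (hζ : IsPrimitiveRoot ζ N) (hHN : Nat.card H ∣ N) (hnN : Fintype.card F - 1 ∣ N)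
    (hp2 : p ^ 2 ∣ N) :
    ∃ ψ : H → ℂ, (∀ y, ψ y ∈ RZ ζ) ∧ ψ 1 = 1 ∧ (∀ y, y ≠ 1 → ∃ r ∈ RZ ζ, ψ y = AA p 1 * r) ∧
      (∀ y, ‖ψ y‖ ^ 2 * (p : ℝ) ^ mu ρ y (1 : F) = (p : ℝ) ^ Module.finrank F W) ∧
      ∃ K : ℕ, (fun y => (p : ℂ) ^ K * ψ y) ∈ VC H (RZ ζ) := by
  classical
  set n := Fintype.card F - 1 with hn
  have hq1 : 1 < Fintype.card F := Fintype.one_lt_card
  have hn0 : 0 < n := by omega
  have hp0 : (p : ℂ) ≠ 0 := by exact_mod_cast hp.out.ne_zero
  have hroot : ∀ c : Fˣ, (θ c : ℂ) ^ n = 1 := by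
    intro c
    rw [← Units.val_pow_eq_pow_val, ← map_pow]
    have : c ^ n = 1 := by
      rw [hn, ← Fintype.card_units]
      exact pow_card_eq_one
    rw [this, map_one, Units.val_one]
  have hθR : ∀ c : Fˣ, (θ c : ℂ) ∈ RZ ζ := fun c => root_mem hN hζ hnN (hroot c)
  have hθ1 : ∀ c : Fˣ, c ≠ 1 → (θ c : ℂ) ≠ 1 := by
    intro c hc h
    apply hc
    apply hθi
    rw [map_one]
    exact Units.ext h
  have hchar : ∀ φ : H → ℂ, IsCharacter H φ → ∀ y, φ y ∈ RZ ζ := fun φ hφ y => char_val_mem hφ hN hζ hHN y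
  have hconj : ∀ r ∈ RZ ζ, conj r ∈ RZ ζ := fun r hr => conj_mem hN hζ hr
  set d := Module.finrank F W with hd
  -- eigenbases
  have hEB : ∀ y : H, ∃ (b : Module.Basis (Fin d) F W) (c : Fin d → Fˣ), ∀ i, ρ y (b i) = (c i : F) • b i := by
    intro y
    have : Module.Finite F W := Module.Finite.of_finite
    obtain ⟨d', b, c, h⟩ := exists_eigenbasis (ρ y) (rho_pow ρ hq y)
    have h1 : d' = d := by
      rw [hd, Module.finrank_eq_card_basis b, Fintype.card_fin]
    subst h1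
    exact ⟨b, c, h⟩
  choose b c hbc using hEB
  -- the denominators
  have hden : ∀ y, ∏ μ ∈ JJ p, PP θ ρ μ y = ∏ i, AA p (θ (c y i) : ℂ) := by
    intro y
    have h1 : ∀ μ ∈ JJ p, PP θ ρ μ y = ∏ i, (1 - μ * (θ (c y i) : ℂ)) := fun μ _ =>
      PP_eq θ ρ μ y (b y) (c y) (hbc y)
    rw [Finset.prod_congr rfl h1, Finset.prod_comm]
    rfl
  have hAne : ∀ c : Fˣ, AA p (θ c : ℂ) ≠ 0 := fun c => AA_ne_zero p hFp (hroot c)
  have hA1ne : AA p 1 ≠ 0 := by
    intro h
    have := all_one p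
    rw [h, zero_mul] at this
    exact hp0 this.symm
  have hA1R : AA p 1 ∈ RZ ζ := AA_mem p hN hζ hp2 (one_mem _)
  let ψ : H → ℂ := fun y => ∏ i, (AA p 1 * (AA p (θ (c y i) : ℂ))⁻¹)
  have hfac : ∀ a : Fˣ, AA p 1 * (AA p (θ a : ℂ))⁻¹ ∈ RZ ζ := by
    intro a
    by_cases ha : a = 1
    · subst ha
      rw [map_one, Units.val_one, mul_inv_cancel₀ hA1ne]
      exact one_mem _
    · exact (RZ ζ).mul_mem hA1R (inv_mem p hN hζ hp2 hn0 hFp hnN (hroot a) (hθ1 a ha))
  have hψR : ∀ y, ψ y ∈ RZ ζ := fun y => _root_.prod_mem fun i _ => hfac _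
  refine ⟨ψ, hψR, ?_, ?_, ?_, ?_⟩
  · -- value at one
    refine Finset.prod_eq_one fun i _ => ?_
    have h1 : c 1 i = 1 := by
      have h2 := hbc 1 i
      rw [map_one, Module.End.one_apply] at h2
      have h3 : ((c 1 i : F) - 1) • b 1 i = 0 := by rw [sub_smul, one_smul, ← h2, sub_self]
      rcases smul_eq_zero.1 h3 with h | h
      · exact Units.ext (sub_eq_zero.1 h)
      · exact absurd h ((b 1).ne_zero i)
    rw [h1, map_one, Units.val_one, mul_inv_cancel₀ hA1ne]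
  · intro y hy
    have h1 : ∃ i, c y i ≠ 1 := by
      by_contra hcon
      push Not at hcon
      apply hy
      apply hfaith
      apply (b y).ext
      intro i
      rw [hbc y i, hcon i, Units.val_one, one_smul, Module.End.one_apply]
    obtain ⟨i, hi⟩ := h1
    refine ⟨(AA p (θ (c y i) : ℂ))⁻¹ * ∏ j ∈ Finset.univ.erase i, (AA p 1 * (AA p (θ (c y j) : ℂ))⁻¹), ?_, ?_⟩
    · exact (RZ ζ).mul_mem (inv_mem p hN hζ hp2 hn0 hFp hnN (hroot _) (hθ1 _ hi)) (_root_.prod_mem fun j _ => hfac _)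
    · change ∏ i, _ = _
      rw [← Finset.mul_prod_erase _ _ (Finset.mem_univ i)]
      ring
  · -- the absolute value
    intro y
    have hnorm : ∀ z : ℂ, ((‖z‖ ^ 2 : ℝ) : ℂ) = z * conj z := by
      intro z
      rw [Complex.mul_conj, Complex.normSq_eq_norm_sq]
    have hconjθ : ∀ a : Fˣ, conj (θ a : ℂ) = (θ a⁻¹ : ℂ) := by
      intro a
      have h1 : ‖(θ a : ℂ)‖ = 1 := Complex.norm_eq_one_of_pow_eq_one (hroot a) hn0.ne'
      have h2 : (θ a : ℂ) * conj (θ a : ℂ) = 1 := by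
        rw [Complex.mul_conj, Complex.normSq_eq_norm_sq, h1]; norm_num
      have h3 : (θ a : ℂ) * (θ a⁻¹ : ℂ) = 1 := by
        rw [← Units.val_mul, ← map_mul, mul_inv_cancel, map_one, Units.val_one]
      exact mul_left_cancel₀ (Units.ne_zero (θ a)) (h2.trans h3.symm)
    -- the product of the norms of the denominators
    have hkey : ∏ i, (AA p (θ (c y i) : ℂ) * conj (AA p (θ (c y i) : ℂ))) = (p : ℂ) ^ mu ρ y (1 : F) := by
      have h1 : ∏ i, (AA p (θ (c y i) : ℂ) * conj (AA p (θ (c y i) : ℂ))) =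
          (∏ i, AA p (θ (c y i) : ℂ)) * ∏ i, AA' p (θ (c y i)⁻¹ : ℂ) := by
        rw [← Finset.prod_mul_distrib]
        refine Finset.prod_congr rfl fun i _ => ?_
        rw [conj_AA, hconjθ]
      have h2 : ∏ i, AA' p (θ (c y i)⁻¹ : ℂ) = ∏ i, AA' p (θ (c y i) : ℂ) := by
        rw [prod_eq_prod_units ρ y (b y) (c y) (hbc y) (fun a => AA' p (θ a⁻¹ : ℂ)),
          prod_eq_prod_units ρ y (b y) (c y) (hbc y) (fun a => AA' p (θ a : ℂ))]
        rw [← Equiv.prod_comp (Equiv.inv Fˣ)]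
        refine Finset.prod_congr rfl fun a _ => ?_
        simp only [Equiv.inv_apply, inv_inv]
        rw [hinv y a]
      rw [h1, h2, ← Finset.prod_mul_distrib]
      rw [prod_eq_prod_units ρ y (b y) (c y) (hbc y) (fun a => AA p (θ a : ℂ) * AA' p (θ a : ℂ))]
      rw [← Finset.mul_prod_erase _ _ (Finset.mem_univ (1 : Fˣ))]
      have h3 : (AA p (θ (1 : Fˣ) : ℂ) * AA' p (θ (1 : Fˣ) : ℂ)) ^ mu ρ y (((1 : Fˣ) : F)) =
          (p : ℂ) ^ mu ρ y (1 : F) := by
        rw [map_one, Units.val_one, Units.val_one, all_one]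
      rw [h3]
      -- the remaining product is one
      set E := (Finset.univ : Finset Fˣ).erase 1 with hE
      have hbij : ∀ k : ℕ, (n.Coprime k) → Function.Bijective (fun a : Fˣ => a ^ k) := by
        intro k hk
        refine (Finite.injective_iff_bijective).1 ?_
        intro a a' haa
        have h5 : (Nat.card Fˣ).Coprime k := by
          rw [Nat.card_eq_fintype_card, Fintype.card_units]; exact hk
        exact (powCoprime h5).injective haa
      have hpk : ∀ k : ℕ, (∀ a : Fˣ, mu ρ y ((a ^ k : Fˣ) : F) = mu ρ y (a : F)) → n.Coprime k →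
          ∏ a ∈ E, (1 - (θ a : ℂ) ^ k) ^ mu ρ y (a : F) = ∏ a ∈ E, (1 - (θ a : ℂ)) ^ mu ρ y (a : F) := by
        intro k hmu hk
        refine Finset.prod_bij (fun a _ => a ^ k) ?_ ?_ ?_ ?_
        · intro a ha
          rw [hE, Finset.mem_erase] at ha ⊢
          refine ⟨fun h => ha.1 ?_, Finset.mem_univ _⟩
          exact (hbij k hk).1 (by simpa using h)
        · intro a _ a' _ h
          exact (hbij k hk).1 h
        · intro a ha
          obtain ⟨a', ha'⟩ := (hbij k hk).2 a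
          refine ⟨a', ?_, ha'⟩
          rw [hE, Finset.mem_erase] at ha ⊢
          refine ⟨?_, Finset.mem_univ _⟩
          rintro rfl
          apply ha.1
          rw [← ha']
          exact one_pow k
        · intro a _
          rw [hmu a, map_pow, Units.val_pow_eq_pow_val]
      have hp1 := hpk p (hfrob y) hFp
      have hp22 := hpk (p ^ 2) (by
        intro a
        rw [show a ^ p ^ 2 = (a ^ p) ^ p by rw [← pow_mul, pow_two], hfrob y, hfrob y]) (Nat.Coprime.pow_right 2 hFp)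
      have hne : ∏ a ∈ E, (1 - (θ a : ℂ)) ^ mu ρ y (a : F) ≠ 0 := by
        rw [Finset.prod_ne_zero_iff]
        intro a ha
        rw [hE, Finset.mem_erase] at ha
        exact pow_ne_zero _ (sub_ne_zero.2 (Ne.symm (hθ1 a ha.1)))
      have h4 : (∏ a ∈ E, (AA p (θ a : ℂ) * AA' p (θ a : ℂ)) ^ mu ρ y (a : F)) *
          ∏ a ∈ E, (1 - (θ a : ℂ) ^ p) ^ mu ρ y (a : F) = ∏ a ∈ E, (1 - (θ a : ℂ) ^ (p ^ 2)) ^ mu ρ y (a : F) := by
        rw [← Finset.prod_mul_distrib]
        refine Finset.prod_congr rfl fun a _ => ?_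
        rw [← mul_pow, geom_mul p (Units.ne_zero (θ a))]
      rw [hp1, hp22] at h4
      have h5 : ∏ a ∈ E, (AA p (θ a : ℂ) * AA' p (θ a : ℂ)) ^ mu ρ y (a : F) = 1 :=
        mul_right_cancel₀ hne (by rw [h4, one_mul])
      rw [h5, mul_one]
    have hA1 : AA p 1 * conj (AA p 1) = p := by
      rw [conj_AA, map_one, all_one]
    have h6 : ((‖ψ y‖ ^ 2 * (p : ℝ) ^ mu ρ y (1 : F) : ℝ) : ℂ) = (((p : ℝ) ^ d : ℝ) : ℂ) := by
      rw [Complex.ofReal_mul, hnorm, Complex.ofReal_pow, Complex.ofReal_natCast, ← hkey]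
      change (∏ i, (AA p 1 * (AA p (θ (c y i) : ℂ))⁻¹)) * conj (∏ i, (AA p 1 * (AA p (θ (c y i) : ℂ))⁻¹)) * _ = _
      rw [map_prod, ← Finset.prod_mul_distrib, ← Finset.prod_mul_distrib]
      have h7 : ∀ i, AA p 1 * (AA p (θ (c y i) : ℂ))⁻¹ * conj (AA p 1 * (AA p (θ (c y i) : ℂ))⁻¹) *
          (AA p (θ (c y i) : ℂ) * conj (AA p (θ (c y i) : ℂ))) = p := by
        intro i
        rw [map_mul, map_inv₀]
        have h8 := hAne (c y i)
        have h9 : conj (AA p (θ (c y i) : ℂ)) ≠ 0 := by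
          rwa [Ne, map_eq_zero]
        rw [← hA1]
        field_simp
      rw [Finset.prod_congr rfl (fun i _ => h7 i), Finset.prod_const, Finset.card_univ, Fintype.card_fin]
      push_cast
      rfl
    exact_mod_cast h6
  · -- the multiple is a combination of characters
    refine ⟨d * (JJ p).card, ?_⟩
    -- the complementary product
    let u : ℂ → ℂ := fun μ => ∏ μ' ∈ (primitiveRoots (p ^ 2) ℂ).erase (μ ^ n), (1 - μ')
    let Q : ℂ → H → ℂ := fun μ y => ∏ ξ ∈ (nthRootsFinset n (1 : ℂ)).erase 1, PP θ ρ (ξ * μ) y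
    have hu : ∀ μ ∈ JJ p, (1 - μ ^ n) * u μ = p := by
      intro μ hμ
      rw [mem_JJ] at hμ
      have h1 : μ ^ n ∈ primitiveRoots (p ^ 2) ℂ := by
        rw [mem_primitiveRoots (p2_pos p)]
        exact hμ.1.pow_of_coprime n (Nat.Coprime.pow_right 2 hFp)
      have h2 := prod_all p 1
      rw [all_one, ← Finset.mul_prod_erase _ _ h1] at h2
      simp only [mul_one] at h2
      exact h2.symm
    have hQ : ∀ μ y, PP θ ρ μ y * Q μ y = (1 - μ ^ n) ^ d := by
      intro μ y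
      have h1 : (1 : ℂ) ∈ nthRootsFinset n (1 : ℂ) := by
        rw [mem_nthRootsFinset hn0, one_pow]
      have h2 : PP θ ρ μ y * Q μ y = ∏ ξ ∈ nthRootsFinset n (1 : ℂ), PP θ ρ (ξ * μ) y := by
        rw [← Finset.mul_prod_erase _ _ h1, one_mul]
      have h3 : ∀ ξ ∈ nthRootsFinset n (1 : ℂ), PP θ ρ (ξ * μ) y = ∏ i, (1 - ξ * (μ * (θ (c y i) : ℂ))) := by
        intro ξ _
        rw [PP_eq θ ρ (ξ * μ) y (b y) (c y) (hbc y)]
        exact Finset.prod_congr rfl fun i _ => by ring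
      rw [h2, Finset.prod_congr rfl h3, Finset.prod_comm]
      have h4 : ∀ i, ∏ ξ ∈ nthRootsFinset n (1 : ℂ), (1 - ξ * (μ * (θ (c y i) : ℂ))) = 1 - μ ^ n := by
        intro i
        rw [prod_nthRoots hn0, mul_pow, hroot, mul_one]
      rw [Finset.prod_congr rfl (fun i _ => h4 i), Finset.prod_const, Finset.card_univ, Fintype.card_fin]
    have hPne : ∀ y, ∏ μ ∈ JJ p, PP θ ρ μ y ≠ 0 := by
      intro y
      rw [hden y, Finset.prod_ne_zero_iff]
      exact fun i _ => hAne _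
    have hψ' : ∀ y, ψ y * ∏ μ ∈ JJ p, PP θ ρ μ y = AA p 1 ^ d := by
      intro y
      rw [hden y]
      change (∏ i, _) * _ = _
      rw [← Finset.prod_mul_distrib]
      have h7 : ∀ i, AA p 1 * (AA p (θ (c y i) : ℂ))⁻¹ * AA p (θ (c y i) : ℂ) = AA p 1 := fun i => by
        rw [mul_assoc, inv_mul_cancel₀ (hAne _), mul_one]
      rw [Finset.prod_congr rfl (fun i _ => h7 i), Finset.prod_const, Finset.card_univ, Fintype.card_fin]
    have hfin : (fun y => (p : ℂ) ^ (d * (JJ p).card) * ψ y) =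
        fun y => AA p 1 ^ d * ((∏ μ ∈ JJ p, u μ ^ d) * ∏ μ ∈ JJ p, Q μ y) := by
      funext y
      apply mul_right_cancel₀ (hPne y)
      have h1 : (∏ μ ∈ JJ p, u μ ^ d) * (∏ μ ∈ JJ p, Q μ y) * ∏ μ ∈ JJ p, PP θ ρ μ y = (p : ℂ) ^ (d * (JJ p).card) := by
        rw [← Finset.prod_mul_distrib, ← Finset.prod_mul_distrib, pow_mul, ← Finset.prod_const]
        refine Finset.prod_congr rfl fun μ hμ => ?_
        rw [← hu μ hμ, mul_pow, ← hQ μ y]
        ring
      calc _ = (p : ℂ) ^ (d * (JJ p).card) * (ψ y * ∏ μ ∈ JJ p, PP θ ρ μ y) := by ring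
        _ = (p : ℂ) ^ (d * (JJ p).card) * AA p 1 ^ d := by rw [hψ' y]
        _ = AA p 1 ^ d * ((∏ μ ∈ JJ p, u μ ^ d) * (∏ μ ∈ JJ p, Q μ y) * ∏ μ ∈ JJ p, PP θ ρ μ y) := by
            rw [h1]; ring
        _ = _ := by ring
    rw [hfin]
    have hμR : ∀ μ ∈ JJ p, μ ∈ RZ ζ := fun μ hμ => prim_mem p hN hζ hp2 ((mem_JJ p).1 hμ).1
    have huR : ∀ μ ∈ JJ p, u μ ∈ RZ ζ := fun μ hμ => _root_.prod_mem fun μ' hμ' =>
      sub_mem (one_mem _) (prim_mem p hN hζ hp2 ((mem_primitiveRoots (p2_pos p)).1 (Finset.mem_of_mem_erase hμ')))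
    refine smul_mem' (pow_mem hA1R d) (smul_mem' (_root_.prod_mem fun μ hμ => pow_mem (huR μ hμ) d) ?_)
    refine WL1.prod_mem _ _ fun μ hμ => ?_
    refine WL1.prod_mem _ _ fun ξ hξ => ?_
    refine PP_mem θ hθ ρ hq hθR hchar hconj ((RZ ζ).mul_mem ?_ (hμR μ hμ))
    refine root_mem hN hζ hnN ?_
    exact (mem_nthRootsFinset hn0 _).1 (Finset.mem_of_mem_erase hξ)

end psi

end H84.WL5
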