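import Cfsg.Agent.Lib.H84.WL5
import Mathlib.LinearAlgebra.Matrix.BilinearForm
import Mathlib.LinearAlgebra.Matrix.ToLinearEquiv
import Mathlib.LinearAlgebra.Matrix.Rank
import Mathlib.FieldTheory.Finite.GaloisField
import Mathlib.Algebra.Module.ZMod
import Mathlib.RingTheory.RootsOfUnity.Complex

/-!
The function `ψ` attached to a self-dual faithful module over the prime field.
-/

set_option autoImplicit false

namespace H84.WL6

open Cfsg H84.WL1 H84.WL2 H84.WL4 H84.WL5
open scoped ComplexConjugate

universe u v w x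

section ext

variable {p : ℕ} [hp : Fact p.Prime] {F : Type v} [Field F] [Fintype F] [DecidableEq F] [Algebra (ZMod p) F]
  {A : Type w} [AddCommGroup A] [Module (ZMod p) A] [Finite A] {H : Type u} [Group H]
  {d : ℕ} (b : Module.Basis (Fin d) (ZMod p) A) (σ : Representation (ZMod p) H A)

/-- the matrices over the prime field -/
noncomputable def MM (h : H) : Matrix (Fin d) (Fin d) (ZMod p) := LinearMap.toMatrix b b (σ h)

variable (F) in
/-- the matrices over the big field -/
noncomputable def MF (h : H) : Matrix (Fin d) (Fin d) F := (MM b σ h).map (algebraMap (ZMod p) F)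

theorem MM_mul (g h : H) : MM b σ (g * h) = MM b σ g * MM b σ h := by
  unfold MM
  rw [map_mul, Module.End.mul_eq_comp, LinearMap.toMatrix_comp b b b]

theorem MM_one : MM b σ 1 = 1 := by
  unfold MM
  rw [map_one]
  exact LinearMap.toMatrix_id b

theorem MF_mul (g h : H) : MF F b σ (g * h) = MF F b σ g * MF F b σ h := by
  unfold MF
  rw [MM_mul, Matrix.map_mul]

theorem MF_one : MF F b σ (1 : H) = 1 := by
  unfold MF
  rw [MM_one]
  exact Matrix.map_one _ (map_zero _) (map_one _)

variable (F) in
noncomputable def rho : Representation F H (Fin d → F) where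
  toFun h := Matrix.toLin' (MF F b σ h)
  map_one' := by rw [MF_one, Matrix.toLin'_one]; rfl
  map_mul' g h := by rw [MF_mul, Matrix.toLin'_mul]; rfl

theorem rho_apply (h : H) (w : Fin d → F) : rho F b σ h w = (MF F b σ h).mulVec w := by
  change Matrix.toLin' (MF F b σ h) w = _
  rw [Matrix.toLin'_apply]

theorem mu_eq (y : H) (c : F) : mu (rho F b σ) y c + (MF F b σ y - c • 1).rank = d := by
  unfold mu
  have h1 : Module.End.eigenspace (rho F b σ y) c = LinearMap.ker (MF F b σ y - c • 1).mulVecLin := by
    ext w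
    rw [Module.End.mem_eigenspace_iff, LinearMap.mem_ker, Matrix.mulVecLin_apply, rho_apply, Matrix.sub_mulVec,
      Matrix.smul_mulVec, Matrix.one_mulVec, sub_eq_zero]
  rw [h1, Matrix.rank]
  have := LinearMap.finrank_range_add_finrank_ker (MF F b σ y - c • 1).mulVecLin
  rw [Module.finrank_fin_fun] at this
  omega

theorem mu_inv (β : LinearMap.BilinForm (ZMod p) A) (hβ : ∀ h u w, β (σ h u) (σ h w) = β u w)
    (hnd : ∀ u, (∀ w, β u w = 0) → u = 0) (y : H) (c : Fˣ) :
    mu (rho F b σ) y ((c⁻¹ : Fˣ) : F) = mu (rho F b σ) y (c : F) := by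
  classical
  set B := LinearMap.BilinForm.toMatrix b β with hB
  have hsep : β.SeparatingLeft := fun u hu => hnd u hu
  have hdet : B.det ≠ 0 := by
    rw [← Matrix.separatingLeft_iff_det_ne_zero]
    exact (LinearMap.BilinForm.separatingLeft_toMatrix_iff b).2 hsep
  have h1 : (MM b σ y).transpose * B * MM b σ y = B := by
    have h2 := LinearMap.BilinForm.toMatrix_comp b b β (σ y) (σ y)
    have h3 : β.comp (σ y) (σ y) = β := by
      apply LinearMap.BilinForm.ext
      intro u w
      exact hβ y u w
    rw [h3] at h2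
    exact h2.symm
  set BF := B.map (algebraMap (ZMod p) F) with hBF
  have hdetF : BF.det ≠ 0 := by
    have : BF.det = algebraMap (ZMod p) F B.det := by
      rw [RingHom.map_det]; rfl
    rw [this]
    exact (map_ne_zero _).2 hdet
  have h4 : (MF F b σ y).transpose * BF * MF F b σ y = BF := by
    have := congrArg (fun M : Matrix (Fin d) (Fin d) (ZMod p) => M.map (algebraMap (ZMod p) F)) h1
    simp only [Matrix.map_mul] at this
    exact this
  have hinv : MF F b σ y * MF F b σ y⁻¹ = 1 := by rw [← MF_mul, mul_inv_cancel, MF_one]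
  have hdetM : (MF F b σ y).det ≠ 0 := by
    intro h
    have := congrArg Matrix.det hinv
    rw [Matrix.det_mul, h, zero_mul, Matrix.det_one] at this
    exact zero_ne_one this
  have h5 : (MF F b σ y).transpose * BF * (MF F b σ y - ((c⁻¹ : Fˣ) : F) • 1) =
      ((MF F b σ y - (c : F) • 1).transpose * (-((c⁻¹ : Fˣ) : F) • BF)) := by
    rw [mul_sub, h4, Matrix.transpose_sub, sub_mul, Matrix.transpose_smul, Matrix.transpose_one]
    rw [Matrix.mul_smul, mul_one, Matrix.mul_smul, Matrix.smul_mul, one_mul, smul_smul]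
    rw [mul_neg, Units.mul_inv]
    simp only [neg_smul, one_smul]
    abel
  have h6 : (MF F b σ y - ((c⁻¹ : Fˣ) : F) • (1 : Matrix (Fin d) (Fin d) F)).rank =
      (MF F b σ y - (c : F) • (1 : Matrix (Fin d) (Fin d) F)).rank := by
    rw [← Matrix.rank_mul_eq_right_of_det_ne_zero ((MF F b σ y).transpose * BF), h5,
      Matrix.rank_mul_eq_left_of_det_ne_zero, Matrix.rank_transpose]
    · rw [Matrix.det_smul]
      exact mul_ne_zero (pow_ne_zero _ (neg_ne_zero.2 (Units.ne_zero _))) hdetF
    · rw [Matrix.det_mul, Matrix.det_transpose]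
      exact mul_ne_zero hdetM hdetF
  have h7 := mu_eq b σ y ((c⁻¹ : Fˣ) : F)
  have h8 := mu_eq b σ y (c : F)
  rw [h6] at h7
  omega

theorem card_pow_inj {m n : ℕ} (h : Fintype.card F ^ m = Fintype.card F ^ n) : m = n :=
  Nat.pow_right_injective (Fintype.one_lt_card : 1 < Fintype.card F) h

theorem mu_frob (y : H) (c : Fˣ) : mu (rho F b σ) y ((c ^ p : Fˣ) : F) = mu (rho F b σ) y (c : F) := by
  have hch : CharP F p := charP_of_injective_algebraMap (algebraMap (ZMod p) F).injective p
  have hexp : ExpChar F p := ExpChar.prime hp.out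
  apply card_pow_inj (F := F)
  rw [← card_fix, ← card_fix]
  symm
  -- the Frobenius map on vectors
  have hbij : Function.Bijective (frobenius F p) :=
    (Finite.injective_iff_bijective).1 (frobenius F p).injective
  let e : (Fin d → F) ≃ (Fin d → F) := Equiv.piCongrRight fun _ => Equiv.ofBijective _ hbij
  refine Nat.card_congr (Equiv.subtypeEquiv e fun w => ?_)
  have h1 : ∀ w, rho F b σ y (e w) = e (rho F b σ y w) := by
    intro w
    rw [rho_apply, rho_apply]
    funext i
    change _ = frobenius F p ((MF F b σ y).mulVec w i)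
    rw [Matrix.mulVec, Matrix.mulVec, dotProduct, dotProduct, map_sum]
    refine Finset.sum_congr rfl fun j _ => ?_
    rw [map_mul]
    congr 1
    change algebraMap (ZMod p) F _ = frobenius F p (algebraMap (ZMod p) F _)
    rw [frobenius_def, ← map_pow, ZMod.pow_card]
  have h2 : e ((c : F) • w) = ((c ^ p : Fˣ) : F) • e w := by
    funext i
    change frobenius F p ((c : F) * w i) = ((c ^ p : Fˣ) : F) * frobenius F p (w i)
    rw [map_mul, frobenius_def, Units.val_pow_eq_pow_val]
  rw [h1, ← h2]
  exact e.injective.eq_iff.symm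

/-- the dimension of the space of fixed points -/
theorem mu_one (y : H) : p ^ mu (rho F b σ) y 1 = Nat.card {a : A // σ y a = a} := by
  classical
  have hfin : Module.Finite (ZMod p) F := Module.Finite.of_finite
  let bF := Module.finBasis (ZMod p) F
  set f := Module.finrank (ZMod p) F with hf
  have hf0 : 0 < f := Module.finrank_pos
  have hcard : Fintype.card F = p ^ f := by
    rw [Module.card_eq_pow_finrank (K := ZMod p), ZMod.card]
  have h1 : (Nat.card {a : A // σ y a = a}) ^ f = Fintype.card F ^ mu (rho F b σ) y 1 := by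
    rw [← card_fix]
    have h2 : Nat.card {w : Fin d → F // rho F b σ y w = (1 : F) • w} =
        Nat.card (Fin f → {a : A // σ y a = a}) := by
      -- `F ^ d ≃ A ^ f`
      let e : (Fin d → F) ≃ (Fin f → A) :=
        { toFun := fun w k => b.equivFun.symm (fun i => bF.equivFun (w i) k)
          invFun := fun a i => bF.equivFun.symm (fun k => b.equivFun (a k) i)
          left_inv := fun w => by
            funext i
            simp only [LinearEquiv.apply_symm_apply]
            exact bF.equivFun.symm_apply_apply (w i)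
          right_inv := fun a => by
            funext k
            simp only [LinearEquiv.apply_symm_apply]
            exact b.equivFun.symm_apply_apply (a k) }
      have he : ∀ w k, e (rho F b σ y w) k = σ y (e w k) := by
        intro w k
        change b.equivFun.symm (fun i => bF.equivFun (rho F b σ y w i) k) = _
        apply b.equivFun.injective
        rw [LinearEquiv.apply_symm_apply]
        have h3 : b.equivFun (σ y (e w k)) = (MM b σ y).mulVec (b.equivFun (e w k)) := by
          have := LinearMap.toMatrix_mulVec_repr b b (σ y) (e w k)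
          rw [show MM b σ y = LinearMap.toMatrix b b (σ y) from rfl]
          exact this.symm
        rw [h3]
        have h4 : b.equivFun (e w k) = fun i => bF.equivFun (w i) k := by
          change b.equivFun (b.equivFun.symm _) = _
          rw [LinearEquiv.apply_symm_apply]
        rw [h4]
        funext i
        rw [rho_apply, Matrix.mulVec, Matrix.mulVec, dotProduct, dotProduct, map_sum, Finset.sum_apply]
        refine Finset.sum_congr rfl fun j _ => ?_
        change bF.equivFun (algebraMap (ZMod p) F (MM b σ y i j) * w j) k = _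
        rw [← Algebra.smul_def, map_smul, Pi.smul_apply, smul_eq_mul]
      have e2 : {w : Fin d → F // rho F b σ y w = (1 : F) • w} ≃ {a : Fin f → A // ∀ k, σ y (a k) = a k} :=
        Equiv.subtypeEquiv e fun w => by
          rw [one_smul, ← e.injective.eq_iff]
          constructor
          · intro h k
            rw [← he, h]
          · intro h
            funext k
            rw [he, h]
      rw [Nat.card_congr e2]
      exact Nat.card_congr (Equiv.subtypePiEquivPi (p := fun _ a => σ y a = a))
    rw [h2, Nat.card_fun, Nat.card_fin]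
  rw [hcard, ← pow_mul, mul_comm, pow_mul] at h1
  exact (Nat.pow_left_injective hf0.ne' h1).symm

end ext

/-- The function `ψ`. -/
theorem exists_psi {p : ℕ} [hp : Fact p.Prime] {A : Type w} [AddCommGroup A] [Module (ZMod p) A] [Finite A]
    {H : Type u} [Group H] [Finite H] (hpH : ¬ p ∣ Nat.card H) (σ : Representation (ZMod p) H A)
    (hfaith : ∀ y, σ y = 1 → y = 1) (β : LinearMap.BilinForm (ZMod p) A)
    (hβ : ∀ h u w, β (σ h u) (σ h w) = β u w) (hnd : ∀ u, (∀ w, β u w = 0) → u = 0) (L : ℕ) (hL : 0 < L)
    (hHL : Nat.card H ∣ L) :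
    ∃ (N : ℕ) (ζ : ℂ), 0 < N ∧ IsPrimitiveRoot ζ N ∧ L ∣ N ∧ ∃ ψ : H → ℂ, (∀ y, ψ y ∈ RZ ζ) ∧ ψ 1 = 1 ∧
      (∀ y, y ≠ 1 → ∃ r ∈ RZ ζ, ψ y = AA p 1 * r) ∧
      (∀ y, ‖ψ y‖ ^ 2 * (Nat.card {a : A // σ y a = a} : ℝ) = (Nat.card A : ℝ)) ∧
      ∃ K : ℕ, (fun y => (p : ℂ) ^ K * ψ y) ∈ VC H (RZ ζ) := by
  classical
  have := Fintype.ofFinite H
  set m := 2 * (Nat.card H).totient with hm
  have hH0 : 0 < Nat.card H := Nat.card_pos
  have hm0 : m ≠ 0 := by
    have := Nat.totient_pos.2 hH0
    omega
  let F := GaloisField p m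
  have : Finite F := by
    apply Nat.finite_of_card_ne_zero
    rw [GaloisField.card p m hm0]
    exact pow_ne_zero _ hp.out.ne_zero
  have := Fintype.ofFinite F
  have hcF : Fintype.card F = p ^ m := by
    rw [← Nat.card_eq_fintype_card, GaloisField.card p m hm0]
  set n := Fintype.card F - 1 with hn
  have hF4 : 4 ≤ Fintype.card F := by
    rw [hcF]
    calc 4 = 2 ^ 2 := by norm_num
      _ ≤ p ^ 2 := Nat.pow_le_pow_left hp.out.two_le 2
      _ ≤ p ^ m := Nat.pow_le_pow_right hp.out.pos (by
        have := Nat.totient_pos.2 hH0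
        omega)
  have hcop : p.Coprime (Nat.card H) := (Nat.Prime.coprime_iff_not_dvd hp.out).2 hpH
  have hq : Nat.card H ∣ n := by
    rw [hn, hcF]
    have h1 := Nat.ModEq.pow_totient hcop
    have h2 := h1.pow 2
    rw [one_pow, ← pow_mul, mul_comm, ← hm] at h2
    exact (Nat.modEq_iff_dvd' (Nat.one_le_pow _ _ hp.out.pos)).1 h2.symm
  have hFp : n.Coprime p := by
    rw [Nat.coprime_comm, Nat.Prime.coprime_iff_not_dvd hp.out]
    intro h
    have h1 : p ∣ Fintype.card F := by
      rw [hcF]; exact dvd_pow_self p hm0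
    have h2 : p ∣ Fintype.card F - n := Nat.dvd_sub h1 h
    have h3 : Fintype.card F - n = 1 := by omega
    rw [h3] at h2
    exact hp.out.one_lt.ne' (Nat.dvd_one.1 h2)
  -- the lift
  have hn0 : 0 < n := by omega
  have hnz : NeZero n := ⟨hn0.ne'⟩
  have hcard : Nat.card Fˣ = Nat.card (rootsOfUnity n ℂ) := by
    rw [Complex.card_rootsOfUnity, Nat.card_eq_fintype_card, Fintype.card_units]
  let e : Fˣ ≃* rootsOfUnity n ℂ := mulEquivOfCyclicCardEq hcard
  let θ : Fˣ →* ℂˣ := (rootsOfUnity n ℂ).subtype.comp e.toMonoidHom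
  have hθi : Function.Injective θ := (Subgroup.subtype_injective _).comp e.injective
  have hθ : θ ≠ 1 := by
    intro h
    have h1 : Nat.card Fˣ ≤ 1 := by
      have : Subsingleton Fˣ := ⟨fun a a' => hθi (by rw [h]; rfl)⟩
      exact Finite.card_le_one_iff_subsingleton.2 this
    rw [Nat.card_eq_fintype_card, Fintype.card_units] at h1
    omega
  have : Module.Finite (ZMod p) A := Module.Finite.of_finite
  let b := Module.finBasis (ZMod p) A
  set N := L * n * p ^ 2 with hNdef
  have hN : 0 < N := Nat.mul_pos (Nat.mul_pos hL hn0) (pow_pos hp.out.pos 2)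
  obtain ⟨ψ, h1, h2, h3, h4, h5⟩ := WL5.exists_psi p θ hθi hθ (rho F b σ) hq hFp
    (fun y c => mu_inv b σ β hβ hnd y c) (fun y c => mu_frob b σ y c) (by
      intro y hy
      apply hfaith
      have h1 : MF F b σ y = 1 := by
        have h2 : Matrix.toLin' (MF F b σ y) = Matrix.toLin' 1 := by
          rw [Matrix.toLin'_one]
          exact hy
        exact Matrix.toLin'.injective h2
      have h2 : MM b σ y = 1 := by
        have h3 : (MM b σ y).map (algebraMap (ZMod p) F) = (1 : Matrix _ _ (ZMod p)).map (algebraMap (ZMod p) F) := by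
          rw [Matrix.map_one _ (map_zero _) (map_one _)]
          exact h1
        exact Matrix.map_injective (algebraMap (ZMod p) F).injective h3
      have h3 : LinearMap.toMatrix b b (σ y) = LinearMap.toMatrix b b LinearMap.id := by
        rw [LinearMap.toMatrix_id]
        exact h2
      exact (LinearMap.toMatrix b b).injective h3)
    (ζ := Complex.exp (2 * Real.pi * Complex.I / N)) (N := N) hN (Complex.isPrimitiveRoot_exp N hN.ne')
    (hHL.trans (by rw [hNdef, mul_assoc]; exact dvd_mul_right _ _))
    (by rw [hNdef]; exact (dvd_mul_left _ _).trans (dvd_mul_right _ _))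
    (by rw [hNdef]; exact dvd_mul_left _ _)
  refine ⟨N, _, hN, Complex.isPrimitiveRoot_exp N hN.ne', (by rw [hNdef, mul_assoc]; exact dvd_mul_right _ _),
    ψ, h1, h2, h3, ?_, h5⟩
  intro y
  have h6 := h4 y
  have h7 := mu_one (F := F) b σ y
  have h8 : Nat.card A = p ^ Module.finrank F (Fin (Module.finrank (ZMod p) A) → F) := by
    have := Fintype.ofFinite A
    rw [Module.finrank_fin_fun, Nat.card_eq_fintype_card, Module.card_eq_pow_finrank (K := ZMod p), ZMod.card]
  rw [h8, ← h7]
  push_cast
  exact h6

end H84.WL6
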