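import Cfsg.Agent.Lib.H84.WL4
import Cfsg.Agent.Lib.H84.CharMisc
import Cfsg.Agent.Lib.H20.Defect
import Cfsg.Agent.Lib.H78.Cong
import Cfsg.Agent.Lib.H4.CenterIndex

/-!
The bound for the class number of `X` from a function `ψ` on the stabilizer of `v`.
-/

set_option autoImplicit false

namespace H84.WL7

open Cfsg H18.CharBasic H18.CharOrtho H18.CharInd H18.CharQuot H84.CharMisc H84.WL1 H84.WL4 Subgroup
open scoped ComplexConjugate

universe u

theorem col_norm {X : Type u} [Group X] [Finite X] [Fintype (IrrCharacter X)] (g : X) :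
    ∑ χ : IrrCharacter X, ‖(χ : X → ℂ) g‖ ^ 2 = (Nat.card (centralizer ({g} : Set X)) : ℝ) := by
  classical
  have h := column_orthogonality g g
  rw [if_pos (IsConj.refl g)] at h
  have h1 : ((∑ χ : IrrCharacter X, ‖(χ : X → ℂ) g‖ ^ 2 : ℝ) : ℂ) =
      ((Nat.card (centralizer ({g} : Set X)) : ℝ) : ℂ) := by
    push_cast
    rw [← h]
    refine Finset.sum_congr rfl fun χ _ => ?_
    rw [Complex.mul_conj, Complex.normSq_eq_norm_sq]
    push_cast; rfl
  exact_mod_cast h1

/-- `y ↦ χ (v y)` is a combination of characters of the centralizer of `v`. -/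
theorem trans_mem {X : Type u} [Group X] [Finite X] {χ : X → ℂ} (hχ : IsCharacter X χ) (v : X)
    (H : Subgroup X) [Fintype H] (hv : ∀ h ∈ H, h * v = v * h) {ζ : ℂ} {N : ℕ} (hN : 0 < N)
    (hζ : IsPrimitiveRoot ζ N) (hXN : Nat.card X ∣ N) : (fun h : H => χ (v * h)) ∈ VC H (RZ ζ) := by
  refine of_inner ?_ ?_
  · intro g h
    have h1 := isClassFunction_of_isCharacter hχ (v * (g : X)) (h : X)
    beta_reduce
    rw [← h1]
    congr 1
    have h2 := hv h h.2
    rw [Subgroup.coe_mul, Subgroup.coe_mul, Subgroup.coe_inv]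
    calc v * ((h : X) * (g : X) * (h : X)⁻¹) = (v * (h : X)) * (g : X) * (h : X)⁻¹ := by group
      _ = ((h : X) * v) * (g : X) * (h : X)⁻¹ := by rw [h2]
      _ = _ := by group
  · intro ψ hψ
    let Z : Subgroup X := zpowers v
    have hcomm : ∀ h : H, ∀ z : Z, Commute (h : X) (z : X) := by
      intro h z
      obtain ⟨k, hk⟩ := Subgroup.mem_zpowers_iff.1 z.2
      rw [← hk]
      exact (show Commute (h : X) v from hv h h.2).zpow_right k
    let m : H × Z →* X :=
      { toFun := fun x => (x.2 : X) * (x.1 : X)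
        map_one' := by simp
        map_mul' := by
          rintro ⟨h, z⟩ ⟨h', z'⟩
          simp only [Prod.mk_mul_mk, Subgroup.coe_mul]
          have := hcomm h z'
          calc (z : X) * (z' : X) * ((h : X) * (h' : X)) = (z : X) * ((z' : X) * (h : X)) * (h' : X) := by group
            _ = (z : X) * ((h : X) * (z' : X)) * (h' : X) := by rw [this.eq]
            _ = (z : X) * (h : X) * ((z' : X) * (h' : X)) := by group }
    have h1 : IsCharacter (H × Z) (fun x => χ ((x.2 : X) * (x.1 : X))) := isCharacter_comp m hχ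
    have h2 : IsCharacter (H × Z) (fun x => conj (ψ x.1)) :=
      isCharacter_comp (MonoidHom.fst H Z) (isCharacter_conj (isCharacter_of_isIrr hψ))
    have h3 := H20.Defect.isCharacter_avg (isCharacter_mul h1 h2)
    have h4 := char_val_mem h3 hN hζ ((Subgroup.card_subgroup_dvd_card Z).trans hXN)
      (⟨v, Subgroup.mem_zpowers v⟩ : Z)
    exact h4

theorem bound {X : Type u} [Group X] [Finite X] (p : ℕ) [hp : Fact p.Prime] (V : Subgroup X) [V.Normal]
    (hVexp : ∀ v ∈ V, v ^ p = 1) (hidx : ¬ p ∣ V.index) (hself : Subgroup.centralizer (V : Set X) = V)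
    (G : Subgroup X) (hGV : Subgroup.IsComplement' V G) (v : X) (hv : v ∈ V) {ζ : ℂ} {N : ℕ} (hN : 0 < N)
    (hζ : IsPrimitiveRoot ζ N) (hXN : Nat.card X ∣ N) (H : Subgroup X) (hH : H = G ⊓ centralizer ({v} : Set X))
    (ψ : H → ℂ) (hψR : ∀ y, ψ y ∈ RZ ζ) (hψ1 : ψ 1 = 1) (hψM : ∀ y, y ≠ 1 → ∃ r ∈ RZ ζ, ψ y = AA p 1 * r)
    (K : ℕ) (hψK : (fun y => (p : ℂ) ^ K * ψ y) ∈ VC H (RZ ζ)) (m : H → ℕ) (hm : ∀ y, ‖ψ y‖ ^ 2 = m y)
    (hmV : ∀ y : H, Nat.card ↥(V ⊓ centralizer ({(y : X)} : Set X)) * m y ≤ Nat.card V) :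
    Nat.card (ConjClasses X) ≤ Nat.card V := by
  classical
  have := Fintype.ofFinite X
  have := Fintype.ofFinite (IrrCharacter X)
  have hVab : ∀ a ∈ V, ∀ b ∈ V, a * b = b * a := by
    intro a ha b hb
    have h1 : b ∈ centralizer (V : Set X) := by rw [hself]; exact hb
    exact mem_centralizer_iff.1 h1 a ha
  have hVp : IsPGroup p V := by
    intro x
    refine ⟨1, Subtype.ext ?_⟩
    rw [pow_one]
    exact hVexp x x.2
  obtain ⟨M, hM⟩ := H78.Cong.exists_isPModular (Fact.out : p.Prime)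
  have hMprime : M.IsPrime := H20.Loc.pm_isPrime hM
  -- χ(v) is not in the ideal
  have hne : ∀ χ : IrrCharacter X, ¬ MemLocalIdeal M ((χ : X → ℂ) v) := by
    intro χ h0
    obtain ⟨d, hd⟩ := exists_degree (isCharacter_of_isIrr χ.2)
    have h1 : d ∣ V.index := H4.CenterIndex.ito χ.2 hd V hVab
    obtain ⟨k, hk⟩ := hVp ⟨v, hv⟩
    have hk' : v ^ p ^ k = 1 := congrArg Subtype.val hk
    have h2 := H78.Cong.char_congr_one hM (isCharacter_of_isIrr χ.2) hk'
    rw [hd] at h2
    have h3 : MemLocalIdeal M ((d : ℂ)) := by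
      have := H20.Loc.locI_sub h0 h2
      rwa [sub_sub_cancel] at this
    have hpd : ¬ p ∣ d := fun h => hidx (h.trans h1)
    exact hpd ((H20.Loc.locI_natCast_iff hM).1 h3)
  have := Fintype.ofFinite H
  have hHG : H ≤ G := by rw [hH]; exact inf_le_left
  have hHv : ∀ h ∈ H, h * v = v * h := fun h hh => by
    rw [hH] at hh
    exact mem_centralizer_singleton_iff.1 hh.2
  have hmemH : ∀ h ∈ G, h * v = v * h → h ∈ H := fun h hh h2 => by
    rw [hH]
    exact ⟨hh, mem_centralizer_singleton_iff.2 h2⟩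
  have hcardG : Nat.card G = V.index := by
    have h1 := hGV.card_mul_card
    have h2 := V.card_mul_index
    rw [← h2] at h1
    exact Nat.eq_of_mul_eq_mul_left Nat.card_pos h1
  have hcopH : p.Coprime (Nat.card H) := by
    rw [Nat.Prime.coprime_iff_not_dvd Fact.out]
    intro h
    apply hidx
    rw [← hcardG]
    exact h.trans (Subgroup.card_dvd_of_le hHG)
  have hdisj : ∀ x, x ∈ V → x ∈ G → x = 1 := by
    intro x h1 h2
    have h3 : x ∈ V ⊓ G := ⟨h1, h2⟩
    rw [hGV.disjoint.eq_bot] at h3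
    exact Subgroup.mem_bot.1 h3
  -- equality modulo `V` of elements of `G`
  have hmodV : ∀ g ∈ G, ∀ g' ∈ G, g * g'⁻¹ ∈ V → g = g' := by
    intro g hg g' hg' h
    exact mul_inv_eq_one.1 (hdisj _ h (G.mul_mem hg (G.inv_mem hg')))
  -- an exponent picking out `v`
  obtain ⟨k, hk⟩ : ∃ k : ℕ, ∀ y : H, (v * (y : X)) ^ k = v := by
    obtain ⟨k, hk1, hk2⟩ := Nat.chineseRemainder hcopH 1 0
    refine ⟨k, fun y => ?_⟩
    have hc : Commute v (y : X) := (hHv y y.2).symm
    rw [hc.mul_pow]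
    have h1 : v ^ k = v := by
      have := pow_eq_pow_of_modEq hk1 (hVexp v hv)
      rwa [pow_one] at this
    have h2 : (y : X) ^ k = 1 := by
      have h3 : (y : X) ^ Nat.card H = 1 := by
        have : y ^ Nat.card H = 1 := pow_card_eq_one'
        exact congrArg Subtype.val this
      have := pow_eq_pow_of_modEq hk2 h3
      rwa [pow_zero] at this
    rw [h1, h2, mul_one]
  -- conjugation between the `v * y`
  have hconjv : ∀ (y y' : H) (x : X), x * (v * y) * x⁻¹ = v * y' → x * v * x⁻¹ = v ∧ x * (y : X) * x⁻¹ = y' := by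
    intro y y' x hx
    have h1 : x * v * x⁻¹ = v := by
      have h2 : (x * (v * y) * x⁻¹) ^ k = x * (v * y) ^ k * x⁻¹ := conj_pow
      rw [hx, hk y', hk y] at h2
      exact h2.symm
    refine ⟨h1, ?_⟩
    have h2 : x * (v * (y : X)) * x⁻¹ = (x * v * x⁻¹) * (x * (y : X) * x⁻¹) := by group
    rw [h2, h1] at hx
    exact mul_left_cancel hx
  -- decomposition of elements centralizing `v`
  have hdec : ∀ (y y' : H) (x : X), x * v * x⁻¹ = v → x * (y : X) * x⁻¹ = y' →
      ∃ u ∈ V, ∃ h : H, x = u * h ∧ h * y * h⁻¹ = y' ∧ u * (y' : X) = y' * u := by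
    intro y y' x hxv hxy
    obtain ⟨⟨u, g⟩, hug⟩ := hGV.2 x
    have hug' : (u : X) * (g : X) = x := hug
    have hu : Commute (u : X) v := hVab _ u.2 v hv
    have hg' : (g : X) = (u : X)⁻¹ * x := by rw [← hug']; group
    have hxv' : Commute x v := mul_inv_eq_iff_eq_mul.1 hxv
    have hgv : Commute (g : X) v := by
      rw [hg']; exact hu.inv_left.mul_left hxv'
    have hgH : (g : X) ∈ H := hmemH _ g.2 hgv
    -- modulo V
    have h1 : (g : X) * (y : X) * (g : X)⁻¹ = y' := by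
      apply hmodV _ (G.mul_mem (G.mul_mem g.2 (hHG y.2)) (G.inv_mem g.2)) _ (hHG y'.2)
      have h2 : (u : X) * ((g : X) * (y : X) * (g : X)⁻¹) * (u : X)⁻¹ = y' := by
        rw [← hxy, ← hug']; group
      have h3 : (g : X) * (y : X) * (g : X)⁻¹ = (u : X)⁻¹ * (y' : X) * (u : X) := by
        rw [← h2]; group
      rw [h3]
      have h4 : (y' : X) * (u : X) * (y' : X)⁻¹ ∈ V := Normal.conj_mem inferInstance _ u.2 _
      have h5 : (u : X)⁻¹ * (y' : X) * (u : X) * (y' : X)⁻¹ = (u : X)⁻¹ * ((y' : X) * (u : X) * (y' : X)⁻¹) := by group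
      rw [h5]
      exact V.mul_mem (V.inv_mem u.2) h4
    refine ⟨u, u.2, ⟨g, hgH⟩, hug'.symm, Subtype.ext h1, ?_⟩
    have h2 : (u : X) * ((g : X) * (y : X) * (g : X)⁻¹) * (u : X)⁻¹ = y' := by
      rw [← hxy, ← hug']; group
    rw [h1] at h2
    exact mul_inv_eq_iff_eq_mul.1 h2
  -- fusion
  have hfus : ∀ y y' : H, IsConj (v * (y : X)) (v * (y' : X)) ↔ IsConj y y' := by
    intro y y'
    rw [isConj_iff, isConj_iff]
    constructor
    · rintro ⟨x, hx⟩
      obtain ⟨h1, h2⟩ := hconjv y y' x hx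
      obtain ⟨u, -, h, -, h3, -⟩ := hdec y y' x h1 h2
      exact ⟨h, h3⟩
    · rintro ⟨h, hh⟩
      refine ⟨h, ?_⟩
      rw [← hh, Subgroup.coe_mul, Subgroup.coe_mul, Subgroup.coe_inv]
      have h2 := hHv h h.2
      calc (h : X) * (v * (y : X)) * (h : X)⁻¹ = ((h : X) * v) * (y : X) * (h : X)⁻¹ := by group
        _ = (v * (h : X)) * (y : X) * (h : X)⁻¹ := by rw [h2]
        _ = _ := by group
  -- centralizers
  have hcent : ∀ y : H, Nat.card (centralizer ({v * (y : X)} : Set X)) =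
      Nat.card ↥(V ⊓ centralizer ({(y : X)} : Set X)) * Nat.card (centralizer ({y} : Set H)) := by
    intro y
    rw [← Nat.card_prod]
    symm
    refine Nat.card_congr (Equiv.ofBijective (fun z : ↥(V ⊓ centralizer ({(y : X)} : Set X)) × centralizer ({y} : Set H) =>
      (⟨(z.1 : X) * ((z.2 : H) : X), ?_⟩ : centralizer ({v * (y : X)} : Set X))) ⟨?_, ?_⟩)
    · rw [mem_centralizer_singleton_iff]
      have h1 : Commute (z.1 : X) v := hVab _ z.1.2.1 v hv
      have h2 : Commute ((z.2 : H) : X) v := hHv _ (z.2 : H).2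
      have h3 : Commute (z.1 : X) (y : X) := mem_centralizer_singleton_iff.1 z.1.2.2
      have h4 : Commute ((z.2 : H) : X) (y : X) := by
        have := mem_centralizer_singleton_iff.1 z.2.2
        exact congrArg Subtype.val this
      exact ((h1.mul_left h2).mul_right (h3.mul_left h4))
    · rintro ⟨⟨a, ha⟩, ⟨b, hb⟩⟩ ⟨⟨a', ha'⟩, ⟨b', hb'⟩⟩ hh
      have h1 : a * (b : X) = a' * (b' : X) := congrArg Subtype.val hh
      have h2 := hGV.1 (a₁ := (⟨a, ha.1⟩, ⟨b, hHG b.2⟩)) (a₂ := (⟨a', ha'.1⟩, ⟨b', hHG b'.2⟩)) h1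
      have h3 : a = a' := congrArg (Subtype.val : V → X) (congrArg Prod.fst h2)
      have h4 : b = b' := Subtype.ext (congrArg (Subtype.val : G → X) (congrArg Prod.snd h2))
      subst h3; subst h4; rfl
    · rintro ⟨x, hx⟩
      have h0 : x * (v * (y : X)) * x⁻¹ = v * y := by
        rw [mem_centralizer_singleton_iff] at hx
        rw [hx, mul_inv_cancel_right]
      obtain ⟨h1, h2⟩ := hconjv y y x h0
      obtain ⟨u, hu, h, h3, h4, h5⟩ := hdec y y x h1 h2
      refine ⟨(⟨u, hu, mem_centralizer_singleton_iff.2 h5⟩, ⟨h, mem_centralizer_singleton_iff.2 ?_⟩), Subtype.ext h3.symm⟩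
      exact mul_inv_eq_iff_eq_mul.1 h4
  -- `ψ` is a class function
  have hp0 : (p : ℂ) ≠ 0 := by exact_mod_cast hp.out.ne_zero
  have hψcl : ∀ y y' : H, IsConj y y' → ψ y' = ψ y := by
    intro y y' h
    obtain ⟨x, hx⟩ := isConj_iff.1 h
    have h1 := isClass hψK y x
    rw [hx] at h1
    exact mul_left_cancel₀ (pow_ne_zero K hp0) h1
  have hH0 : (Nat.card H : ℂ) ≠ 0 := by exact_mod_cast Nat.card_pos.ne'
  -- the coefficients
  let a : IrrCharacter X → ℂ := fun χ => (Nat.card H : ℂ)⁻¹ * ∑ y : H, (χ : X → ℂ) (v * (y : X)) * ψ y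
  have hvalR : ∀ (χ : IrrCharacter X) (x : X), (χ : X → ℂ) x ∈ RZ ζ := fun χ x =>
    char_val_mem (isCharacter_of_isIrr χ.2) hN hζ hXN x
  have haH : ∀ χ, (Nat.card H : ℂ) * a χ = ∑ y : H, (χ : X → ℂ) (v * (y : X)) * ψ y := by
    intro χ
    simp only [a]
    rw [← mul_assoc, mul_inv_cancel₀ hH0, one_mul]
  have haR : ∀ χ, a χ ∈ RZ ζ := by
    intro χ
    have h1 : (Nat.card H : ℂ) * a χ ∈ RZ ζ := by
      rw [haH]
      exact sum_mem fun y _ => (RZ ζ).mul_mem (hvalR χ _) (hψR y)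
    have h2 : (p : ℂ) ^ K * a χ ∈ RZ ζ := by
      have h3 := mul_mem' (trans_mem (isCharacter_of_isIrr χ.2) v H hHv hN hζ hXN) hψK
      have h4 := inner_mem_char h3 (isCharacter_one (G := H))
      have h5 : classInner (fun x : H => (χ : X → ℂ) (v * (x : X)) * ((p : ℂ) ^ K * ψ x)) (fun _ => 1) =
          (p : ℂ) ^ K * a χ := by
        unfold classInner
        simp only [a, map_one, mul_one]
        rw [mul_left_comm, Finset.mul_sum (a := (p : ℂ) ^ K)]
        congr 1
        exact Finset.sum_congr rfl fun y _ => by ring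
      rw [← h5]
      exact h4
    have hcop : IsCoprime ((Nat.card H : ℕ) : ℤ) ((p ^ K : ℕ) : ℤ) :=
      Nat.isCoprime_iff_coprime.2 (Nat.Coprime.pow_right K hcopH.symm)
    obtain ⟨s, t, hst⟩ := hcop
    have h3 : a χ = (s : ℂ) * ((Nat.card H : ℂ) * a χ) + (t : ℂ) * ((p : ℂ) ^ K * a χ) := by
      have : ((s : ℂ) * (Nat.card H : ℂ) + (t : ℂ) * (p : ℂ) ^ K) = 1 := by exact_mod_cast hst
      linear_combination (-(a χ)) * this
    rw [h3]
    exact add_mem ((RZ ζ).mul_mem (int_mem ζ s) h1) ((RZ ζ).mul_mem (int_mem ζ t) h2)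
  have ha0 : ∀ χ, a χ ≠ 0 := by
    intro χ h0
    have h1 := haH χ
    rw [h0, mul_zero, ← Finset.add_sum_erase _ _ (Finset.mem_univ (1 : H)), hψ1, mul_one, Subgroup.coe_one,
      mul_one] at h1
    apply hne χ
    have h2 : MemLocalIdeal M (∑ y ∈ Finset.univ.erase (1 : H), (χ : X → ℂ) (v * (y : X)) * ψ y) := by
      refine H20.Loc.locI_sum fun y hy => ?_
      obtain ⟨r, hr, hr2⟩ := hψM y (Finset.ne_of_mem_erase hy)
      rw [hr2]
      refine H20.Loc.locI_mul_left ?_ (H20.Loc.locI_mul_right (AA_one_mem p hM) ?_)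
      · exact H20.Loc.isIntegral_mem (integral_of_mem hN hζ (hvalR χ _))
      · exact H20.Loc.isIntegral_mem (integral_of_mem hN hζ hr)
    have h3 : (χ : X → ℂ) v = -∑ y ∈ Finset.univ.erase (1 : H), (χ : X → ℂ) (v * (y : X)) * ψ y :=
      eq_neg_of_add_eq_zero_left h1.symm
    rw [h3]
    exact H20.Loc.locI_neg h2
  -- the sum of squares
  let S : ℝ := (Nat.card H : ℝ)⁻¹ * ∑ y : H, (Nat.card ↥(V ⊓ centralizer ({(y : X)} : Set X)) : ℝ) * (m y : ℝ)
  have hHr : (Nat.card H : ℝ) ≠ 0 := by exact_mod_cast Nat.card_pos.ne'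
  have hsum : ∑ χ : IrrCharacter X, ‖a χ‖ ^ 2 = S := by
    have h1 : ((∑ χ : IrrCharacter X, ‖a χ‖ ^ 2 : ℝ) : ℂ) = (S : ℂ) := by
      push_cast
      have h2 : ∀ χ : IrrCharacter X, ((‖a χ‖ : ℂ)) ^ 2 = (Nat.card H : ℂ)⁻¹ * (Nat.card H : ℂ)⁻¹ *
          ∑ y : H, ∑ y' : H, (ψ y * conj (ψ y')) * ((χ : X → ℂ) (v * (y : X)) * conj ((χ : X → ℂ) (v * (y' : X)))) := by
        intro χ
        have h3 : ((‖a χ‖ : ℂ)) ^ 2 = a χ * conj (a χ) := by
          rw [Complex.mul_conj, Complex.normSq_eq_norm_sq]; push_cast; rfl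
        rw [h3]
        simp only [a]
        rw [map_mul, map_inv₀, map_sum, Complex.conj_natCast]
        have h4 : ∀ A B C D : ℂ, A * B * (C * D) = A * C * (B * D) := fun A B C D => by ring
        rw [h4, Finset.sum_mul_sum]
        congr 1
        refine Finset.sum_congr rfl fun y _ => Finset.sum_congr rfl fun y' _ => ?_
        rw [map_mul]; ring
      rw [Finset.sum_congr rfl (fun χ _ => h2 χ), ← Finset.mul_sum, Finset.sum_comm]
      have h5 : ∀ y : H, ∑ χ : IrrCharacter X, ∑ y' : H, (ψ y * conj (ψ y')) *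
          ((χ : X → ℂ) (v * (y : X)) * conj ((χ : X → ℂ) (v * (y' : X)))) =
          (Nat.card H : ℂ) * ((Nat.card ↥(V ⊓ centralizer ({(y : X)} : Set X)) : ℂ) * (m y : ℂ)) := by
        intro y
        rw [Finset.sum_comm]
        have h6 : ∀ y' : H, ∑ χ : IrrCharacter X, (ψ y * conj (ψ y')) *
            ((χ : X → ℂ) (v * (y : X)) * conj ((χ : X → ℂ) (v * (y' : X)))) =
            if IsConj y y' then (m y : ℂ) * (Nat.card (centralizer ({v * (y : X)} : Set X)) : ℂ) else 0 := by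
          intro y'
          rw [← Finset.mul_sum, column_orthogonality]
          by_cases hc : IsConj y y'
          · rw [if_pos ((hfus y y').2 hc), if_pos hc, hψcl y y' hc]
            congr 1
            rw [Complex.mul_conj, Complex.normSq_eq_norm_sq, hm y]
            push_cast; rfl
          · rw [if_neg (fun h => hc ((hfus y y').1 h)), if_neg hc, mul_zero]
        rw [Finset.sum_congr rfl (fun y' _ => h6 y'), ← Finset.sum_filter, Finset.sum_const, nsmul_eq_mul]
        have h7 : (Finset.univ.filter fun y' : H => IsConj y y').card = Nat.card {y' : H // IsConj y y'} := by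
          rw [Nat.card_eq_fintype_card, Fintype.card_subtype]
        have h8 := card_isConj_mul_card_centralizer y
        rw [h7, hcent y, ← h8]
        push_cast
        ring
      rw [Finset.sum_congr rfl (fun y _ => h5 y), ← Finset.mul_sum]
      simp only [S]
      push_cast
      field_simp
    exact_mod_cast h1
  have hSint : (Nat.card H : ℝ) * S =
      ((∑ y : H, (Nat.card ↥(V ⊓ centralizer ({(y : X)} : Set X)) * m y : ℕ) : ℕ) : ℤ) := by
    simp only [S]
    rw [← mul_assoc, mul_inv_cancel₀ hHr, one_mul]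
    push_cast
    rfl
  have hSV : S ≤ (Nat.card V : ℝ) := by
    have h1 : ∑ y : H, (Nat.card ↥(V ⊓ centralizer ({(y : X)} : Set X)) : ℝ) * (m y : ℝ) ≤
        ∑ _y : H, (Nat.card V : ℝ) := Finset.sum_le_sum fun y _ => by exact_mod_cast hmV y
    rw [Finset.sum_const, Finset.card_univ, nsmul_eq_mul, ← Nat.card_eq_fintype_card] at h1
    have h2 : (0 : ℝ) < (Nat.card H : ℝ) := by exact_mod_cast Nat.card_pos
    simp only [S]
    rw [inv_mul_le_iff₀ h2]
    exact h1
  have hfin := card_le hN hζ a haR ha0 S (Nat.card H) Nat.card_pos _ hSint hsum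
  rw [← card_irr_eq_card_conjClasses, Nat.card_eq_fintype_card]
  exact_mod_cast hfin.trans hSV

end H84.WL7
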