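import Cfsg.Agent.Lib.H84.WL6

/-!
Multiplicative version of `WL6.exists_psi`.
-/

set_option autoImplicit false

namespace H84.WL8

open Cfsg H84.WL1 H84.WL4

universe u w

section

variable {p : ℕ} [hp : Fact p.Prime] {U : Type w} [CommGroup U] [Module (ZMod p) (Additive U)] {H : Type u} [Group H]

variable (p) in
noncomputable def sig (φ : H →* MulAut U) : Representation (ZMod p) H (Additive U) where
  toFun h := (MonoidHom.toAdditive (φ h).toMonoidHom).toZModLinearMap p
  map_one' := by
    apply LinearMap.ext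
    intro x
    rw [map_one]
    rfl
  map_mul' g h := by
    apply LinearMap.ext
    intro x
    rw [map_mul]
    rfl

theorem sig_apply (φ : H →* MulAut U) (h : H) (x : Additive U) :
    sig p φ h x = Additive.ofMul (φ h (Additive.toMul x)) := rfl

variable (p) in
noncomputable def bet (β : U → U → ZMod p) (hl : ∀ u u' w, β (u * u') w = β u w + β u' w)
    (hr : ∀ u w w', β u (w * w') = β u w + β u w') : LinearMap.BilinForm (ZMod p) (Additive U) :=
  let β1 : Additive U → (Additive U →+ ZMod p) := fun x => AddMonoidHom.mk'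
    (fun y => β (Additive.toMul x) (Additive.toMul y)) (fun _ _ => hr _ _ _)
  let β2 : Additive U → (Additive U →+ ZMod p) := fun y => AddMonoidHom.mk'
    (fun x => β (Additive.toMul x) (Additive.toMul y)) (fun _ _ => hl _ _ _)
  LinearMap.mk₂ (ZMod p) (fun x y => β (Additive.toMul x) (Additive.toMul y))
      (fun x x' y => (β2 y).map_add x x') (fun c x y => ZMod.map_smul (β2 y) c x)
      (fun x y y' => (β1 x).map_add y y') (fun c x y => ZMod.map_smul (β1 x) c y)

theorem bet_apply (β : U → U → ZMod p) (hl : ∀ u u' w, β (u * u') w = β u w + β u' w)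
    (hr : ∀ u w w', β u (w * w') = β u w + β u w') (x y : Additive U) :
    bet p β hl hr x y = β (Additive.toMul x) (Additive.toMul y) := rfl

end

theorem exists_psi {p : ℕ} [hp : Fact p.Prime] {U : Type w} [CommGroup U] [Finite U] (hexp : ∀ u : U, u ^ p = 1)
    {H : Type u} [Group H] [Finite H] (hpH : ¬ p ∣ Nat.card H) (φ : H →* MulAut U)
    (hfaith : ∀ h, (∀ u, φ h u = u) → h = 1) (β : U → U → ZMod p)
    (hl : ∀ u u' w, β (u * u') w = β u w + β u' w) (hr : ∀ u w w', β u (w * w') = β u w + β u w')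
    (hβ : ∀ h u w, β (φ h u) (φ h w) = β u w) (hnd : ∀ u, (∀ w, β u w = 0) → u = 1) (L : ℕ) (hL : 0 < L)
    (hHL : Nat.card H ∣ L) :
    ∃ (N : ℕ) (ζ : ℂ), 0 < N ∧ IsPrimitiveRoot ζ N ∧ L ∣ N ∧ ∃ ψ : H → ℂ, (∀ y, ψ y ∈ RZ ζ) ∧ ψ 1 = 1 ∧
      (∀ y, y ≠ 1 → ∃ r ∈ RZ ζ, ψ y = AA p 1 * r) ∧
      (∀ y, ‖ψ y‖ ^ 2 * (Nat.card {a : U // φ y a = a} : ℝ) = (Nat.card U : ℝ)) ∧
      ∃ K : ℕ, (fun y => (p : ℂ) ^ K * ψ y) ∈ VC H (RZ ζ) := by
  letI instM : Module (ZMod p) (Additive U) := AddCommGroup.zmodModule (n := p) (G := Additive U) (by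
    intro x
    apply Additive.toMul.injective
    exact hexp _)
  obtain ⟨N, ζ, h1, h2, h3, ψ, h4, h5, h6, h7, h8⟩ := H84.WL6.exists_psi (p := p) hpH (sig p φ)
    (by
      intro h hh
      refine hfaith h fun u => ?_
      have h1 : sig p φ h (Additive.ofMul u) = Additive.ofMul u := by rw [hh]; rfl
      rw [sig_apply] at h1
      exact Additive.ofMul.injective h1)
    (bet p β hl hr)
    (by
      intro h u w
      rw [bet_apply, bet_apply]
      exact hβ _ _ _)
    (by
      intro u hu
      apply Additive.toMul.injective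
      exact hnd _ fun w => hu (Additive.ofMul w))
    L hL hHL
  refine ⟨N, ζ, h1, h2, h3, ψ, h4, h5, h6, fun y => ?_, h8⟩
  have h9 := h7 y
  have e1 : Nat.card (Additive U) = Nat.card U := Nat.card_congr Additive.toMul
  have e2 : Nat.card {a : Additive U // sig p φ y a = a} = Nat.card {a : U // φ y a = a} :=
    Nat.card_congr (Equiv.subtypeEquiv Additive.toMul fun a => by
      rw [sig_apply]
      exact ⟨fun h => by rw [← h]; exact congrArg _ (congrArg _ h), fun h => congrArg _ h⟩)
  rw [e1, e2] at h9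
  exact h9

end H84.WL8
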